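import Cfsg.Agent.Lib.SFourStep.Def
import Mathlib.GroupTheory.PGroup

/-!
The squared offender bound for actions of groups with steps on elementary abelian 2-groups,
modulo the 2-radical of the action.
-/

set_option autoImplicit false
set_option linter.style.haveILetI false

namespace CfsgLib.SFourStep

open Cfsg CfsgLib.SFourFree

universe u

variable {L : Type u} [Group L] [Finite L]

/-- An element acting with odd prime order `r` on a 2-group: the index of its fixed points is a power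
`2 ^ d` with `r ∣ 2 ^ d - 1`. -/
theorem dvd_two_pow_sub_one {W : Subgroup L} (hW : IsPGroup 2 W) {v : L}
    (hv : v ∈ Subgroup.normalizer (W : Set L)) {r : ℕ} (hr : r.Prime) (hr2 : r ≠ 2)
    (hvr : v ^ r ∈ Subgroup.centralizer (W : Set L)) :
    ∃ d, (W ⊓ Subgroup.centralizer ({v} : Set L)).relIndex W = 2 ^ d ∧ r ∣ 2 ^ d - 1 := by
  haveI : Fact (Nat.Prime 2) := ⟨Nat.prime_two⟩
  haveI : Fact r.Prime := ⟨hr⟩
  set Cv := W ⊓ Subgroup.centralizer ({v} : Set L) with hCv
  obtain ⟨d, hd⟩ := IsPGroup.index hW (Cv.subgroupOf W)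
  refine ⟨d, hd, ?_⟩
  set φ : MulAut W :=
    { toFun := fun x => ⟨v * x * v⁻¹, (Subgroup.mem_normalizer_iff.1 hv x).1 x.2⟩
      invFun := fun x => ⟨v⁻¹ * x * v, (Subgroup.mem_normalizer_iff''.1 hv x).1 x.2⟩
      left_inv := fun x => Subtype.ext (by simp [mul_assoc])
      right_inv := fun x => Subtype.ext (by simp [mul_assoc])
      map_mul' := fun x y => Subtype.ext (by simp [mul_assoc]) } with hφ
  have hpow : ∀ (n : ℕ) (x : W), (((φ ^ n) x : W) : L) = v ^ n * x * (v ^ n)⁻¹ := by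
    intro n x
    induction n with
    | zero => simp
    | succ n ih =>
      rw [pow_succ', MulAut.mul_apply]
      show v * ((φ ^ n) x : W) * v⁻¹ = _
      rw [ih, pow_succ' v n]
      group
  have hP : IsPGroup r (Subgroup.zpowers φ) := by
    have hφr : φ ^ r = 1 := MulEquiv.ext fun x => Subtype.ext (by
      rw [hpow, conj_eq_of_mem_centralizer hvr x.2]; rfl)
    rintro ⟨g, hg⟩
    obtain ⟨i, rfl⟩ := Subgroup.mem_zpowers_iff.1 hg
    refine ⟨1, Subtype.ext ?_⟩
    show (φ ^ i) ^ r ^ 1 = 1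
    rw [pow_one, ← zpow_natCast, ← zpow_mul, mul_comm, zpow_mul, zpow_natCast, hφr, one_zpow]
  have hmod := hP.card_modEq_card_fixedPoints W
  have hfix : Nat.card (MulAction.fixedPoints (Subgroup.zpowers φ) W) = Nat.card (Cv.subgroupOf W) := by
    refine Nat.card_congr (Equiv.subtypeEquivRight fun x => ?_)
    constructor
    · intro hx
      refine ⟨x.2, Subgroup.mem_centralizer_singleton_iff.2 ?_⟩
      have h1 : v * (x : L) * v⁻¹ = x :=
        congrArg Subtype.val (hx ⟨φ, Subgroup.mem_zpowers φ⟩)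
      exact (mul_inv_eq_iff_eq_mul.1 h1).symm
    · intro hx g
      have h1 : φ x = x := Subtype.ext (mul_inv_eq_iff_eq_mul.2
        (Subgroup.mem_centralizer_singleton_iff.1 hx.2).symm)
      have : Subgroup.zpowers φ ≤ MulAction.stabilizer (MulAut W) x := Subgroup.zpowers_le.2 h1
      exact this g.2
  rw [hfix] at hmod
  have hmul : Nat.card (Cv.subgroupOf W) * 2 ^ d = Nat.card W := by
    rw [← hd]; exact (Cv.subgroupOf W).card_mul_index
  rw [← hmul] at hmod
  have h1 : r ∣ Nat.card (Cv.subgroupOf W) * (2 ^ d - 1) := by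
    rw [Nat.mul_sub, mul_one]
    exact (Nat.modEq_iff_dvd' (Nat.le_mul_of_pos_right _ (Nat.two_pow_pos d))).1 hmod.symm
  refine (hr.dvd_mul.1 h1).resolve_left fun h => ?_
  obtain ⟨c, hc⟩ := IsPGroup.iff_card.1 (hW.to_subgroup (Cv.subgroupOf W))
  rw [hc] at h
  exact hr2 ((Nat.prime_dvd_prime_iff_eq hr Nat.prime_two).1 (hr.dvd_of_dvd_pow h))

/-- An element acting with prime order `p` on `W`, inverted by `a`, forces index `≥ 4 ^ k` of the fixed
points of `a`, if 2 has large order modulo `p`. -/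
theorem pow_four_le_relIndex {W : Subgroup L} (hW : IsElementaryAbelian 2 W) {a v : L}
    (hv : v ∈ Subgroup.normalizer (W : Set L)) (ha : a ∈ Subgroup.normalizer (W : Set L))
    {p k : ℕ} (hp : p.Prime) (hp2 : p ≠ 2)
    (hord : ∀ i, 0 < i → i ≤ 4 * k - 2 → ¬ p ∣ 2 ^ i - 1) (hvp : v ^ p ∈ Subgroup.centralizer (W : Set L))
    (hinv : a * v * a⁻¹ * v ∈ Subgroup.centralizer (W : Set L))
    (hnt : v ∉ Subgroup.centralizer (W : Set L)) :
    4 ^ k ≤ (W ⊓ Subgroup.centralizer ({a} : Set L)).relIndex W := by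
  by_contra hlt
  apply hnt
  haveI : Fact (Nat.Prime 2) := ⟨Nat.prime_two⟩
  set C1 := W ⊓ Subgroup.centralizer ({a} : Set L) with hC1
  obtain ⟨e, he⟩ :=
    IsPGroup.index (CfsgLib.ThompsonJ.isPGroup_of_isElementaryAbelian hW) (C1.subgroupOf W)
  have he' : C1.relIndex W = 2 ^ e := he
  rw [he', show (4 : ℕ) ^ k = 2 ^ (2 * k) by rw [pow_mul]; norm_num] at hlt
  have hek : e < 2 * k := by
    by_contra h
    exact hlt (Nat.pow_le_pow_right (by norm_num) (not_lt.1 h))
  have hidx : C1.relIndex W ≤ 2 ^ e := he'.le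
  have hcj : ∀ {g w : L}, g ∈ Subgroup.normalizer (W : Set L) → w ∈ W → g * w * g⁻¹ ∈ W :=
    fun hg hw => (Subgroup.mem_normalizer_iff.1 hg _).1 hw
  set C2 := C1.map (MulAut.conj v).toMonoidHom with hC2
  have hWW : W.map (MulAut.conj v).toMonoidHom = W := Subgroup.mem_normalizer_iff_map_conj_eq.mp hv
  have hidx2 : C2.relIndex W ≤ 2 ^ e := by
    conv_lhs => arg 2; rw [← hWW]
    rw [hC2, Subgroup.relIndex_map_map_of_injective _ _ (MulAut.conj v).injective]
    exact hidx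
  set Cv := W ⊓ Subgroup.centralizer ({v} : Set L) with hCv
  have hsub : C1 ⊓ C2 ≤ Cv := by
    rintro w ⟨hw1, c, hc, hcw⟩
    have hcw' : v * c * v⁻¹ = w := hcw
    refine ⟨hw1.1, Subgroup.mem_centralizer_singleton_iff.2 ?_⟩
    have hfa : a * w * a⁻¹ = w := by
      rw [← Subgroup.mem_centralizer_singleton_iff.1 hw1.2, mul_inv_cancel_right]
    have hca : a * c * a⁻¹ = c := by
      rw [← Subgroup.mem_centralizer_singleton_iff.1 hc.2, mul_inv_cancel_right]
    -- `a v a⁻¹` acts on `W` as `v⁻¹`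
    have hact : ∀ t ∈ W, (a * v * a⁻¹) * (v * t * v⁻¹) * (a * v * a⁻¹)⁻¹ = t := by
      intro t ht
      calc (a * v * a⁻¹) * (v * t * v⁻¹) * (a * v * a⁻¹)⁻¹
          = (a * v * a⁻¹ * v) * t * (a * v * a⁻¹ * v)⁻¹ := by group
        _ = t := conj_eq_of_mem_centralizer hinv ht
    have h1 : (a * v * a⁻¹) * w * (a * v * a⁻¹)⁻¹ = c := hcw' ▸ hact c hc.1
    have h2 : (a * v * a⁻¹) * w * (a * v * a⁻¹)⁻¹ = a * (v * w * v⁻¹) * a⁻¹ := by
      have : a⁻¹ * w * a = w := by
        calc a⁻¹ * w * a = a⁻¹ * (a * w * a⁻¹) * a := by rw [hfa]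
          _ = w := by group
      calc (a * v * a⁻¹) * w * (a * v * a⁻¹)⁻¹ = a * v * (a⁻¹ * w * a) * v⁻¹ * a⁻¹ := by group
        _ = a * (v * w * v⁻¹) * a⁻¹ := by rw [this]; group
    have h3 : v * w * v⁻¹ = c := (MulAut.conj a).injective (h2.symm.trans (h1.trans hca.symm))
    have h4 : v ^ 2 * c * (v ^ 2)⁻¹ = c := by
      calc v ^ 2 * c * (v ^ 2)⁻¹ = v * (v * c * v⁻¹) * v⁻¹ := by rw [pow_two]; group
        _ = c := by rw [hcw', h3]
    have h5 : v ^ p * c * (v ^ p)⁻¹ = c := conj_eq_of_mem_centralizer hvp hc.1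
    have h6 : v ∈ Subgroup.centralizer ({c} : Set L) :=
      mem_of_pow_mem_coprime
        (Subgroup.mem_centralizer_singleton_iff.2 (mul_inv_eq_iff_eq_mul.1 h4))
        (Subgroup.mem_centralizer_singleton_iff.2 (mul_inv_eq_iff_eq_mul.1 h5))
        ((Nat.coprime_primes Nat.prime_two hp).2 (Ne.symm hp2))
    have h7 : v * c * v⁻¹ = c := mul_inv_eq_iff_eq_mul.2 (Subgroup.mem_centralizer_singleton_iff.1 h6)
    have hwc : w = c := hcw'.symm.trans h7
    rw [hwc]
    exact (mul_inv_eq_iff_eq_mul.1 h7).symm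
  have hD : Cv.relIndex W ≤ 2 ^ e * 2 ^ e :=
    le_trans (relIndex_le_of_le_left hsub W)
      (le_trans Subgroup.relIndex_inf_le (Nat.mul_le_mul hidx hidx2))
  obtain ⟨d, hd, hpd⟩ := dvd_two_pow_sub_one (CfsgLib.ThompsonJ.isPGroup_of_isElementaryAbelian hW) hv
    hp hp2 hvp
  rw [← hCv] at hd
  rw [hd, ← pow_add] at hD
  have hde : d ≤ e + e := (Nat.pow_le_pow_iff_right (by norm_num)).1 hD
  rcases Nat.eq_zero_or_pos d with rfl | hd0
  · have h1 : W ≤ Subgroup.centralizer ({v} : Set L) :=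
      (Subgroup.relIndex_eq_one.1 (hd.trans (pow_zero 2))).trans inf_le_right
    exact Subgroup.mem_centralizer_iff.2 fun w hw =>
      Subgroup.mem_centralizer_singleton_iff.1 (h1 hw)
  · exact absurd hpd (hord d hd0 (by omega))

/-- A group with trivial 2-radical on a module has no involution inverting an element of order three
modulo the centraliser. -/
theorem inv3Free_quotient (h4 : ¬ Involves (Equiv.Perm (Fin 4)) L) {U : Subgroup L} [U.Normal]
    (hU : IsPGroup 2 U) : Inv3Free (L ⧸ Subgroup.centralizer (U : Set L)) := by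
  intro a u ha hu he
  obtain ⟨a, rfl⟩ := QuotientGroup.mk'_surjective _ a
  obtain ⟨u, rfl⟩ := QuotientGroup.mk'_surjective _ u
  refine false_of_inverted_three h4 hU (a := a) (u := u) ?_ ?_ ?_ ?_
  · rw [← QuotientGroup.eq_one_iff, ← QuotientGroup.mk'_apply, map_pow]; exact ha
  · intro h
    rw [QuotientGroup.mk'_apply, (QuotientGroup.eq_one_iff u).2 h, orderOf_one] at hu
    norm_num at hu
  · rw [← QuotientGroup.eq_one_iff, ← QuotientGroup.mk'_apply, map_pow, ← hu, pow_orderOf_eq_one]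
  · rw [← QuotientGroup.eq_one_iff, ← QuotientGroup.mk'_apply, map_mul, map_mul, map_mul, map_inv, he,
      inv_mul_cancel]

/-- In a group without involution inverting an element of order three, the prime of a step is at
least five, and 2 has large order modulo it. -/
theorem step_order {X : Type u} [Group X] (hI : Inv3Free X) {a x : X} {r k : ℕ} (ha : a ^ 2 = 1)
    (hr : r.Prime) (hr2 : r ≠ 2) (hx : orderOf x = r) (hinv : a * x * a⁻¹ = x⁻¹)
    (hord : 2 ≤ k → ∀ i, 0 < i → i ≤ 4 * k - 2 → ¬ r ∣ 2 ^ i - 1) :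
    5 ≤ r ∧ ∀ i, 0 < i → i ≤ 4 * k - 2 → ¬ r ∣ 2 ^ i - 1 := by
  have hr3 : r ≠ 3 := fun h => hI a x ha (hx.trans h) hinv
  have hr5 : 5 ≤ r := by
    have := hr.two_le
    by_contra h
    interval_cases r <;> first | omega | norm_num at hr
  refine ⟨hr5, fun i hi hik hdvd => ?_⟩
  rcases le_or_gt 2 k with hk | hk
  · exact hord hk i hi hik hdvd
  · have hi2 : i ≤ 2 := by omega
    have : 2 ^ i - 1 ≤ 3 := Nat.sub_le_iff_le_add.2 ((Nat.pow_le_pow_right (by norm_num) hi2).trans (by norm_num))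
    have hpos : 0 < 2 ^ i - 1 := Nat.sub_pos_of_lt (Nat.one_lt_two_pow hi.ne')
    have := Nat.le_of_dvd hpos hdvd
    omega

/-- The data of a faithful action: an element inverted by `a`, commuting with a subgroup of index
`2 ^ k`. -/
theorem exists_inverted (hL : HasSteps L) (h4 : ¬ Involves (Equiv.Perm (Fin 4)) L)
    {U : Subgroup L} [U.Normal] (hU : IsElementaryAbelian 2 U)
    (hR : rad2 U ≤ Subgroup.centralizer (U : Set L)) {A : Subgroup L} (hA : ElemMod A U)
    (hAC : ¬ A ≤ Subgroup.centralizer (U : Set L)) :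
    ∃ (B : Subgroup L) (a v : L) (p k : ℕ), B ≤ A ∧ A ⊓ Subgroup.centralizer (U : Set L) ≤ B ∧
      B.relIndex A = 2 ^ k ∧ 1 ≤ k ∧ a ∈ A ∧ p.Prime ∧ 5 ≤ p ∧
      (∀ i, 0 < i → i ≤ 4 * k - 2 → ¬ p ∣ 2 ^ i - 1) ∧
      v ^ p ∈ Subgroup.centralizer (U : Set L) ∧
      a * v * a⁻¹ * v ∈ Subgroup.centralizer (U : Set L) ∧
      v ∉ Subgroup.centralizer (U : Set L) ∧
      ∀ b ∈ B, v * b * v⁻¹ * b⁻¹ ∈ Subgroup.centralizer (U : Set L) := by
  haveI : Fact (Nat.Prime 2) := ⟨Nat.prime_two⟩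
  set C := Subgroup.centralizer (U : Set L) with hC
  set f := QuotientGroup.mk' C with hf
  have hone : ∀ g, f g = 1 ↔ g ∈ C := fun g => QuotientGroup.eq_one_iff g
  have hO2 : pCore 2 (L ⧸ C) = ⊥ := by
    rw [eq_bot_iff]
    intro q hq
    obtain ⟨g, rfl⟩ := QuotientGroup.mk'_surjective C q
    exact Subgroup.mem_bot.2 ((hone g).2 (hR hq))
  have hI : Inv3Free (L ⧸ C) :=
    inv3Free_quotient h4 (CfsgLib.ThompsonJ.isPGroup_of_isElementaryAbelian hU)
  have hAe : IsElementaryAbelian 2 (A.map f) := by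
    refine CfsgLib.ThompsonJ.isElementaryAbelian_iff.2 ⟨?_, ?_⟩
    · rintro _ ⟨a, ha, rfl⟩
      rw [Subgroup.mem_centralizer_iff]
      rintro _ ⟨b, hb, rfl⟩
      rw [← mul_inv_eq_one, ← map_mul, ← map_mul, ← map_inv, ← map_mul, hone, mul_inv_rev,
        ← mul_assoc]
      exact hA.2 b hb a ha
    · rintro _ ⟨a, ha, rfl⟩
      rw [← map_pow, hone]
      exact hA.1 a ha
  obtain ⟨B', _, x, p, k, hB', hidx, hk, ⟨a, ha, rfl⟩, hp, hp2, hxo, hxB, hxinv, hord⟩ :=
    hL (L ⧸ C) f (QuotientGroup.mk'_surjective C) hO2 hI _ hAe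
      (fun h => hAC fun a ha => (hone a).1 (Subgroup.mem_bot.1 (h ▸ Subgroup.mem_map_of_mem f ha)))
  obtain ⟨hp5, hord'⟩ := step_order hI (hAe.2 _ (Subgroup.mem_map_of_mem f ha)) hp hp2 hxo hxinv hord
  obtain ⟨v, rfl⟩ := QuotientGroup.mk'_surjective C x
  refine ⟨A ⊓ B'.comap f, a, v, p, k, inf_le_left, le_inf inf_le_left ?_, ?_, hk, ha, hp, hp5, hord',
    ?_, ?_, ?_, fun b hb => ?_⟩
  · intro g hg
    show f g ∈ B'
    rw [(hone g).2 hg.2]
    exact one_mem _
  · rw [Subgroup.inf_relIndex_left, Subgroup.relIndex_comap, hidx]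
  · rw [← hone, map_pow, ← hxo, pow_orderOf_eq_one]
  · rw [← hone, map_mul, map_mul, map_mul, map_inv, hxinv, inv_mul_cancel]
  · intro h
    rw [(hone v).2 h, orderOf_one] at hxo
    exact hp.ne_one hxo.symm
  · rw [← hone, map_mul, map_mul, map_mul, map_inv, map_inv,
      show f v * f b = f b * f v from (Subgroup.mem_centralizer_iff.1 hxB _ hb.2).symm,
      mul_inv_cancel_right, mul_inv_cancel]

/-- An element of order `p` commuting with `B` and inverted by `a` gains index `4 ^ k`. -/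
theorem pow_four_mul_fixIdx_le {U : Subgroup L} [U.Normal] (hU : IsElementaryAbelian 2 U)
    {A B : Subgroup L} (hA : ElemMod A U) (hBA : B ≤ A) {a v : L} (ha : a ∈ A) {p k : ℕ}
    (hp : p.Prime) (hp2 : p ≠ 2) (hord : ∀ i, 0 < i → i ≤ 4 * k - 2 → ¬ p ∣ 2 ^ i - 1)
    (hvp : v ^ p ∈ Subgroup.centralizer (U : Set L))
    (hvinv : a * v * a⁻¹ * v ∈ Subgroup.centralizer (U : Set L))
    (hvC : v ∉ Subgroup.centralizer (U : Set L))
    (hvB : ∀ b ∈ B, v * b * v⁻¹ * b⁻¹ ∈ Subgroup.centralizer (U : Set L)) :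
    4 ^ k * fixIdx B U ≤ fixIdx A U := by
  classical
  set W := U ⊓ Subgroup.centralizer (B : Set L) with hW
  have cj : ∀ g : L, ∀ t ∈ U, g * t * g⁻¹ ∈ U := fun g t ht =>
    (inferInstance : U.Normal).conj_mem t ht g
  have hnorm : ∀ g : L, (∀ b ∈ B, g * b * g⁻¹ * b⁻¹ ∈ Subgroup.centralizer (U : Set L)) →
      g ∈ Subgroup.normalizer (W : Set L) := by
    intro g hg
    refine CfsgLib.CoprimeAction.mem_normalizer_of_conj_mem fun t ht => ⟨cj g t ht.1, ?_⟩
    refine Subgroup.mem_centralizer_iff.2 fun b hb => mul_inv_eq_iff_eq_mul.1 ?_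
    calc b * (g * t * g⁻¹) * b⁻¹
        = (g * b * g⁻¹ * b⁻¹)⁻¹ * (g * (b * t * b⁻¹) * g⁻¹) * (g * b * g⁻¹ * b⁻¹) := by group
      _ = (g * b * g⁻¹ * b⁻¹)⁻¹ * (g * t * g⁻¹) * ((g * b * g⁻¹ * b⁻¹)⁻¹)⁻¹ := by
          rw [Subgroup.mem_centralizer_iff.1 ht.2 b hb, mul_inv_cancel_right, inv_inv]
      _ = g * t * g⁻¹ := conj_eq_of_mem_centralizer (inv_mem (hg b hb)) (cj g t ht.1)
  have hnt : v ∉ Subgroup.centralizer (W : Set L) := by
    intro hvW
    haveI := Fintype.ofFinite B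
    refine hvC (fix_of_fix_inf_centralizer hU (hp.odd_of_ne_two hp2) hvp
      (Finset.univ.image fun b : B => (b : L)) ?_ ?_ ?_ ?_)
    · simp only [Finset.mem_image, Finset.mem_univ, true_and]
      rintro _ ⟨b, rfl⟩; exact hA.1 _ (hBA b.2)
    · simp only [Finset.mem_image, Finset.mem_univ, true_and]
      rintro _ ⟨b, rfl⟩ _ ⟨c, rfl⟩; exact hA.2 _ (hBA b.2) _ (hBA c.2)
    · simp only [Finset.mem_image, Finset.mem_univ, true_and]
      rintro _ ⟨b, rfl⟩; exact hvB _ b.2
    · intro w hw hb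
      refine conj_eq_of_mem_centralizer hvW ⟨hw, Subgroup.mem_centralizer_iff.2 fun b hbB => ?_⟩
      exact mul_inv_eq_iff_eq_mul.1 (hb b (Finset.mem_image.2 ⟨⟨b, hbB⟩, Finset.mem_univ _, rfl⟩))
  have h4' := pow_four_le_relIndex (CfsgLib.ThompsonJ.isElementaryAbelian_mono hU inf_le_left)
    (hnorm v hvB) (hnorm a fun b hb => hA.2 a ha b (hBA hb)) hp hp2 hord
    (Subgroup.centralizer_le inf_le_left hvp) (Subgroup.centralizer_le inf_le_left hvinv) hnt
  have hle : U ⊓ Subgroup.centralizer (A : Set L) ≤ W ⊓ Subgroup.centralizer ({a} : Set L) :=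
    le_inf (inf_le_inf_left U (Subgroup.centralizer_le hBA))
      (inf_le_right.trans (Subgroup.centralizer_le (Set.singleton_subset_iff.2 ha)))
  calc 4 ^ k * fixIdx B U ≤ (W ⊓ Subgroup.centralizer ({a} : Set L)).relIndex W * W.relIndex U :=
        Nat.mul_le_mul h4' le_rfl
    _ = (W ⊓ Subgroup.centralizer ({a} : Set L)).relIndex U :=
        Subgroup.relIndex_mul_relIndex _ _ _ inf_le_left inf_le_left
    _ ≤ fixIdx A U := relIndex_le_of_le_left hle U

/-- Faithful case: the squared offender bound. -/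
theorem sq_actCard_le_fixIdx (hL : HasSteps L) (h4 : ¬ Involves (Equiv.Perm (Fin 4)) L)
    {U : Subgroup L} [U.Normal] (hU : IsElementaryAbelian 2 U)
    (hR : rad2 U ≤ Subgroup.centralizer (U : Set L)) :
    ∀ A : Subgroup L, ElemMod A U → actCard A U ^ 2 ≤ fixIdx A U := by
  intro A
  induction A using WellFoundedLT.induction with
  | _ A ih =>
  intro hA
  by_cases hAC : A ≤ Subgroup.centralizer (U : Set L)
  · rw [actCard, inf_eq_left.2 hAC, Subgroup.relIndex_self, one_pow]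
    exact fixIdx_pos A U
  · obtain ⟨B, a, v, p, k, hBA, hCB, hidx, hk, ha, hp, hp5, hord, hvp, hvinv, hvC, hvB⟩ :=
      exists_inverted hL h4 hU hR hA hAC
    have hlt : B < A := lt_of_le_of_ne hBA fun h => by
      rw [h, Subgroup.relIndex_self] at hidx
      exact (Nat.one_lt_two_pow (by omega : k ≠ 0)).ne hidx
    calc actCard A U ^ 2 = 4 ^ k * actCard B U ^ 2 := by
          rw [← actCard_mul hBA hCB, hidx, mul_pow, ← pow_mul, mul_comm k 2, pow_mul, mul_comm]
          norm_num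
      _ ≤ 4 ^ k * fixIdx B U := Nat.mul_le_mul le_rfl (ih B hlt (hA.mono hBA))
      _ ≤ fixIdx A U := pow_four_mul_fixIdx_le hU hA hBA ha hp (by omega) hord hvp hvinv hvC hvB

/-- Faithful case: extremal groups contain an element with an inverted element and small fixed point
index. -/
theorem exists_small_fixIdx (hL : HasSteps L) (h4 : ¬ Involves (Equiv.Perm (Fin 4)) L)
    {U : Subgroup L} [U.Normal] (hU : IsElementaryAbelian 2 U)
    (hR : rad2 U ≤ Subgroup.centralizer (U : Set L)) :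
    ∀ A : Subgroup L, ElemMod A U → ¬ A ≤ Subgroup.centralizer (U : Set L) →
      fixIdx A U ≤ actCard A U ^ 2 →
      ∃ (a v : L) (p k : ℕ), a ∈ A ∧ 1 ≤ k ∧ p.Prime ∧ 5 ≤ p ∧
        (∀ i, 0 < i → i ≤ 4 * k - 2 → ¬ p ∣ 2 ^ i - 1) ∧
        v ^ p ∈ Subgroup.centralizer (U : Set L) ∧
        a * v * a⁻¹ * v ∈ Subgroup.centralizer (U : Set L) ∧
        v ∉ Subgroup.centralizer (U : Set L) ∧ fixIdx (Subgroup.zpowers a) U ≤ 4 ^ k := by
  intro A
  induction A using WellFoundedLT.induction with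
  | _ A ih =>
  intro hA hAC hext
  obtain ⟨B, a, v, p, k, hBA, hCB, hidx, hk, ha, hp, hp5, hord, hvp, hvinv, hvC, hvB⟩ :=
    exists_inverted hL h4 hU hR hA hAC
  have h4' := pow_four_mul_fixIdx_le hU hA hBA ha hp (by omega) hord hvp hvinv hvC hvB
  have hext' : fixIdx A U ≤ 4 ^ k * actCard B U ^ 2 := by
    refine hext.trans (le_of_eq ?_)
    rw [← actCard_mul hBA hCB, hidx, mul_pow, ← pow_mul, mul_comm k 2, pow_mul, mul_comm]
    norm_num
  by_cases hBC : B ≤ Subgroup.centralizer (U : Set L)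
  · have h1 : actCard B U = 1 := by rw [actCard, inf_eq_left.2 hBC, Subgroup.relIndex_self]
    rw [h1, one_pow, mul_one] at hext'
    exact ⟨a, v, p, k, ha, hk, hp, hp5, hord, hvp, hvinv, hvC,
      (fixIdx_le_of_le (Subgroup.zpowers_le.2 ha)).trans hext'⟩
  · have hlt : B < A := lt_of_le_of_ne hBA fun h => by
      rw [h, Subgroup.relIndex_self] at hidx
      exact (Nat.one_lt_two_pow (by omega : k ≠ 0)).ne hidx
    obtain ⟨a', v', p', k', ha', rest⟩ := ih B hlt (hA.mono hBA) hBC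
      (Nat.le_of_mul_le_mul_left (h4'.trans hext') (by positivity))
    exact ⟨a', v', p', k', hBA ha', rest⟩

/-- The squared offender bound modulo the 2-radical. -/
theorem sq_relIndex_rad2_le : ∀ (n : ℕ) (L : Type u) [Group L] [Finite L] ,
    HasSteps L → ¬ Involves (Equiv.Perm (Fin 4)) L → ∀ (U : Subgroup L) [U.Normal],
      Nat.card U ≤ n → IsElementaryAbelian 2 U → ∀ A : Subgroup L, ElemMod A U →
        (A ⊓ rad2 U).relIndex A ^ 2 ≤ fixIdx A U := by
  intro n
  induction n with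
  | zero => intro L _ _ _ _ U _ hc; exact absurd hc (not_le.2 Nat.card_pos)
  | succ n ih =>
    intro L _ _ hL h4 U _ hcard hU A hA
    by_cases hR : rad2 U ≤ Subgroup.centralizer (U : Set L)
    · rw [le_antisymm hR (centralizer_le_rad2 U)]
      exact sq_actCard_le_fixIdx hL h4 hU hR A hA
    set U1 := U ⊓ Subgroup.centralizer (rad2 U : Set L) with hU1
    haveI hU1n : U1.Normal := inferInstance
    have hU1lt : U1 < U := lt_of_le_of_ne inf_le_left fun h =>
      hR (Subgroup.le_centralizer_iff.1 (inf_eq_left.1 h))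
    have hUne : U ≠ ⊥ := fun h => by rw [h] at hU1lt; exact not_lt_bot hU1lt
    have hU1ne : U1 ≠ ⊥ := inf_centralizer_ne_bot hU hUne fun _ hr => exists_pow_mem_of_mem_rad2 hr
    have hc1 : Nat.card U1 ≤ n := by
      have : Nat.card U1 < Nat.card U := by
        by_contra hle
        exact hU1lt.ne (Subgroup.eq_of_le_of_card_ge inf_le_left (not_lt.1 hle))
      omega
    set q := QuotientGroup.mk' U1 with hq
    haveI : (U.map q).Normal := Subgroup.Normal.map inferInstance q (QuotientGroup.mk'_surjective _)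
    have hc2 : Nat.card (U.map q) ≤ n := by
      have h1 : Nat.card U1 * U1.relIndex U = Nat.card U := by
        rw [← Subgroup.relIndex_bot_left, Subgroup.relIndex_mul_relIndex _ _ _ bot_le inf_le_left,
          Subgroup.relIndex_bot_left]
      have h2 : U1.relIndex U = Nat.card (U.map q) := by
        conv_lhs => rw [← QuotientGroup.ker_mk' U1]
        rw [Subgroup.relIndex_ker]
      have h3 : 1 < Nat.card U1 := (Subgroup.one_lt_card_iff_ne_bot U1).2 hU1ne
      have h4' : 0 < Nat.card (U.map q) := Nat.card_pos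
      have : Nat.card (U.map q) < Nat.card U := by
        rw [← h1, h2]; exact lt_mul_of_one_lt_left h4' h3
      omega
    have b1 := ih L hL h4 U1 hc1 (CfsgLib.ThompsonJ.isElementaryAbelian_mono hU inf_le_left) A
      (hA.of_le inf_le_left)
    have b2 := ih (L ⧸ U1) (hL.of_surjective (QuotientGroup.mk'_surjective U1))
      (not_involves_quotient h4 U1) (U.map q) hc2
      (CfsgLib.ThompsonJ.isElementaryAbelian_map hU q) (A.map q) (hA.map q)
    set R2 := (rad2 (U.map q)).comap q with hR2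
    haveI : R2.Normal := Subgroup.Normal.comap inferInstance q
    have hsub : rad2 U1 ⊓ R2 ≤ rad2 U := by
      refine le_rad2 fun m hm => ?_
      obtain ⟨i, hi⟩ := exists_pow_mem_of_mem_rad2 hm.1
      obtain ⟨j, hj⟩ := exists_pow_mem_of_mem_rad2 (Subgroup.mem_comap.1 hm.2)
      refine ⟨i + j + 1, ?_⟩
      have h1 : m ^ 2 ^ (i + j) ∈ Subgroup.centralizer (U1 : Set L) := by
        rw [pow_add, pow_mul]; exact pow_mem hi _
      have h2 : q (m ^ 2 ^ (i + j)) ∈ Subgroup.centralizer (U.map q : Set (L ⧸ U1)) := by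
        rw [map_pow, add_comm i j, pow_add, pow_mul]; exact pow_mem hj _
      rw [pow_succ, pow_mul]
      refine sq_mem_centralizer (N₀ := U1) (fun w hw => hU.2 w hw.1) h1 fun w hw => ?_
      rw [← QuotientGroup.eq_one_iff]
      show q (m ^ 2 ^ (i + j) * w * (m ^ 2 ^ (i + j))⁻¹ * w⁻¹) = 1
      rw [map_mul, map_mul, map_mul, map_inv, map_inv,
        conj_eq_of_mem_centralizer h2 (Subgroup.mem_map_of_mem q hw), mul_inv_cancel]
    have hA2 : (A.map q ⊓ rad2 (U.map q)).relIndex (A.map q) = (A ⊓ R2).relIndex A := by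
      rw [Subgroup.inf_relIndex_left, Subgroup.inf_relIndex_left, hR2, Subgroup.relIndex_comap]
    rw [hA2] at b2
    have h1 : (A ⊓ rad2 U).relIndex A ≤ (A ⊓ rad2 U1).relIndex A * (A ⊓ R2).relIndex A := by
      refine le_trans (relIndex_le_of_le_left ?_ A) Subgroup.relIndex_inf_le
      exact le_inf (inf_le_left.trans inf_le_left)
        ((inf_le_inf inf_le_right inf_le_right).trans hsub)
    calc (A ⊓ rad2 U).relIndex A ^ 2 ≤ ((A ⊓ rad2 U1).relIndex A * (A ⊓ R2).relIndex A) ^ 2 :=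
          Nat.pow_le_pow_left h1 2
      _ = (A ⊓ R2).relIndex A ^ 2 * (A ⊓ rad2 U1).relIndex A ^ 2 := by ring
      _ ≤ fixIdx (A.map q) (U.map q) * fixIdx A U1 := Nat.mul_le_mul b2 b1
      _ ≤ fixIdx A U := fixIdx_map_mul_le hU inf_le_left A

end CfsgLib.SFourStep
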