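import Cfsg.Agent.Lib.SFourStep.Def
import Cfsg.Agent.Lib.Classes.PSLOut
import Cfsg.Agent.Lib.ClassicalLinear.Card
import Mathlib.NumberTheory.LegendreSymbol.QuadraticChar.Basic

/-!
`PSL₂` over a field with an odd power of three elements: an involutory automorphism is inner or
inverts an element of order three, and every elementary abelian 2-subgroup has a step.
-/

set_option autoImplicit false
set_option linter.style.haveILetI false

open Matrix

namespace CfsgLib.SFourStep

open Cfsg CfsgLib.ReflectionsSpinor.PSL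

universe u

namespace PSLTwo

variable {F : Type u} [Field F]

local notation "M₂" => Matrix (Fin 2) (Fin 2) F
local notation "SL₂" => Matrix.SpecialLinearGroup (Fin 2) F
local notation "P₂" => Matrix.ProjectiveSpecialLinearGroup (Fin 2) F

/-- Cayley–Hamilton for two-by-two matrices. -/
theorem mul_self_eq (A : M₂) : A * A = A.trace • A - A.det • (1 : M₂) := by
  ext i j
  fin_cases i <;> fin_cases j <;>
    simp [Matrix.mul_apply, Fin.sum_univ_two, Matrix.trace_fin_two, Matrix.det_fin_two] <;> ring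

theorem det_one_add (A : M₂) : (1 + A).det = 1 + A.trace + A.det := by
  simp [Matrix.trace_fin_two, Matrix.det_fin_two]
  ring

theorem det_lin {A : M₂} (h : A.trace = 0) (a b : F) :
    (a • (1 : M₂) + b • A).det = a ^ 2 + b ^ 2 * A.det := by
  rw [Matrix.trace_fin_two] at h
  simp [Matrix.det_fin_two]
  linear_combination a * b * h

/-- A square root of a scalar is a scalar or has trace zero. -/
theorem scalar_or_trace_eq_zero {A : M₂} {c : F} (h : A * A = c • (1 : M₂)) :
    (∃ k : F, A = k • (1 : M₂)) ∨ (A.trace = 0 ∧ c = -A.det) := by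
  have h1 : A.trace • A = (c + A.det) • (1 : M₂) := by
    rw [add_smul, ← h, mul_self_eq]; abel
  by_cases ht : A.trace = 0
  · right
    refine ⟨ht, ?_⟩
    have h2 := congrArg (fun B : M₂ => B 0 0) h1
    simp [ht] at h2
    linear_combination -h2
  · left
    refine ⟨A.trace⁻¹ * (c + A.det), ?_⟩
    rw [mul_smul, ← h1, inv_smul_smul₀ ht]

theorem cl_eq_one_iff {d : SL₂} : cl d = (1 : P₂) ↔ ∃ k : F, (d : M₂) = k • (1 : M₂) :=
  (QuotientGroup.eq_one_iff d).trans mem_center_iff_smul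

theorem not_scalar {d : SL₂} (hd : cl d ≠ (1 : P₂)) (k : F) : (d : M₂) ≠ k • (1 : M₂) :=
  fun e => hd (cl_eq_one_iff.2 ⟨k, e⟩)

/-- A preimage of an involution has trace zero and square `-1`. -/
theorem involution_lift {d : SL₂} (hd : cl d ≠ (1 : P₂)) (hd2 : cl d * cl d = (1 : P₂)) :
    (d : M₂).trace = 0 ∧ (d : M₂) * (d : M₂) = (-1 : F) • (1 : M₂) := by
  rw [← cl_mul, cl_eq_one_iff] at hd2
  obtain ⟨c, hc⟩ := hd2
  rw [Matrix.SpecialLinearGroup.coe_mul] at hc
  rcases scalar_or_trace_eq_zero hc with ⟨k, hk⟩ | ⟨ht, hcd⟩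
  · exact absurd hk (not_scalar hd k)
  · refine ⟨ht, ?_⟩
    rw [hc, hcd, d.2]

theorem ne_neg_one (h2 : (2 : F) ≠ 0) : (1 : F) ≠ -1 := fun e => h2 (by linear_combination e)

/-- Preimages of distinct commuting involutions anticommute. -/
theorem anticommute (h2 : (2 : F) ≠ 0) {d e : SL₂} (hd : cl d ≠ (1 : P₂))
    (hd2 : cl d * cl d = (1 : P₂)) (he : cl e ≠ (1 : P₂)) (he2 : cl e * cl e = (1 : P₂))
    (hne : cl d ≠ cl e) (hc : cl d * cl e = cl e * cl d) :
    (e : M₂) * (d : M₂) = (-1 : F) • ((d : M₂) * (e : M₂)) := by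
  obtain ⟨htd, hdd⟩ := involution_lift hd hd2
  obtain ⟨hte, hee⟩ := involution_lift he he2
  rw [← cl_mul, ← cl_mul, cl_eq_cl_iff] at hc
  obtain ⟨c, hc⟩ := hc
  rw [Matrix.SpecialLinearGroup.coe_mul, Matrix.SpecialLinearGroup.coe_mul] at hc
  have hc2 : c ^ 2 = 1 := by
    have := congrArg Matrix.det hc
    rw [Matrix.det_smul, Matrix.det_mul, Matrix.det_mul, d.2, e.2, Fintype.card_fin] at this
    simpa using this.symm
  rcases sq_eq_one_iff.1 hc2 with rfl | rfl
  · exfalso
    rw [one_smul] at hc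
    set x : SL₂ := d * e with hx
    have hxx : (x : M₂) * (x : M₂) = (1 : F) • (1 : M₂) := by
      rw [hx, Matrix.SpecialLinearGroup.coe_mul]
      calc (d : M₂) * (e : M₂) * ((d : M₂) * (e : M₂))
          = (d : M₂) * ((e : M₂) * (d : M₂)) * (e : M₂) := by simp [Matrix.mul_assoc]
        _ = ((d : M₂) * (d : M₂)) * ((e : M₂) * (e : M₂)) := by rw [hc]; simp [Matrix.mul_assoc]
        _ = (1 : F) • (1 : M₂) := by rw [hdd, hee]; simp
    rcases scalar_or_trace_eq_zero hxx with ⟨k, hk⟩ | ⟨-, hk⟩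
    · have h1 : cl x = (1 : P₂) := cl_eq_one_iff.2 ⟨k, hk⟩
      rw [hx, cl_mul] at h1
      exact hne (by rw [eq_inv_of_mul_eq_one_left h1, inv_eq_of_mul_eq_one_right he2])
    · rw [x.2] at hk
      exact ne_neg_one h2 hk
  · exact hc

/-- The elements `a + b d` of determinant one. -/
def line (d : SL₂) (hd : (d : M₂) * (d : M₂) = (-1 : F) • (1 : M₂)) (ht : (d : M₂).trace = 0) :
    Subgroup SL₂ where
  carrier := {g | ∃ a b : F, (g : M₂) = a • (1 : M₂) + b • (d : M₂)}
  one_mem' := ⟨1, 0, by simp⟩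
  mul_mem' := by
    rintro g g' ⟨a, b, hg⟩ ⟨a', b', hg'⟩
    refine ⟨a * a' - b * b', a * b' + b * a', ?_⟩
    rw [Matrix.SpecialLinearGroup.coe_mul, hg, hg']
    simp only [add_mul, mul_add, Matrix.smul_mul, Matrix.mul_smul, Matrix.one_mul, Matrix.mul_one,
      hd, smul_smul, add_smul, sub_smul, mul_neg, neg_smul, mul_one, mul_comm a' b]
    module
  inv_mem' := by
    rintro g ⟨a, b, hg⟩
    refine ⟨a, -b, ?_⟩
    have h1 : (g : M₂).trace = 2 * a := by
      rw [hg, Matrix.trace_add, Matrix.trace_smul, Matrix.trace_smul, ht, Matrix.trace_one,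
        Fintype.card_fin]
      simp [mul_comm]
    rw [Matrix.SpecialLinearGroup.coe_inv, Matrix.adjugate_fin_two]
    rw [Matrix.trace_fin_two] at h1
    have e00 := congrFun (congrFun hg 0) 0
    have e01 := congrFun (congrFun hg 0) 1
    have e10 := congrFun (congrFun hg 1) 0
    have e11 := congrFun (congrFun hg 1) 1
    simp at e00 e01 e10 e11
    ext i j
    fin_cases i <;> fin_cases j <;> simp
    · linear_combination h1 - e00
    · linear_combination e01
    · linear_combination e10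
    · linear_combination h1 - e11

theorem mem_line {d : SL₂} {hd : (d : M₂) * (d : M₂) = (-1 : F) • (1 : M₂)}
    {ht : (d : M₂).trace = 0} {g : SL₂} :
    g ∈ line d hd ht ↔ ∃ a b : F, (g : M₂) = a • (1 : M₂) + b • (d : M₂) := Iff.rfl

variable [Fintype F] {n : ℕ}

/-- The standing facts on the field. -/
theorem field_facts (hn : 1 ≤ n) (hF : Fintype.card F = 3 ^ (2 * n + 1)) :
    Fintype.card F % 8 = 3 ∧ 27 ≤ Fintype.card F ∧ (2 : F) ≠ 0 ∧ (3 : F) = 0 ∧
      ¬ IsSquare (-1 : F) := by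
  haveI : Fact (Nat.Prime 3) := ⟨Nat.prime_three⟩
  haveI : CharP F 3 := charP_of_card_eq_prime_pow hF
  have h8 : Fintype.card F % 8 = 3 := by
    rw [hF, pow_succ, pow_mul, Nat.mul_mod, Nat.pow_mod]; norm_num
  have h27 : 27 ≤ Fintype.card F := by
    rw [hF]
    calc 27 = 3 ^ 3 := by norm_num
      _ ≤ _ := Nat.pow_le_pow_right (by norm_num) (by omega)
  refine ⟨h8, h27, ?_, ?_, ?_⟩
  · intro h
    have : ((2 : ℕ) : F) = 0 := by exact_mod_cast h
    rw [CharP.cast_eq_zero_iff F 3] at this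
    omega
  · exact_mod_cast CharP.cast_eq_zero F 3
  · rw [FiniteField.isSquare_neg_one_iff]
    omega

theorem card_two (hn : 1 ≤ n) (hF : Fintype.card F = 3 ^ (2 * n + 1)) :
    Nat.card SL₂ = 2 * Nat.card P₂ ∧ ∃ s : ℕ, Nat.card P₂ = 4 * (2 * s + 1) := by
  obtain ⟨h8, h27, -, -, -⟩ := field_facts hn hF
  set q := Fintype.card F with hq
  have hg : Nat.gcd 2 (q - 1) = 2 := Nat.gcd_eq_left (by omega)
  have h1 := CfsgLib.ClassicalLinear.card_PSL_two (F := F) hq.symm
  have h2 := CfsgLib.ClassicalLinear.card_SL_two (F := F) hq.symm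
  rw [hg] at h1
  refine ⟨h2.trans h1.symm, ?_⟩
  obtain ⟨t, ht⟩ : ∃ t, q = 8 * t + 3 := ⟨q / 8, by omega⟩
  refine ⟨(8 * t + 3) * (8 * t ^ 2 + 6 * t + 1) / 2, ?_⟩
  have h3 : q ^ 2 - 1 = 8 * (8 * t ^ 2 + 6 * t + 1) := by
    rw [ht]
    have : (8 * t + 3) ^ 2 = 8 * (8 * t ^ 2 + 6 * t + 1) + 1 := by ring
    omega
  rw [h3] at h1
  have hodd : (8 * t + 3) * (8 * t ^ 2 + 6 * t + 1) % 2 = 1 := by
    rw [Nat.mul_mod]
    have a1 : (8 * t + 3) % 2 = 1 := by omega
    have a2 : (8 * t ^ 2 + 6 * t + 1) % 2 = 1 := by omega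
    rw [a1, a2]
  have h4 : q * (8 * (8 * t ^ 2 + 6 * t + 1)) = 8 * ((8 * t + 3) * (8 * t ^ 2 + 6 * t + 1)) := by
    rw [ht]; ring
  rw [h4] at h1
  generalize (8 * t + 3) * (8 * t ^ 2 + 6 * t + 1) = N at h1 hodd ⊢
  omega

/-- A 2-power order dividing the group order is at most four. -/
theorem two_pow_le {j s : ℕ} (h : 2 ^ j ∣ 4 * (2 * s + 1)) : 2 ^ j ≤ 4 := by
  have h1 : (2 ^ j).Coprime (2 * s + 1) :=
    (Nat.coprime_two_left.2 (odd_two_mul_add_one s)).pow_left j
  exact Nat.le_of_dvd (by norm_num) (h1.dvd_of_dvd_mul_right h)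

/-- An element of odd prime order in the torus of an involution, inverted by a commuting one. -/
theorem exists_inverted (hn : 1 ≤ n) (hF : Fintype.card F = 3 ^ (2 * n + 1)) {d e : P₂}
    (hd : d ≠ 1) (hd2 : d * d = 1) (he : e ≠ 1) (he2 : e * e = 1) (hne : d ≠ e)
    (hc : d * e = e * d) :
    ∃ (x : P₂) (r : ℕ), r.Prime ∧ r ≠ 2 ∧ orderOf x = r ∧ d * x = x * d ∧ e * x * e⁻¹ = x⁻¹ := by
  classical
  obtain ⟨h8, h27, h2, -, hns⟩ := field_facts hn hF
  obtain ⟨D, rfl⟩ := cl_surjective d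
  obtain ⟨E, rfl⟩ := cl_surjective e
  obtain ⟨htD, hDD⟩ := involution_lift hd hd2
  have hanti := anticommute h2 hd hd2 he he2 hne hc
  set T := line D hDD htD with hT
  -- the group has at least `q` elements
  have hden : ∀ s : F, 1 + s ^ 2 ≠ 0 := fun s h0 => hns ⟨s, by linear_combination -h0⟩
  have hdet : ∀ s : F, (((1 - s ^ 2) / (1 + s ^ 2)) • (1 : M₂) +
      (2 * s / (1 + s ^ 2)) • (D : M₂)).det = 1 := by
    intro s
    have := hden s
    rw [det_lin htD, D.2]
    field_simp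
    ring
  set φ : F → T := fun s => ⟨⟨_, hdet s⟩, mem_line.2 ⟨_, _, rfl⟩⟩ with hφ
  have hinj : Function.Injective φ := by
    intro s s' hss
    have h1 := congrArg (fun g : T => ((g : SL₂) : M₂)) hss
    simp only [hφ] at h1
    have hb : 2 * s / (1 + s ^ 2) = 2 * s' / (1 + s' ^ 2) := by
      by_contra hb
      apply not_scalar hd (((1 - s' ^ 2) / (1 + s' ^ 2) - (1 - s ^ 2) / (1 + s ^ 2)) /
        (2 * s / (1 + s ^ 2) - 2 * s' / (1 + s' ^ 2)))
      have hb' := sub_ne_zero.2 hb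
      rw [div_eq_inv_mul, mul_smul, eq_inv_smul_iff₀ hb', sub_smul, sub_smul]
      linear_combination (norm := module) h1
    rw [hb, add_left_inj] at h1
    have ha : (1 - s ^ 2) / (1 + s ^ 2) = (1 - s' ^ 2) / (1 + s' ^ 2) := by
      simpa using congrFun (congrFun h1 0) 0
    have h3 : ∀ u : F, u = (2 * u / (1 + u ^ 2)) / (1 + (1 - u ^ 2) / (1 + u ^ 2)) := fun u => by
      have := hden u
      have h4 : 1 + (1 - u ^ 2) / (1 + u ^ 2) = 2 / (1 + u ^ 2) := by
        field_simp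
        ring
      rw [h4]
      field_simp
    rw [h3 s, h3 s', ha, hb]
  obtain ⟨hSL, t, hP⟩ := card_two hn hF
  -- some element has order divisible by an odd prime
  obtain ⟨g, r, hr, hr2, hgr⟩ : ∃ (g : T) (r : ℕ), r.Prime ∧ r ≠ 2 ∧ r ∣ orderOf g := by
    by_contra hcon
    push Not at hcon
    haveI : Fact (Nat.Prime 2) := ⟨Nat.prime_two⟩
    have hp : IsPGroup 2 T := IsPGroup.iff_orderOf.2 fun g => by
      obtain ⟨j, m, hm, hjm⟩ := Nat.exists_eq_two_pow_mul_odd (orderOf_pos g).ne'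
      refine ⟨j, ?_⟩
      have hm1 : m = 1 := by
        by_contra hm1
        obtain ⟨r, hr, hrm⟩ := Nat.exists_prime_and_dvd hm1
        exact hcon g r hr (fun e => hm.not_two_dvd_nat (e ▸ hrm)) (hjm ▸ hrm.mul_left _)
      rw [hjm, hm1, mul_one]
    obtain ⟨j, hj⟩ := IsPGroup.iff_card.1 hp
    have hle : Fintype.card F ≤ Nat.card T := by
      rw [← Nat.card_eq_fintype_card]
      exact Nat.card_le_card_of_injective φ hinj
    have hdvd : 2 ^ j ∣ 2 * (4 * (2 * t + 1)) := by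
      rw [← hj, ← hP, ← hSL]; exact Subgroup.card_subgroup_dvd_card T
    rcases j with _ | j
    · rw [hj, pow_zero] at hle; omega
    · rw [pow_succ'] at hdvd
      have h1 := two_pow_le ((Nat.mul_dvd_mul_iff_left (by norm_num)).1 hdvd)
      rw [hj, pow_succ'] at hle
      omega
  set x : SL₂ := (g : SL₂) ^ (orderOf g / r) with hx
  have hxT : x ∈ T := pow_mem g.2 _
  have hxo : orderOf x = r := by
    rw [hx, orderOf_pow_of_dvd (Nat.div_pos (Nat.le_of_dvd (orderOf_pos g) hgr) hr.pos).ne'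
      (by rw [Subgroup.orderOf_coe]; exact Nat.div_dvd_of_dvd hgr), Subgroup.orderOf_coe,
      Nat.div_div_self hgr (orderOf_pos g).ne']
  obtain ⟨a, b, hab⟩ := mem_line.1 hxT
  refine ⟨cl x, r, hr, hr2, ?_, ?_, ?_⟩
  · refine (((Nat.dvd_prime hr).1 (hxo ▸ orderOf_map_dvd (QuotientGroup.mk' _) x)).resolve_left
      fun h1 => ?_)
    obtain ⟨k, hk⟩ := cl_eq_one_iff.1 (orderOf_eq_one_iff.1 h1)
    have hk2 : k ^ 2 = 1 := by
      have := x.2
      rw [hk, Matrix.det_smul, Matrix.det_one, Fintype.card_fin] at this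
      simpa using this
    have hx2 : x ^ 2 = 1 := Subtype.ext (by
      rw [pow_two, Matrix.SpecialLinearGroup.coe_mul, hk, Matrix.smul_mul, Matrix.one_mul, smul_smul,
        ← pow_two, hk2, one_smul]
      rfl)
    have h2r : r ∣ 2 := hxo ▸ orderOf_dvd_of_pow_eq_one hx2
    exact hr2 ((Nat.prime_dvd_prime_iff_eq hr Nat.prime_two).1 h2r)
  · rw [← cl_mul, ← cl_mul]
    refine congrArg cl (Subtype.ext ?_)
    rw [Matrix.SpecialLinearGroup.coe_mul, Matrix.SpecialLinearGroup.coe_mul, hab]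
    simp [mul_add, add_mul]
  · have h1 : cl E * cl x = (cl x)⁻¹ * cl E := by
      rw [← cl_mul, ← QuotientGroup.mk_inv, ← cl_mul]
      refine congrArg cl (Subtype.ext ?_)
      have hi : ((x⁻¹ : SL₂) : M₂) = a • (1 : M₂) + (-b) • (D : M₂) := by
        have hh : (x : M₂) * (a • (1 : M₂) + (-b) • (D : M₂)) = 1 := by
          have h3 : (a ^ 2 + b ^ 2) = 1 := by
            have := x.2
            rw [hab, det_lin htD, D.2, mul_one] at this
            exact this
          rw [hab]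
          simp only [add_mul, mul_add, Matrix.smul_mul, Matrix.mul_smul, Matrix.one_mul, Matrix.mul_one,
            hDD, smul_smul]
          linear_combination (norm := module) congrArg (· • (1 : M₂)) h3
        calc ((x⁻¹ : SL₂) : M₂) = ((x⁻¹ : SL₂) : M₂) * ((x : M₂) * (a • (1 : M₂) + (-b) • (D : M₂))) := by
              rw [hh, Matrix.mul_one]
          _ = _ := by
              rw [← Matrix.mul_assoc, ← Matrix.SpecialLinearGroup.coe_mul, inv_mul_cancel,
                Matrix.SpecialLinearGroup.coe_one, Matrix.one_mul]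
      rw [Matrix.SpecialLinearGroup.coe_mul, Matrix.SpecialLinearGroup.coe_mul, hab, hi]
      simp only [mul_add, add_mul, Matrix.smul_mul, Matrix.mul_smul, Matrix.one_mul, Matrix.mul_one,
        hanti, smul_smul]
      module
    rw [h1, mul_inv_cancel_right]

/-- Every elementary abelian 2-subgroup has a step. -/
theorem stepFree (hn : 1 ≤ n) (hF : Fintype.card F = 3 ^ (2 * n + 1))
    (hO : pCore 2 P₂ = ⊥) : StepFree P₂ := by
  haveI : Fact (Nat.Prime 2) := ⟨Nat.prime_two⟩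
  intro D hD hne
  obtain ⟨-, t, hP⟩ := card_two hn hF
  obtain ⟨j, hj⟩ := IsPGroup.iff_card.1 (CfsgLib.ThompsonJ.isPGroup_of_isElementaryAbelian hD)
  have hj4 : 2 ^ j ≤ 4 := two_pow_le (hj ▸ hP ▸ Subgroup.card_subgroup_dvd_card D)
  rcases j with _ | _ | _ | j
  · exact absurd (Subgroup.eq_bot_of_card_eq D (by simpa using hj)) hne
  · exact step_of_card_two hO hD (by simpa using hj)
  · obtain ⟨⟨d, hd⟩, hd1⟩ := (Subgroup.ne_bot_iff_exists_ne_one).1 hne
    have hd1' : d ≠ 1 := fun h => hd1 (Subtype.ext h)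
    set B := Subgroup.zpowers d with hB
    have hBD : B ≤ D := Subgroup.zpowers_le.2 hd
    have hdd : d * d = 1 := by rw [← pow_two]; exact hD.2 d hd
    have hBc : Nat.card B = 2 := by
      rw [hB, Nat.card_zpowers]
      exact orderOf_eq_prime (hD.2 d hd) hd1'
    obtain ⟨e, he, heB⟩ : ∃ e ∈ D, e ∉ B := by
      refine SetLike.not_le_iff_exists.1 fun h => ?_
      have := Subgroup.card_le_of_le h
      rw [hBc, hj] at this
      norm_num at this
    have he1 : e ≠ 1 := fun h => heB (h ▸ one_mem B)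
    obtain ⟨x, r, hr, hr2, hx, hdx, hex⟩ := exists_inverted hn hF hd1' hdd he1
      (by rw [← pow_two]; exact hD.2 e he) (fun h => heB (h ▸ Subgroup.mem_zpowers d))
      (CfsgLib.ThompsonJ.isElementaryAbelian_comm hD hd he)
    refine ⟨B, e, x, r, 1, hBD, ?_, le_rfl, he, hr, hr2, hx, ?_, hex, fun h => absurd h (by norm_num)⟩
    · have h1 := Subgroup.relIndex_mul_relIndex ⊥ B D bot_le hBD
      rw [Subgroup.relIndex_bot_left, Subgroup.relIndex_bot_left, hBc, hj] at h1
      omega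
    · refine Subgroup.mem_centralizer_iff.2 fun y hy => ?_
      obtain ⟨i, rfl⟩ := Subgroup.mem_zpowers_iff.1 hy
      exact ((show Commute d x from hdx).zpow_left i).eq
  · exfalso
    have : 2 ^ 3 ≤ 2 ^ (j + 1 + 1 + 1) := Nat.pow_le_pow_right (by norm_num) (by omega)
    omega

/-- An involutory automorphism is inner or inverts an element of order three. -/
theorem aut_inner_or (hn : 1 ≤ n) (hF : Fintype.card F = 3 ^ (2 * n + 1)) (φ : MulAut P₂)
    (hφ : φ * φ = 1) : (∃ l : P₂, φ = MulAut.conj l) ∨ ∃ u : P₂, orderOf u = 3 ∧ φ u = u⁻¹ := by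
  classical
  obtain ⟨h8, h27, h2, h3, hns⟩ := field_facts hn hF
  obtain ⟨ψ, -, hker⟩ := CfsgLib.Classes.exists_field_hom (F := F)
  haveI : Fact (Nat.Prime 3) := ⟨Nat.prime_three⟩
  obtain ⟨eAut⟩ := CfsgLib.Classes.nonempty_ringAut_equiv hF
  have hψ : ψ φ = 1 := by
    refine eAut.injective ?_
    rw [map_one]
    have h1 : eAut (ψ φ) ^ 2 = 1 := by rw [pow_two, ← map_mul, ← map_mul, hφ, map_one, map_one]
    have h2' : eAut (ψ φ) ^ (2 * n + 1) = 1 := by
      have := pow_card_eq_one' (x := eAut (ψ φ))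
      rwa [Nat.card_congr Multiplicative.toAdd, Nat.card_zmod] at this
    exact CfsgLib.SFourFree.pow_eq_one_of_coprime_pow h1 h2'
      (Nat.coprime_two_left.2 (odd_two_mul_add_one n))
  rw [← MonoidHom.mem_ker, hker, mem_inndiag_iff] at hψ
  obtain ⟨g, rfl⟩ := hψ
  set δ := Matrix.GeneralLinearGroup.det g with hδ
  by_cases hsq : δ ∈ (powMonoidHom 2 : Fˣ →* Fˣ).range
  · left
    have h1 := (CfsgLib.Classes.toOutHom_eq_one_iff le_rfl g).2 hsq
    obtain ⟨l, hl⟩ := (QuotientGroup.eq_one_iff _).1 h1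
    exact ⟨l, hl.symm⟩
  have hgg : ∃ c : F, (g : M₂) * (g : M₂) = c • (1 : M₂) := by
    have h1 : semiAut g (1 : F ≃+* F) * semiAut g 1 = semiAut 1 1 := by rw [hφ, semiAut_one]
    rw [semiAut_mul, mul_one, semiAut_eq_semiAut_iff le_rfl, mul_one] at h1
    obtain ⟨c, hc⟩ := (Cfsg.Geo.mem_scalars_iff _).1 ((Subgroup.inv_mem_iff _).1 h1.2)
    refine ⟨c, ?_⟩
    rw [Units.val_mul, coe_gmap] at hc
    rwa [show ((g : M₂)).map (⇑(1 : F ≃+* F)) = (g : M₂) from by ext i j; rfl] at hc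
  obtain ⟨c, hc⟩ := hgg
  rcases scalar_or_trace_eq_zero hc with ⟨k, hk⟩ | ⟨htr, hcd⟩
  · exfalso
    apply hsq
    have hk0 : k ≠ 0 := by
      rintro rfl
      have := (Matrix.GeneralLinearGroup.det g).ne_zero
      rw [Matrix.GeneralLinearGroup.val_det_apply, hk] at this
      simp at this
    refine ⟨Units.mk0 k hk0, Units.ext ?_⟩
    rw [hδ, powMonoidHom_apply, Matrix.GeneralLinearGroup.val_det_apply, hk, Matrix.det_smul,
      Matrix.det_one, mul_one, Fintype.card_fin]
    rfl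
  right
  have hdns : ¬ IsSquare ((g : M₂).det) := by
    rintro ⟨e, he⟩
    apply hsq
    have he0 : e ≠ 0 := by
      rintro rfl
      exact (Matrix.GeneralLinearGroup.det g).ne_zero (by simpa using he)
    refine ⟨Units.mk0 e he0, Units.ext ?_⟩
    rw [hδ, powMonoidHom_apply, Matrix.GeneralLinearGroup.val_det_apply, he, ← pow_two]
    rfl
  have hd0 : (g : M₂).det ≠ 0 := (Matrix.GeneralLinearGroup.det g).ne_zero
  obtain ⟨μ, hμ⟩ : IsSquare c := by
    rw [hcd, ← quadraticChar_one_iff_isSquare (neg_ne_zero.2 hd0), neg_eq_neg_one_mul, map_mul,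
      quadraticChar_neg_one_iff_not_isSquare.2 hns, quadraticChar_neg_one_iff_not_isSquare.2 hdns]
    norm_num
  have hc0 : c ≠ 0 := by rw [hcd]; exact neg_ne_zero.2 hd0
  have hμ0 : μ ≠ 0 := fun h => hc0 (by rw [hμ, h, mul_zero])
  set h : M₂ := μ⁻¹ • (g : M₂) with hh
  have hhh : h * h = 1 := by
    rw [hh, Matrix.smul_mul, Matrix.mul_smul, smul_smul, hc, smul_smul, hμ]
    rw [show μ⁻¹ * μ⁻¹ * (μ * μ) = 1 by field_simp, one_smul]
  have hgh : (g : M₂) = μ • h := by rw [hh, smul_inv_smul₀ hμ0]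
  have hns' : ∀ k : F, h ≠ k • (1 : M₂) := by
    intro k hk
    have h1 : h.trace = 0 := by rw [hh, Matrix.trace_smul, htr, smul_zero]
    rw [hk, Matrix.trace_smul, Matrix.trace_one, Fintype.card_fin] at h1
    have hk0 : k = 0 := by
      simpa [h2] using h1
    rw [hk, hk0, zero_smul, mul_zero] at hhh
    exact zero_ne_one hhh
  obtain ⟨i, j, hij⟩ : ∃ i j, (1 + h) i j ≠ 0 := by
    by_contra hcon
    push Not at hcon
    refine hns' (-1) ?_
    rw [neg_one_smul]
    exact eq_neg_of_add_eq_zero_right (Matrix.ext hcon)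
  obtain ⟨k, l, hkl⟩ : ∃ k l, (1 - h) k l ≠ 0 := by
    by_contra hcon
    push Not at hcon
    refine hns' 1 ?_
    rw [one_smul]
    exact (sub_eq_zero.1 (Matrix.ext hcon)).symm
  set N : M₂ := (1 + h) * Matrix.single j k 1 * (1 - h) with hN
  have hN0 : N ≠ 0 := by
    intro e
    have := congrFun (congrFun e i) l
    rw [hN, Matrix.mul_assoc, Matrix.mul_apply] at this
    rw [Finset.sum_eq_single j (fun b _ hb => by
      rw [Matrix.single_mul_apply_of_ne _ _ _ _ _ hb, mul_zero]) (fun hb => absurd (Finset.mem_univ j) hb),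
      Matrix.single_mul_apply_same, one_mul, Matrix.zero_apply] at this
    exact mul_ne_zero hij hkl this
  have hNN : N * N = 0 := by
    have : (1 - h) * (1 + h) = 0 := by
      rw [sub_mul, mul_add, mul_add, one_mul, one_mul, mul_one, hhh]; abel
    rw [hN]
    calc _ = (1 + h) * Matrix.single j k 1 * ((1 - h) * (1 + h)) * Matrix.single j k 1 * (1 - h) := by
          simp only [Matrix.mul_assoc]
      _ = 0 := by rw [this]; simp
  have hhN : h * N = N := by
    have : h * (1 + h) = 1 + h := by rw [mul_add, mul_one, hhh, add_comm]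
    rw [hN, ← Matrix.mul_assoc, ← Matrix.mul_assoc, this]
  have hNh : N * h = -N := by
    have : (1 - h) * h = -(1 - h) := by rw [sub_mul, one_mul, hhh, neg_sub]
    rw [hN, Matrix.mul_assoc _ (1 - h) h, this, Matrix.mul_neg]
  have hNns : ∀ k : F, N ≠ k • (1 : M₂) := by
    intro k hk
    rw [hk, Matrix.smul_mul, Matrix.one_mul, smul_smul] at hNN
    have := congrFun (congrFun hNN 0) 0
    simp at this
    exact hN0 (by rw [hk, this, zero_smul])
  rcases scalar_or_trace_eq_zero (c := (0 : F)) (A := N) (by rw [hNN, zero_smul]) with ⟨k, hk⟩ | ⟨hNt, hNd⟩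
  · exact absurd hk (hNns k)
  let s : SL₂ := ⟨1 + N, by rw [det_one_add, hNt, ← neg_eq_iff_eq_neg.2 hNd]; simp⟩
  have hs3 : s ^ 3 = 1 := Subtype.ext (by
    rw [Matrix.SpecialLinearGroup.coe_pow, pow_succ, pow_two]
    show (1 + N) * (1 + N) * (1 + N) = (1 : M₂)
    have : (1 + N) * (1 + N) * (1 + N) = 1 + (3 : F) • N := by
      simp only [mul_add, add_mul, mul_one, one_mul, hNN, Matrix.zero_mul]
      module
    rw [this, h3, zero_smul, add_zero])
  have hs1 : cl s ≠ (1 : P₂) := fun e => by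
    obtain ⟨k, hk⟩ := cl_eq_one_iff.1 e
    refine hNns (k - 1) ?_
    rw [sub_smul, one_smul, ← hk]
    exact (add_sub_cancel_left (1 : M₂) N).symm
  refine ⟨cl s, orderOf_eq_prime (by rw [← QuotientGroup.mk_pow, hs3]; rfl) hs1, ?_⟩
  rw [semiAut_cl, ← QuotientGroup.mk_inv]
  refine congrArg cl (eq_inv_of_mul_eq_one_left (Subtype.ext ?_))
  rw [Matrix.SpecialLinearGroup.coe_mul, coe_semiSLHom,
    show ((s : M₂)).map (⇑(1 : F ≃+* F)) = (s : M₂) from by ext i j; rfl]
  show (g : M₂) * (1 + N) * ((g⁻¹ : GL (Fin 2) F) : M₂) * (1 + N) = (1 : M₂)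
  have hgN : (g : M₂) * (1 + N) = (1 - N) * (g : M₂) := by
    rw [hgh, Matrix.smul_mul, Matrix.mul_smul, mul_add, sub_mul, mul_one, one_mul, hhN, hNh,
      sub_neg_eq_add]
  rw [hgN, Matrix.mul_assoc (1 - N), Units.mul_inv, Matrix.mul_one]
  simp only [sub_mul, mul_add, one_mul, mul_one, hNN]
  abel

end PSLTwo

end CfsgLib.SFourStep
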