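import Cfsg.Agent.Lib.SFourStep.Def
import Cfsg.Agent.Lib.Amalgams.SuzukiInvolutions
import Cfsg.Agent.Lib.Suzuki.LieBridge
import Cfsg.Agent.Lib.Suzuki.OutAutomorphisms
import Cfsg.Agent.Lib.Zsigmondy.Basic

/-!
The Suzuki groups: every elementary abelian 2-subgroup has a step, and an involutory automorphism
is inner.
-/

set_option autoImplicit false
set_option linter.style.haveILetI false

open scoped Pointwise

namespace CfsgLib.SFourStep

open Cfsg CfsgLib.Suzuki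

universe u

namespace Sz

variable {F : Type u} [Field F] {m : ℕ}

/-- An element of order two in the root subgroup is central there. -/
theorem mem_Z_of_sq (h : Hyp F m) {g : Cfsg.Sz F m} (hg : g ∈ h.U) (h2 : g ^ 2 = 1) : g ∈ h.Z := by
  obtain ⟨a, b, rfl⟩ := hg
  rw [pow_two, h.u_sq, ← h.u_zero] at h2
  have := (h.u_injective h2).2
  rcases mul_eq_zero.1 this with h' | h'
  · exact ⟨b, by rw [th_eq_zero_iff.1 h']⟩
  · exact ⟨b, by rw [h']⟩

/-- An elementary abelian 2-subgroup has at most `q` elements. -/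
theorem card_le (h : Hyp F m) {D : Subgroup (Cfsg.Sz F m)} (hD : IsElementaryAbelian 2 D) :
    Nat.card D ≤ 2 ^ (2 * m + 1) := by
  haveI := h.finite_group
  haveI : Fact (Nat.Prime 2) := ⟨Nat.prime_two⟩
  obtain ⟨P, hP⟩ := (CfsgLib.ThompsonJ.isPGroup_of_isElementaryAbelian hD).exists_le_sylow
  obtain ⟨g, hg⟩ := h.exists_sylow_eq P
  rw [← h.card_Z]
  refine Nat.card_le_card_of_injective (fun d => ⟨g⁻¹ * (d : Cfsg.Sz F m) * g, mem_Z_of_sq h ?_ ?_⟩) ?_
  · have := hP d.2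
    rw [hg, Subgroup.mem_pointwise_smul_iff_inv_smul_mem] at this
    simpa [MulAut.smul_def] using this
  · have := hD.2 (d : Cfsg.Sz F m) d.2
    rw [pow_two] at this ⊢
    calc g⁻¹ * (d : Cfsg.Sz F m) * g * (g⁻¹ * (d : Cfsg.Sz F m) * g)
        = g⁻¹ * ((d : Cfsg.Sz F m) * d) * g := by group
      _ = 1 := by rw [this]; group
  · intro x y hxy
    exact Subtype.ext (mul_left_cancel (mul_right_cancel (congrArg Subtype.val hxy)))

/-- A prime `r` with `2` of order `4(2m+1)` modulo `r`. -/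
theorem exists_ppd (m : ℕ) : ∃ r, r.Prime ∧ r ≠ 2 ∧ r ∣ qq m ∧
    ∀ i, 0 < i → i < 4 * (2 * m + 1) → ¬ r ∣ 2 ^ i - 1 := by
  obtain ⟨r, hr, hd, hmin⟩ := CfsgLib.Zsigmondy.exists_isPpd (a := 2) (n := 4 * (2 * m + 1))
    (by norm_num) (by omega) (by omega) (by omega)
  have hq : r ∣ qq m := by
    have h2 : 2 ^ (4 * (2 * m + 1)) - 1 = (2 ^ (2 * (2 * m + 1)) - 1) * qq m := by
      unfold qq
      rw [← pow_mul, show 4 * (2 * m + 1) = (2 * m + 1) * 2 + (2 * m + 1) * 2 by ring, pow_add,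
        show 2 * (2 * m + 1) = (2 * m + 1) * 2 by ring]
      generalize (2 : ℕ) ^ ((2 * m + 1) * 2) = a
      rw [mul_comm (a - 1), Nat.mul_sub_one]
      rcases Nat.eq_zero_or_pos a with rfl | ha
      · simp
      · rw [add_mul, one_mul]; omega
    rw [h2] at hd
    exact (hr.dvd_mul.1 hd).resolve_left (hmin _ (by omega) (by omega))
  exact ⟨r, hr, fun e => (qq_odd m).not_two_dvd_nat (e ▸ hq), hq, hmin⟩

/-- Every elementary abelian 2-subgroup of a Suzuki group has a step. -/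
theorem stepFree (h : Hyp F m) : StepFree (Cfsg.Sz F m) := by
  haveI := h.finite_group
  haveI : Fact (Nat.Prime 2) := ⟨Nat.prime_two⟩
  intro D hD hne
  obtain ⟨j, hj⟩ := IsPGroup.iff_card.1 (CfsgLib.ThompsonJ.isPGroup_of_isElementaryAbelian hD)
  have hjm : j ≤ 2 * m + 1 := (Nat.pow_le_pow_iff_right (by norm_num)).1 (hj ▸ card_le h hD)
  obtain ⟨r, hr, hr2, hq, hmin⟩ := exists_ppd m
  obtain ⟨a, b, haa, ha1, hbb, -, hab⟩ := CfsgLib.Amalgams.suzuki_exists_involutions_dvd h hr hq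
  obtain ⟨⟨d, hd⟩, hd1⟩ := (Subgroup.ne_bot_iff_exists_ne_one).1 hne
  have hd1' : d ≠ 1 := fun e => hd1 (Subtype.ext e)
  have hdd : d * d = 1 := by rw [← pow_two]; exact hD.2 d hd
  obtain ⟨g, hg⟩ := isConj_iff.1
    ((IsConj.symm (CfsgLib.Amalgams.suzuki_isConj_involution h haa ha1)).trans
      (CfsgLib.Amalgams.suzuki_isConj_involution h hdd hd1'))
  set x := (a * b) ^ (orderOf (a * b) / r) with hx
  have hxo : orderOf x = r := by
    rw [hx, orderOf_pow_of_dvd (Nat.div_pos (Nat.le_of_dvd (orderOf_pos _) hab) hr.pos).ne'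
      (Nat.div_dvd_of_dvd hab), Nat.div_div_self hab (orderOf_pos _).ne']
  have hinv : a * (a * b) * a⁻¹ = (a * b)⁻¹ := by
    rw [inv_eq_of_mul_eq_one_right haa, mul_inv_rev, inv_eq_of_mul_eq_one_right hbb,
      inv_eq_of_mul_eq_one_right haa, ← mul_assoc, haa, one_mul]
  have hxinv : a * x * a⁻¹ = x⁻¹ := by rw [hx, ← conj_pow, hinv, inv_pow]
  refine ⟨⊥, d, g * x * g⁻¹, r, j, bot_le, by rw [Subgroup.relIndex_bot_left, hj], ?_, hd, hr, hr2,
    ?_, ?_, ?_, fun _ i hi hi' => hmin i hi (by omega)⟩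
  · rcases j with _ | j
    · exact absurd (Subgroup.eq_bot_of_card_eq D (by simpa using hj)) hne
    · omega
  · rw [← MulAut.conj_apply, MulEquiv.orderOf_eq, hxo]
  · exact Subgroup.mem_centralizer_iff.2 fun y hy => by
      rw [SetLike.mem_coe, Subgroup.mem_bot] at hy; simp [hy]
  · rw [← hg]
    calc g * a * g⁻¹ * (g * x * g⁻¹) * (g * a * g⁻¹)⁻¹ = g * (a * x * a⁻¹) * g⁻¹ := by group
      _ = (g * x * g⁻¹)⁻¹ := by rw [hxinv]; group

/-- An involutory automorphism of a Suzuki group is inner. -/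
theorem aut_inner (h : Hyp F m) (φ : MulAut (Cfsg.Sz F m)) (hφ : φ * φ = 1) :
    ∃ l, φ = MulAut.conj l := by
  haveI := h.finite
  letI := Fintype.ofFinite F
  haveI : Fact (Nat.Prime 2) := ⟨Nat.prime_two⟩
  obtain ⟨e⟩ := CfsgLib.Classes.nonempty_ringAut_equiv (F := F) (p := 2) (f := 2 * m + 1)
    (by rw [← Nat.card_eq_fintype_card]; exact h.card)
  have hout : Nat.card (Cfsg.Out (Cfsg.Sz F m)) = 2 * m + 1 := by
    rw [← Nat.card_congr h.outEquiv.toEquiv, Nat.card_congr e.toEquiv,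
      Nat.card_congr Multiplicative.toAdd, Nat.card_zmod]
  set c : Cfsg.Out (Cfsg.Sz F m) := QuotientGroup.mk' _ φ with hc
  have h1 : c ^ 2 = 1 := by rw [hc, ← map_pow, pow_two, hφ, map_one]
  have h2 : c ^ (2 * m + 1) = 1 := hout ▸ pow_card_eq_one'
  have : c = 1 := CfsgLib.SFourFree.pow_eq_one_of_coprime_pow h1 h2
    (Nat.coprime_two_left.2 ⟨m, rfl⟩)
  obtain ⟨l, hl⟩ := (QuotientGroup.eq_one_iff φ).1 (hc ▸ this)
  exact ⟨l, hl.symm⟩

end Sz

end CfsgLib.SFourStep
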