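import Cfsg.Agent.Lib.SFourStep.Component
import Cfsg.Agent.Lib.SFourStep.Suzuki
import Cfsg.Agent.Lib.SFourStep.PSLTwo
import Cfsg.Agent.Lib.Cores.GenFitting
import Cfsg.Agent.Lib.CharTheory.Burnside

/-!
Steps for groups whose non-abelian composition factors are Suzuki groups or `PSL₂(3^(2n+1))`.
-/

set_option autoImplicit false
set_option linter.style.haveILetI false

namespace CfsgLib.SFourStep

open Cfsg

universe u

/-- Every simple non-abelian image of a subnormal subgroup is Suzuki or `PSL₂(3^odd)`. -/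
def RestrictedFactors (G : Type u) [Group G] : Prop :=
  ∀ H : Subgroup G, H.IsSubnormal → ∀ (S : Type u) [Group S] (f : H →* S), Function.Surjective f →
    IsSimpleGroup S → ¬ IsMulCommutative S → IsSuzukiOrPSL2OddPowerThree S

theorem isSuzukiOrPSL2_congr {S T : Type u} [Group S] [Group T] (e : S ≃* T)
    (h : IsSuzukiOrPSL2OddPowerThree S) : IsSuzukiOrPSL2OddPowerThree T := by
  rcases h with ⟨F, i1, i2, m, hm, hF, ⟨e'⟩⟩ | ⟨F, i1, i2, n, hF, ⟨e'⟩⟩
  · exact Or.inl ⟨F, i1, i2, m, hm, hF, ⟨e.symm.trans e'⟩⟩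
  · exact Or.inr ⟨F, i1, i2, n, hF, ⟨e.symm.trans e'⟩⟩

theorem restrictedFactors_of_composition {G : Type u} [Group G]
    (hc : IsCompositionKGroupWith IsSuzukiOrPSL2OddPowerThree G) : RestrictedFactors G := by
  intro H hH S _ f hf hs hn
  have e : H ⧸ f.ker ≃* S := QuotientGroup.quotientKerEquivOfSurjective f hf
  refine isSuzukiOrPSL2_congr e (hc H hH f.ker (e.isSimpleGroup_congr.2 hs) fun hcm => hn ⟨⟨fun a b => ?_⟩⟩)
  have := congrArg e (hcm.is_comm.comm (e.symm a) (e.symm b))
  simpa using this

theorem RestrictedFactors.of_surjective {G X : Type u} [Group G] [Group X] (h : RestrictedFactors G)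
    (f : G →* X) (hf : Function.Surjective f) : RestrictedFactors X := by
  intro H hH S _ g hg hs hn
  refine h (H.comap f) (hH.comap f) S (g.comp (f.subgroupComap H)) (hg.comp ?_) hs hn
  rintro ⟨y, hy⟩
  obtain ⟨x, rfl⟩ := hf y
  exact ⟨⟨x, hy⟩, rfl⟩

theorem RestrictedFactors.subgroup {G : Type u} [Group G] (h : RestrictedFactors G)
    {K : Subgroup G} (hK : K.IsSubnormal) : RestrictedFactors K := by
  intro H hH S _ g hg hs hn
  exact h (H.map K.subtype) (hH.trans' hK) S
    (g.comp (H.equivMapOfInjective K.subtype K.subtype_injective).symm.toMonoidHom)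
    (hg.comp (MulEquiv.surjective _)) hs hn

/-- Suzuki groups and the groups `PSL₂(3^(2n+1))`: automorphisms of order two and steps. -/
theorem restricted_spec {L : Type u} [Group L] [Finite L] [IsSimpleGroup L]
    (hnc : ¬ IsMulCommutative L) (h : IsSuzukiOrPSL2OddPowerThree L) :
    (∀ φ : MulAut L, φ * φ = 1 →
      (∃ l, φ = MulAut.conj l) ∨ ∃ u : L, orderOf u = 3 ∧ φ u = u⁻¹) ∧ StepFree L := by
  rcases h with h | ⟨F, i1, i2, n, hF, ⟨e⟩⟩
  · obtain ⟨F, _, m, hyp, ⟨e⟩⟩ := CfsgLib.Suzuki.isoSuzuki_spec h
    refine ⟨fun φ hφ => Or.inl ?_, StepFree.of_mulEquiv e (Sz.stepFree hyp)⟩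
    obtain ⟨l, hl⟩ := Sz.aut_inner hyp (MulAut.congr e φ) (by rw [← map_mul, hφ, map_one])
    refine ⟨e.symm l, MulEquiv.ext fun x => e.injective ?_⟩
    have h1 := DFunLike.congr_fun hl (e x)
    simp only [MulAut.conj_apply] at h1 ⊢
    rw [map_mul, map_mul, map_inv, e.apply_symm_apply]
    simpa [MulAut.congr] using h1
  · haveI := Fintype.ofFinite L
    have hn : 1 ≤ n := by
      by_contra hn
      obtain rfl : n = 0 := by omega
      have h1 := CfsgLib.ClassicalLinear.card_PSL_two (F := F) hF
      norm_num at h1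
      have hc : Nat.card L = 12 := by
        rw [Nat.card_congr e.toEquiv]
        omega
      haveI : Fact (Nat.Prime 2) := ⟨Nat.prime_two⟩
      haveI : Fact (Nat.Prime 3) := ⟨Nat.prime_three⟩
      have : Group.IsSolvable L := CfsgLib.CharTheory.isSolvable_of_card_dvd_pow_mul_pow 2 3 2 1
        Nat.prime_two Nat.prime_three (by rw [hc]; norm_num)
      exact hnc ⟨⟨IsSimpleGroup.comm_iff_isSolvable.2 this⟩⟩
    haveI : IsSimpleGroup (Matrix.ProjectiveSpecialLinearGroup (Fin 2) F) := e.isSimpleGroup_congr.1 inferInstance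
    have hO : pCore 2 (Matrix.ProjectiveSpecialLinearGroup (Fin 2) F) = ⊥ := by
      rcases (inferInstance : (pCore 2 (Matrix.ProjectiveSpecialLinearGroup (Fin 2) F)).Normal).eq_bot_or_eq_top
        with h | h
      · exact h
      · exfalso
        haveI : Fact (Nat.Prime 2) := ⟨Nat.prime_two⟩
        haveI : Finite (Matrix.ProjectiveSpecialLinearGroup (Fin 2) F) := Finite.of_equiv L e.toEquiv
        haveI := ((CfsgLib.Cores.pCore_eq_top_iff.1 h).of_equiv e.symm).isNilpotent
        exact hnc ⟨⟨IsSimpleGroup.comm_iff_isSolvable.2 inferInstance⟩⟩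
    refine ⟨fun φ hφ => ?_, StepFree.of_mulEquiv e (PSLTwo.stepFree hn hF hO)⟩
    rcases PSLTwo.aut_inner_or hn hF (MulAut.congr e φ) (by rw [← map_mul, hφ, map_one]) with
      ⟨l, hl⟩ | ⟨w, hw, hwe⟩
    · left
      refine ⟨e.symm l, MulEquiv.ext fun x => e.injective ?_⟩
      have h1 := DFunLike.congr_fun hl (e x)
      simp only [MulAut.conj_apply] at h1 ⊢
      rw [map_mul, map_mul, map_inv, e.apply_symm_apply]
      simpa [MulAut.congr] using h1
    · right
      refine ⟨e.symm w, by rw [MulEquiv.orderOf_eq, hw], e.injective ?_⟩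
      rw [map_inv, e.apply_symm_apply]
      simpa [MulAut.congr] using hwe

variable {Y : Type u} [Group Y] [Finite Y]

/-- The case of trivial Fitting subgroup. -/
theorem step_of_fitting_eq_bot (hF : fittingSubgroup Y = ⊥) (hR : RestrictedFactors Y)
    (hI : Inv3Free Y) {A : Subgroup Y} (hA : IsElementaryAbelian 2 A) (hne : A ≠ ⊥) : Step A := by
  have hlay : layer Y = generalizedFittingSubgroup Y := by
    rw [generalizedFittingSubgroup, hF, sup_bot_eq]
  have hC : Subgroup.centralizer (layer Y : Set Y) = ⊥ := by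
    have hle := CfsgLib.Cores.centralizer_generalizedFittingSubgroup_le (G := Y)
    rw [← hlay] at hle
    haveI : (layer Y).Normal := by
      rw [hlay]; infer_instance
    rw [eq_bot_iff, ← hF]
    refine CfsgLib.Cores.le_fittingSubgroup ?_
    exact CfsgLib.Cores.isNilpotent_of_commutator_le_centralizer
      ((Subgroup.commutator_le_self _).trans fun g hg => Subgroup.mem_centralizer_iff.2 fun w hw =>
        (Subgroup.mem_centralizer_iff.1 hg w (hle hw)))
  obtain ⟨L, hL, hnt⟩ : ∃ L : Subgroup Y, IsComponent L ∧ ¬ A ≤ Subgroup.centralizer (L : Set Y) := by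
    by_contra hcon
    push Not at hcon
    refine hne (le_bot_iff.1 (hC ▸ ?_))
    exact Subgroup.le_centralizer_iff.1 (CfsgLib.Cores.layer_le_iff.2 fun L hL =>
      Subgroup.le_centralizer_iff.1 (hcon L hL))
  have hcL : Subgroup.center L = ⊥ := by
    refine (Subgroup.map_eq_bot_iff_of_injective _ L.subtype_injective).1 (le_bot_iff.1 ?_)
    rw [← hF]
    exact CfsgLib.Cores.le_fittingSubgroup_of_subnormal
      ((inferInstance : (Subgroup.center L).Normal).isSubnormal.trans' hL.1)
      (CfsgLib.Cores.isNilpotent_of_commutator_le_centralizer ((Subgroup.commutator_le_self _).trans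
        fun g hg => Subgroup.mem_centralizer_iff.2 fun w hw => by
          obtain ⟨g', hg', rfl⟩ := hg
          obtain ⟨w', -, rfl⟩ := hw
          exact congrArg Subtype.val (Subgroup.mem_center_iff.1 hg' w')))
  have hsimple : IsSimpleGroup L :=
    ((QuotientGroup.quotientMulEquivOfEq hcL).trans QuotientGroup.quotientBot).symm.isSimpleGroup_congr.2
      hL.2.2
  have hnc : ¬ IsMulCommutative L := fun h => by
    have h1 : Subgroup.center L = ⊤ := (Subgroup.eq_top_iff' _).2 fun x =>
      Subgroup.mem_center_iff.2 fun g => h.is_comm.comm g x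
    exact CfsgLib.Cores.center_ne_top_of_isQuasisimple hL.2 h1
  obtain ⟨hout, hstep⟩ := restricted_spec hnc
    (hR L hL.1 L (MonoidHom.id L) (fun x => ⟨x, rfl⟩) hsimple hnc)
  exact step_of_component hA hL hnc hI hout hstep hnt

/-- Groups without normal 2-subgroup and without an involution inverting an element of order three
have steps, if the non-abelian composition factors are restricted. -/
theorem stepFree_of_restricted {X : Type u} [Group X] [Finite X] (hR : RestrictedFactors X)
    (hO2 : pCore 2 X = ⊥) (hI : Inv3Free X) : StepFree X := by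
  haveI : Fact (Nat.Prime 2) := ⟨Nat.prime_two⟩
  intro A hA hne
  set O := pPrimeCore 2 X with hO
  have hOodd : Odd (Nat.card O) := Nat.coprime_two_right.1 (CfsgLib.Cores.card_pPrimeCore_coprime 2)
  by_cases hAO : A ≤ Subgroup.centralizer (O : Set X)
  · -- the central extension `C(O) → C(O)/Z`
    have hFO : fittingSubgroup X ≤ O := by
      rw [CfsgLib.Cores.fittingSubgroup_eq_iSup_pCore]
      refine iSup_le fun q => ?_
      haveI : Fact (q : ℕ).Prime := ⟨Nat.prime_of_mem_primeFactors q.2⟩
      rcases eq_or_ne (q : ℕ) 2 with hq | hq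
      · rw [hq, hO2]; exact bot_le
      · refine CfsgLib.Cores.le_pPrimeCore ?_
        obtain ⟨n, hn⟩ := IsPGroup.iff_card.1 (CfsgLib.Cores.isPGroup_pCore (q : ℕ) X)
        rw [hn]
        exact ((Nat.coprime_primes Fact.out Nat.prime_two).2 hq).pow_left n
    set X0 := Subgroup.centralizer (O : Set X) with hX0
    set Z : Subgroup X0 := O.subgroupOf X0 with hZ
    haveI : Z.Normal := Subgroup.Normal.comap inferInstance _
    have hZc : Z ≤ Subgroup.center X0 := fun z hz => Subgroup.mem_center_iff.2 fun g =>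
      Subtype.ext (Subgroup.mem_centralizer_iff.1 g.2 (z : X) hz).symm
    have hZodd : Odd (Nat.card Z) := by
      refine hOodd.of_dvd_nat ?_
      exact Subgroup.card_comap_dvd_of_injective O X0.subtype X0.subtype_injective
    set f := QuotientGroup.mk' Z with hf
    have hker : f.ker = Z := QuotientGroup.ker_mk' Z
    have hfit : fittingSubgroup (X0 ⧸ Z) = ⊥ := by
      rw [CfsgLib.Cores.fittingSubgroup_eq_bot_iff]
      intro q hq
      haveI := Fact.mk hq
      set N := pCore q (X0 ⧸ Z) with hN
      have hnil : Group.IsNilpotent N := (CfsgLib.Cores.isPGroup_pCore q (X0 ⧸ Z)).isNilpotent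
      haveI : (N.comap f).Normal := (inferInstance : N.Normal).comap f
      have hM : Group.IsNilpotent (N.comap f) := by
        haveI := hnil
        refine Subgroup.isNilpotent_of_ker_le_center (f.subgroupComap N) ?_
        intro g hg
        rw [Subgroup.mem_center_iff]
        intro h
        have hgZ : (g : X0) ∈ Z := hker.le (MonoidHom.mem_ker.2 (congrArg Subtype.val hg))
        exact Subtype.ext (Subgroup.mem_center_iff.1 (hZc hgZ) h)
      have h1 : ((N.comap f).map X0.subtype) ≤ O :=
        (CfsgLib.Cores.le_fittingSubgroup_of_subnormal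
          ((inferInstance : (N.comap f).Normal).isSubnormal.trans'
            (inferInstance : X0.Normal).isSubnormal)
          ((Group.isNilpotent_congr ((N.comap f).equivMapOfInjective _ X0.subtype_injective)).1 hM)).trans hFO
      rw [← Subgroup.map_comap_eq_self_of_surjective (QuotientGroup.mk'_surjective Z) N,
        Subgroup.map_eq_bot_iff, hker]
      exact fun g hg => h1 (Subgroup.mem_map_of_mem _ hg)
    have hI0 : Inv3Free X0 := hI.of_injective X0.subtype X0.subtype_injective
    have hR0 : RestrictedFactors X0 := hR.subgroup (inferInstance : X0.Normal).isSubnormal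
    have hA0 : IsElementaryAbelian 2 (A.subgroupOf X0) :=
      CfsgLib.ThompsonJ.isElementaryAbelian_subgroupOf hA
    have hne' : (A.subgroupOf X0).map f ≠ ⊥ := by
      intro h
      apply hne
      rw [eq_bot_iff]
      intro a ha
      have h1 : (⟨a, hAO ha⟩ : X0) ∈ Z := by
        refine hker.le (MonoidHom.mem_ker.2 (Subgroup.mem_bot.1 (h.le ?_)))
        exact Subgroup.mem_map_of_mem f ha
      exact Subgroup.mem_bot.2 (CfsgLib.SFourFree.pow_eq_one_of_coprime_pow (hA.2 a ha)
        (congrArg Subtype.val (pow_card_eq_one' (x := (⟨a, h1⟩ : O))))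
        (Nat.coprime_two_left.2 hOodd))
    have hYstep := step_of_fitting_eq_bot hfit
      (hR0.of_surjective f (QuotientGroup.mk'_surjective Z))
      (hI0.of_surjective f (QuotientGroup.mk'_surjective Z) (by rw [hker]; exact hZodd))
      (CfsgLib.ThompsonJ.isElementaryAbelian_map hA0 f) hne'
    have := (Step.lift f (QuotientGroup.mk'_surjective Z) (by rw [hker]; exact hZodd)
      (by rw [hker]; exact hZc) hA0 hYstep).map X0.subtype X0.subtype_injective
    rwa [Subgroup.subgroupOf_map_subtype, inf_eq_left.2 hAO] at this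
  · obtain ⟨B, z, x, p, hB, hcard, hz, hp, hp2, -, hxB, hxo, hinv⟩ :=
      CfsgLib.SFourFree.exists_hyperplane_inverted hA hOodd
        (by rw [Subgroup.normalizer_eq_top]; exact le_top) hAO
    refine ⟨B, z, x, p, 1, hB, ?_, le_rfl, hz, hp, hp2, hxo, hxB, hinv, fun h => absurd h (by norm_num)⟩
    have h1 := Subgroup.relIndex_mul_relIndex ⊥ B A bot_le hB
    rw [Subgroup.relIndex_bot_left, Subgroup.relIndex_bot_left, ← hcard, mul_comm 2] at h1
    rw [pow_one]
    exact Nat.eq_of_mul_eq_mul_left Nat.card_pos h1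

theorem hasSteps_of_restricted {L : Type u} [Group L] (hR : RestrictedFactors L) : HasSteps L :=
  fun _X _ _ f hf hO hI => stepFree_of_restricted (hR.of_surjective f hf) hO hI

end CfsgLib.SFourStep
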