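import Cfsg.Agent.Lib.SFourStep.Action
import Cfsg.Agent.Lib.SFourStep.Producer
import Mathlib.GroupTheory.Nilpotent

/-!
The squared offender bound and its dual for a faithful action of a group with steps.
-/

set_option autoImplicit false
set_option linter.style.haveILetI false

namespace CfsgLib.SFourStep

open Cfsg CfsgLib.SFourFree
open scoped commutatorElement

universe u

variable {L : Type u} [Group L] [Finite L]

/-- No 2-group of operators of exponent two on an elementary abelian 2-group is perfect on it. -/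
theorem eq_bot_of_commutator_eq {X B : Subgroup L} (hX : IsElementaryAbelian 2 X)
    (hB : IsElementaryAbelian 2 B) (hn : B ≤ Subgroup.normalizer (X : Set L)) (h : ⁅X, B⁆ = X) :
    X = ⊥ := by
  haveI : Fact (Nat.Prime 2) := ⟨Nat.prime_two⟩
  set P := X ⊔ B with hP
  have hPp : IsPGroup 2 P := (CfsgLib.ThompsonJ.isPGroup_of_isElementaryAbelian hB).to_sup_of_normal_right'
    (CfsgLib.ThompsonJ.isPGroup_of_isElementaryAbelian hX) hn |> fun h => by rwa [hP, sup_comm]
  haveI := hPp.isNilpotent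
  obtain ⟨n, hn'⟩ := Subgroup.nilpotent_iff_lowerCentralSeries.1 (inferInstance : Group.IsNilpotent P)
  set X' := X.subgroupOf P with hX'
  have h' : ⁅X', B.subgroupOf P⁆ = X' := by
    refine Subgroup.map_injective P.subtype_injective ?_
    rw [Subgroup.map_commutator, Subgroup.map_subgroupOf_eq_of_le le_sup_left,
      Subgroup.map_subgroupOf_eq_of_le le_sup_right, h]
  have hle : ∀ i, X' ≤ (⊤ : Subgroup P).lowerCentralSeries i := by
    intro i
    induction i with
    | zero => rw [Subgroup.lowerCentralSeries_zero]; exact le_top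
    | succ i ih =>
      rw [Subgroup.lowerCentralSeries_succ, ← h']
      exact Subgroup.commutator_mono ih le_top
  have h1 : X' = ⊥ := le_bot_iff.1 (hn' ▸ hle n)
  rw [← Subgroup.map_subgroupOf_eq_of_le (le_sup_left : X ≤ P), ← hX', h1, Subgroup.map_bot]

/-- An element of odd order commuting with a 2-group of operators and centralising `U` modulo
`[U, B]` centralises `U`. -/
theorem mem_centralizer_of_mod_commutator {U B : Subgroup L} [U.Normal]
    (hU : IsElementaryAbelian 2 U) (hB : IsElementaryAbelian 2 B) {v : L} {p : ℕ} (hp : Odd p)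
    (hvp : v ^ p ∈ Subgroup.centralizer (U : Set L)) (hvB : v ∈ Subgroup.centralizer (B : Set L))
    (h : ∀ u ∈ U, v * u * v⁻¹ * u⁻¹ ∈ ⁅U, B⁆) : v ∈ Subgroup.centralizer (U : Set L) := by
  by_contra hv
  obtain ⟨X, ⟨hXU, hXB, hXv, hXmod⟩, hmin⟩ := Set.Finite.exists_minimal
    (s := {X : Subgroup L | X ≤ U ∧ B ≤ Subgroup.normalizer (X : Set L) ∧
      v ∉ Subgroup.centralizer (X : Set L) ∧ ∀ u ∈ X, v * u * v⁻¹ * u⁻¹ ∈ ⁅X, B⁆})
    (Set.toFinite _) ⟨U, le_rfl, by rw [Subgroup.normalizer_eq_top]; exact le_top, hv, h⟩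
  have hle : ⁅X, B⁆ ≤ X := Subgroup.commutator_le.2 fun x hx b hb => by
    rw [commutatorElement_def]
    have := X.mul_mem hx ((Subgroup.mem_normalizer_iff.1 (hXB hb) x⁻¹).1 (X.inv_mem hx))
    simpa [mul_assoc] using this
  have hBn : B ≤ Subgroup.normalizer ((⁅X, B⁆ : Subgroup L) : Set L) :=
    Subgroup.normalizer_commutator_ge_right X B
  have hXe := CfsgLib.ThompsonJ.isElementaryAbelian_mono hU hXU
  have hcomm : ∀ {s t : L}, s ∈ X → t ∈ X → s * t = t * s := fun hs ht =>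
    CfsgLib.ThompsonJ.isElementaryAbelian_comm hXe hs ht
  have hv' : v ∉ Subgroup.centralizer ((⁅X, B⁆ : Subgroup L) : Set L) := by
    intro hc
    refine hXv (mem_centralizer_of_conj_eq fun u hu => ?_)
    exact pow_conj_eq (W := ⁅X, B⁆) (fun w hw => hXe.2 w (hle hw)) (hXmod u hu)
      (conj_eq_of_mem_centralizer hc (hXmod u hu)) (by group) p hp
      (conj_eq_of_mem_centralizer hvp (hXU hu))
  have hnew : ∀ u ∈ ⁅X, B⁆, v * u * v⁻¹ * u⁻¹ ∈ ⁅⁅X, B⁆, B⁆ := by
    intro u hu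
    induction hu using Subgroup.closure_induction with
    | mem u hu =>
      obtain ⟨w, hw, b, hb, rfl⟩ := hu
      set e := v * w * v⁻¹ * w⁻¹ with he
      have heK : e ∈ ⁅X, B⁆ := hXmod w hw
      have hkey : v * ⁅w, b⁆ * v⁻¹ * ⁅w, b⁆⁻¹ = ⁅e, b⁆ := by
        have h1 : v * w * v⁻¹ = e * w := by rw [he]; group
        have h2 : v * b * v⁻¹ = b := by
          rw [← Subgroup.mem_centralizer_iff.1 hvB b hb, mul_inv_cancel_right]
        have h3 : v * ⁅w, b⁆ * v⁻¹ = ⁅e * w, b⁆ := by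
          rw [show v * ⁅w, b⁆ * v⁻¹ = ⁅v * w * v⁻¹, v * b * v⁻¹⁆ by
            simp only [commutatorElement_def]; group, h1, h2]
        have hwb : ⁅w, b⁆ ∈ X := hle (Subgroup.commutator_mem_commutator hw hb)
        have heX : e ∈ X := hle heK
        have heb : ⁅e, b⁆ ∈ X := hle (Subgroup.commutator_mem_commutator heX hb)
        have h4 : ⁅e * w, b⁆ = e * ⁅w, b⁆ * e⁻¹ * ⁅e, b⁆ := by
          simp only [commutatorElement_def]; group
        rw [h3, h4, hcomm heX hwb, mul_inv_cancel_right, hcomm hwb heb, mul_inv_cancel_right]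
      rw [hkey]
      exact Subgroup.commutator_mem_commutator heK hb
    | one => simp
    | mul u w hu' hw' ihu ihw =>
      have hu1 : u ∈ X := hle hu'
      have : v * (u * w) * v⁻¹ * (u * w)⁻¹ =
          (v * u * v⁻¹ * u⁻¹) * (u * (v * w * v⁻¹ * w⁻¹) * u⁻¹) := by group
      have hin : v * w * v⁻¹ * w⁻¹ ∈ X :=
        hle ((Subgroup.commutator_mono hle le_rfl) ihw)
      rw [this, hcomm hu1 hin, mul_inv_cancel_right]
      exact mul_mem ihu ihw
    | inv u hu' ihu =>
      have hu1 : u ∈ X := hle hu'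
      have hin : v * u * v⁻¹ * u⁻¹ ∈ X := hle ((Subgroup.commutator_mono hle le_rfl) ihu)
      have : v * u⁻¹ * v⁻¹ * u⁻¹⁻¹ = u⁻¹ * (v * u * v⁻¹ * u⁻¹)⁻¹ * u := by group
      rw [this, hcomm (X.inv_mem hu1) (X.inv_mem hin), inv_mul_cancel_right]
      exact inv_mem ihu
  have hmem : ⁅X, B⁆ ∈ {X : Subgroup L | X ≤ U ∧ B ≤ Subgroup.normalizer (X : Set L) ∧
      v ∉ Subgroup.centralizer (X : Set L) ∧ ∀ u ∈ X, v * u * v⁻¹ * u⁻¹ ∈ ⁅X, B⁆} :=
    ⟨hle.trans hXU, hBn, hv', hnew⟩
  have hXbot := eq_bot_of_commutator_eq hXe hB hXB (le_antisymm hle (hmin hmem hle))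
  refine hXv (Subgroup.mem_centralizer_iff.2 fun y hy => ?_)
  rw [SetLike.mem_coe, hXbot, Subgroup.mem_bot] at hy
  simp [hy]

/-- The dual gain of a step. -/
theorem pow_four_mul_card_commutator_le {U : Subgroup L} [U.Normal] (hU : IsElementaryAbelian 2 U)
    {A B : Subgroup L} (hA : IsElementaryAbelian 2 A) (hBA : B ≤ A) {a v : L} (ha : a ∈ A) {p k : ℕ}
    (hp : p.Prime) (hp2 : p ≠ 2) (hord : ∀ i, 0 < i → i ≤ 4 * k - 2 → ¬ p ∣ 2 ^ i - 1)
    (hvp : v ^ p = 1) (hvinv : a * v * a⁻¹ = v⁻¹)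
    (hvC : v ∉ Subgroup.centralizer (U : Set L)) (hvB : v ∈ Subgroup.centralizer (B : Set L)) :
    4 ^ k * Nat.card ↥⁅U, B⁆ ≤ Nat.card ↥⁅U, A⁆ := by
  set W0 := ⁅U, B⁆ with hW0
  have hW0U : W0 ≤ U := Subgroup.commutator_le_left U B
  set L0 := Subgroup.normalizer (W0 : Set L) with hL0
  have hmemL0 : ∀ g : L, g ∈ Subgroup.centralizer (B : Set L) → g ∈ L0 := by
    intro g hg
    rw [hL0, Subgroup.mem_normalizer_iff_map_conj_eq, hW0, Subgroup.map_commutator]
    congr 1
    · exact Subgroup.mem_normalizer_iff_map_conj_eq.mp (by rw [Subgroup.normalizer_eq_top]; trivial)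
    · exact Subgroup.mem_normalizer_iff_map_conj_eq.mp (Subgroup.centralizer_le_normalizer _ hg)
  have haB : a ∈ Subgroup.centralizer (B : Set L) :=
    Subgroup.centralizer_le hBA (CfsgLib.ThompsonJ.isElementaryAbelian_le_centralizer hA ha)
  set a0 : L0 := ⟨a, hmemL0 a haB⟩ with ha0
  set v0 : L0 := ⟨v, hmemL0 v hvB⟩ with hv0
  have hUL0 : U ≤ L0 := le_normalizer_of_elem hU hW0U
  haveI : (W0.subgroupOf L0).Normal := Subgroup.normal_in_normalizer
  set q := QuotientGroup.mk' (W0.subgroupOf L0) with hq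
  have hq1 : ∀ g : L0, q g = 1 ↔ (g : L) ∈ W0 := fun g => QuotientGroup.eq_one_iff g
  set W := (U.subgroupOf L0).map q with hW
  haveI : W.Normal := Subgroup.Normal.map inferInstance q (QuotientGroup.mk'_surjective _)
  have hWe : IsElementaryAbelian 2 W :=
    CfsgLib.ThompsonJ.isElementaryAbelian_map (CfsgLib.ThompsonJ.isElementaryAbelian_subgroupOf hU) q
  have hnW : ∀ g, g ∈ Subgroup.normalizer (W : Set (L0 ⧸ W0.subgroupOf L0)) := fun g => by
    rw [Subgroup.normalizer_eq_top]; trivial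
  have hnt : q v0 ∉ Subgroup.centralizer (W : Set (L0 ⧸ W0.subgroupOf L0)) := by
    intro hc
    refine hvC (mem_centralizer_of_mod_commutator hU (CfsgLib.ThompsonJ.isElementaryAbelian_mono hA hBA)
      (hp.odd_of_ne_two hp2) (by rw [hvp]; exact one_mem _) hvB fun u hu => ?_)
    have h1 := conj_eq_of_mem_centralizer hc (Subgroup.mem_map_of_mem q
      (show (⟨u, hUL0 hu⟩ : L0) ∈ U.subgroupOf L0 from hu))
    rw [← mul_inv_eq_one, ← map_inv, ← map_mul, ← map_mul, ← map_inv, ← map_mul, hq1] at h1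
    exact h1
  have hlow := pow_four_le_relIndex hWe (hnW (q v0)) (hnW (q a0)) hp hp2 hord (k := k)
    (by
      rw [← map_pow, show v0 ^ p = 1 from Subtype.ext hvp, map_one]
      exact one_mem _)
    (by
      rw [← map_inv, ← map_mul, ← map_mul, ← map_mul,
        show a0 * v0 * a0⁻¹ * v0 = 1 from Subtype.ext (by
          show a * v * a⁻¹ * v = 1
          rw [hvinv, inv_mul_cancel]), map_one]
      exact one_mem _)
    hnt
  -- the map `w ↦ [a, w]`
  set α := q a0 with hα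
  have hWn : ∀ w : W, α * (w : L0 ⧸ W0.subgroupOf L0) * α⁻¹ * (w : L0 ⧸ W0.subgroupOf L0)⁻¹ ∈ W :=
    fun w => W.mul_mem ((inferInstance : W.Normal).conj_mem _ w.2 α) (W.inv_mem w.2)
  let δ : W →* (L0 ⧸ W0.subgroupOf L0) :=
    { toFun := fun w => α * (w : L0 ⧸ W0.subgroupOf L0) * α⁻¹ * (w : L0 ⧸ W0.subgroupOf L0)⁻¹
      map_one' := by simp
      map_mul' := fun w z => by
        have hc := CfsgLib.ThompsonJ.isElementaryAbelian_comm hWe (hWn z) (W.inv_mem w.2)
        calc α * ((w : L0 ⧸ W0.subgroupOf L0) * z) * α⁻¹ * ((w : L0 ⧸ W0.subgroupOf L0) * z)⁻¹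
            = α * (w : L0 ⧸ W0.subgroupOf L0) * α⁻¹ *
              ((α * (z : L0 ⧸ W0.subgroupOf L0) * α⁻¹ * (z : L0 ⧸ W0.subgroupOf L0)⁻¹) *
                (w : L0 ⧸ W0.subgroupOf L0)⁻¹) := by group
          _ = _ := by rw [hc]; group }
  have hker : δ.ker = (W ⊓ Subgroup.centralizer ({α} : Set (L0 ⧸ W0.subgroupOf L0))).subgroupOf W := by
    ext w
    rw [MonoidHom.mem_ker, Subgroup.mem_subgroupOf]
    show α * (w : L0 ⧸ W0.subgroupOf L0) * α⁻¹ * (w : L0 ⧸ W0.subgroupOf L0)⁻¹ = 1 ↔ _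
    rw [mul_inv_eq_one, mul_inv_eq_iff_eq_mul]
    exact ⟨fun h => ⟨w.2, Subgroup.mem_centralizer_singleton_iff.2 h.symm⟩,
      fun h => (Subgroup.mem_centralizer_singleton_iff.1 h.2).symm⟩
  set K := ⁅U, A⁆ with hK
  have hKU : K ≤ U := Subgroup.commutator_le_left U A
  have hrange : δ.range ≤ (K.subgroupOf L0).map q := by
    rintro _ ⟨⟨_, u, hu, rfl⟩, rfl⟩
    refine ⟨a0 * u * a0⁻¹ * u⁻¹, ?_, by simp [δ, hα]⟩
    show a * (u : L) * a⁻¹ * (u : L)⁻¹ ∈ K
    rw [hK, Subgroup.commutator_comm]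
    exact Subgroup.commutator_mem_commutator ha hu
  have h1 : 4 ^ k ≤ Nat.card ((K.subgroupOf L0).map q) := by
    refine hlow.trans ?_
    rw [Subgroup.relIndex, ← hker, Subgroup.index_ker]
    exact Nat.le_of_dvd Nat.card_pos (Subgroup.card_dvd_of_le hrange)
  have h2 : Nat.card ((K.subgroupOf L0).map q) = (W0.subgroupOf L0).relIndex (K.subgroupOf L0) := by
    rw [← Subgroup.relIndex_ker, hq, QuotientGroup.ker_mk']
  have h3 : Nat.card W0 * W0.relIndex K = Nat.card K := by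
    rw [← Subgroup.relIndex_bot_left, Subgroup.relIndex_mul_relIndex _ _ _ bot_le
      (Subgroup.commutator_mono le_rfl hBA), Subgroup.relIndex_bot_left]
  rw [h2, Subgroup.relIndex_subgroupOf (hKU.trans hUL0)] at h1
  calc 4 ^ k * Nat.card W0 ≤ W0.relIndex K * Nat.card W0 := Nat.mul_le_mul h1 le_rfl
    _ = Nat.card K := by rw [mul_comm, h3]

/-- Both squared bounds for a faithful group with steps. -/
theorem bounds_of_stepFree {U G : Subgroup L} [U.Normal] (hU : IsElementaryAbelian 2 U)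
    (hf : G ⊓ Subgroup.centralizer (U : Set L) = ⊥) (hG : StepFree G) (hI : Inv3Free G) :
    ∀ A : Subgroup L, A ≤ G → IsElementaryAbelian 2 A →
      Nat.card A ^ 2 * Nat.card ↥(U ⊓ Subgroup.centralizer (A : Set L)) ≤ Nat.card U ∧
        Nat.card A ^ 2 ≤ Nat.card ↥⁅U, A⁆ := by
  intro A
  induction A using WellFoundedLT.induction with
  | _ A ih =>
  intro hAG hA
  by_cases hne : A = ⊥
  · subst hne
    rw [Subgroup.card_bot, one_pow, one_mul]
    exact ⟨Nat.le_of_dvd Nat.card_pos (Subgroup.card_dvd_of_le inf_le_left), Nat.card_pos⟩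
  obtain ⟨B', ⟨a, haG⟩, ⟨v, hvG⟩, p, k, hB', hidx, hk, ha, hp, hp2, hxo, hxB, hxinv, hord⟩ :=
    hG (A.subgroupOf G) (CfsgLib.ThompsonJ.isElementaryAbelian_subgroupOf hA) (fun h => hne (by
      rw [← Subgroup.map_subgroupOf_eq_of_le hAG, h, Subgroup.map_bot]))
  have haA : a ∈ A := ha
  obtain ⟨hp5, hord'⟩ := step_order hI (Subtype.ext (hA.2 a haA)) hp hp2 hxo hxinv hord
  set B := B'.map G.subtype with hB
  have hBA : B ≤ A := (Subgroup.map_mono hB').trans (Subgroup.map_subgroupOf_eq_of_le hAG).le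
  have hidx' : B.relIndex A = 2 ^ k := by
    rw [hB, ← Subgroup.map_subgroupOf_eq_of_le hAG,
      Subgroup.relIndex_map_map_of_injective _ _ G.subtype_injective, hidx]
  have hvB : v ∈ Subgroup.centralizer (B : Set L) := map_mem_centralizer G.subtype hxB
  have hvp : v ^ p = 1 := congrArg Subtype.val (hxo ▸ pow_orderOf_eq_one (⟨v, hvG⟩ : G))
  have hvinv : a * v * a⁻¹ = v⁻¹ := congrArg Subtype.val hxinv
  have hvC : v ∉ Subgroup.centralizer (U : Set L) := fun h => by
    have : v ∈ G ⊓ Subgroup.centralizer (U : Set L) := ⟨hvG, h⟩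
    rw [hf, Subgroup.mem_bot] at this
    subst this
    rw [show (⟨1, hvG⟩ : G) = 1 from rfl, orderOf_one] at hxo
    exact hp.ne_one hxo.symm
  have hlt : B < A := lt_of_le_of_ne hBA fun h => by
    rw [h, Subgroup.relIndex_self] at hidx'
    exact (Nat.one_lt_two_pow (by omega : k ≠ 0)).ne hidx'
  obtain ⟨ih1, ih2⟩ := ih B hlt (hBA.trans hAG) (CfsgLib.ThompsonJ.isElementaryAbelian_mono hA hBA)
  have hcard : Nat.card A = Nat.card B * 2 ^ k := by
    rw [← hidx', ← Subgroup.relIndex_bot_left, ← Subgroup.relIndex_bot_left B,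
      Subgroup.relIndex_mul_relIndex _ _ _ bot_le hBA]
  have hsq : Nat.card A ^ 2 = 4 ^ k * Nat.card B ^ 2 := by
    rw [hcard, mul_pow, ← pow_mul, mul_comm k 2, pow_mul, mul_comm]
    norm_num
  have hA' : ElemMod A U := elemMod_of_isElementaryAbelian hA U
  refine ⟨?_, ?_⟩
  · have h4 := pow_four_mul_fixIdx_le hU hA' hBA haA hp hp2 hord' (by rw [hvp]; exact one_mem _)
      (by rw [hvinv, inv_mul_cancel]; exact one_mem _) hvC
      (fun b hb => by
        rw [← Subgroup.mem_centralizer_iff.1 hvB b hb, mul_inv_cancel_right, mul_inv_cancel]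
        exact one_mem _)
    have e : ∀ X : Subgroup L, Nat.card ↥(U ⊓ Subgroup.centralizer (X : Set L)) * fixIdx X U = Nat.card U :=
      fun X => by
        rw [fixIdx, ← Subgroup.relIndex_bot_left, Subgroup.relIndex_mul_relIndex _ _ _ bot_le inf_le_left,
          Subgroup.relIndex_bot_left]
    refine Nat.le_of_mul_le_mul_right ?_ (fixIdx_pos B U)
    calc Nat.card A ^ 2 * Nat.card ↥(U ⊓ Subgroup.centralizer (A : Set L)) * fixIdx B U
        = Nat.card ↥(U ⊓ Subgroup.centralizer (A : Set L)) * (4 ^ k * fixIdx B U) * Nat.card B ^ 2 := by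
          rw [hsq]; ring
      _ ≤ Nat.card ↥(U ⊓ Subgroup.centralizer (A : Set L)) * fixIdx A U * Nat.card B ^ 2 :=
          Nat.mul_le_mul (Nat.mul_le_mul le_rfl h4) le_rfl
      _ ≤ Nat.card U * fixIdx B U := by
          rw [e A]
          refine Nat.mul_le_mul le_rfl (Nat.le_of_mul_le_mul_left ?_
            (Nat.card_pos (α := ↥(U ⊓ Subgroup.centralizer (B : Set L)))))
          rw [e B, mul_comm]
          exact ih1
  · rw [hsq]
    exact (Nat.mul_le_mul le_rfl ih2).trans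
      (pow_four_mul_card_commutator_le hU hA hBA haA hp hp2 hord' hvp hvinv hvC hvB)

/-- A group not involving `S₃` has no involution inverting an element of order three. -/
theorem inv3Free_of_not_involves {X : Type u} [Group X] [Finite X]
    (h3 : ¬ Involves (Equiv.Perm (Fin 3)) X) : Inv3Free X := by
  intro a x ha hx he
  haveI : Fact (Nat.Prime 3) := ⟨Nat.prime_three⟩
  haveI : Fact (Nat.Prime 2) := ⟨Nat.prime_two⟩
  have ha1 : ∃ j, orderOf a = 2 ^ j := by
    obtain ⟨j, -, hj⟩ := (Nat.dvd_prime_pow Nat.prime_two).1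
      (orderOf_dvd_of_pow_eq_one (show a ^ 2 ^ 1 = 1 by rw [pow_one]; exact ha))
    exact ⟨j, hj⟩
  obtain ⟨e⟩ := CfsgLib.Amalgams.nonempty_dihedral_three_equiv
  exact h3 (CfsgLib.Amalgams.involves_mono e.toMonoidHom e.surjective
    (CfsgLib.Amalgams.involves_dihedral_of_inverts (p := 3) (by norm_num) ha1 ⟨1, by rw [pow_one, hx]⟩
      (fun h => by rw [h, orderOf_one] at hx; norm_num at hx) he))

end CfsgLib.SFourStep
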