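import Cfsg.Agent.Lib.SFourStep.Family

/-!
E-groups, the subgroup generated by the E-subgroups containing the Thompson subgroup, and its
functoriality.
-/

set_option autoImplicit false
set_option linter.style.haveILetI false

namespace CfsgLib.SFourStep

open Cfsg CfsgLib.SFourFree

universe u v

variable {G : Type u} [Group G] {H : Type v} [Group H]

theorem card_eq_mul_actCard (A V : Subgroup G) :
    Nat.card A = Nat.card ↥(A ⊓ Subgroup.centralizer (V : Set G)) * actCard A V := by
  rw [actCard, ← Subgroup.relIndex_bot_left, ← Subgroup.relIndex_bot_left (A ⊓ _),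
    Subgroup.relIndex_mul_relIndex _ _ _ bot_le inf_le_left]

theorem card_eq_mul_fixIdx (A V : Subgroup G) :
    Nat.card V = Nat.card ↥(V ⊓ Subgroup.centralizer (A : Set G)) * fixIdx A V := by
  rw [fixIdx, ← Subgroup.relIndex_bot_left, ← Subgroup.relIndex_bot_left (V ⊓ _),
    Subgroup.relIndex_mul_relIndex _ _ _ bot_le inf_le_left]

theorem witness_iff [Finite G] (R V : Subgroup G) :
    (Nat.card V) ^ 2 * (Nat.card ↥(R ⊓ Subgroup.centralizer (V : Set G))) ^ 3 >
        (Nat.card R) ^ 3 * (Nat.card ↥(V ⊓ Subgroup.centralizer (R : Set G))) ^ 2 ↔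
      actCard R V ^ 3 < fixIdx R V ^ 2 := by
  set r := Nat.card ↥(R ⊓ Subgroup.centralizer (V : Set G)) with hr
  set c := Nat.card ↥(V ⊓ Subgroup.centralizer (R : Set G)) with hc
  have e1 : Nat.card V ^ 2 * r ^ 3 = fixIdx R V ^ 2 * (c ^ 2 * r ^ 3) := by
    rw [card_eq_mul_fixIdx R V, ← hc]; ring
  have e2 : Nat.card R ^ 3 * c ^ 2 = actCard R V ^ 3 * (c ^ 2 * r ^ 3) := by
    rw [card_eq_mul_actCard R V, ← hr]; ring
  have hpos : 0 < c ^ 2 * r ^ 3 :=
    Nat.mul_pos (pow_pos Nat.card_pos 2) (pow_pos Nat.card_pos 3)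
  rw [gt_iff_lt, e1, e2]
  exact ⟨Nat.lt_of_mul_lt_mul_right, fun h => Nat.mul_lt_mul_of_pos_right h hpos⟩

theorem elemMod_of_witness_hyp {R V : Subgroup G}
    (h1 : ⁅R, R⁆ ≤ Subgroup.centralizer (V : Set G))
    (h2 : ∀ r ∈ R, r ^ 2 ∈ Subgroup.centralizer (V : Set G)) : ElemMod R V :=
  ⟨h2, fun _ ha _ hb => h1 (Subgroup.commutator_mem_commutator ha hb)⟩

theorem witness_hyp_of_elemMod {R V : Subgroup G} (h : ElemMod R V) :
    ⁅R, R⁆ ≤ Subgroup.centralizer (V : Set G) :=
  Subgroup.commutator_le.2 fun a ha b hb => by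
    rw [commutatorElement_def]; exact h.2 a ha b hb

/-- A criterion for E-groups in terms of the bound with exponent `3/2`. -/
theorem isEGroup_of_forall [Finite G] {T : Subgroup G}
    (h : ∀ V ≤ T, T ≤ Subgroup.normalizer (V : Set G) → IsElementaryAbelian 2 V →
      (∀ R ≤ T, ElemMod R V → Lt32 R V) → T ≤ Subgroup.centralizer (V : Set G)) :
    IsEGroup T := by
  intro V hVn hV hprop
  have hmap := h (V.map T.subtype) (Subgroup.map_subtype_le V) ?_
    (CfsgLib.ThompsonJ.isElementaryAbelian_map hV _) ?_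
  · intro v hv
    rw [Subgroup.mem_center_iff]
    intro t
    exact Subtype.ext
      (Subgroup.mem_centralizer_iff.1 (hmap t.2) _ (Subgroup.mem_map_of_mem T.subtype hv)).symm
  · intro t ht
    have := Subgroup.le_normalizer_map T.subtype (H := V)
      (Subgroup.mem_map_of_mem T.subtype (x := ⟨t, ht⟩) (by rw [Subgroup.normalizer_eq_top]; trivial))
    exact this
  · intro R hR hRe
    set R' := R.subgroupOf T with hR'
    have eR : R'.map T.subtype = R := Subgroup.map_subgroupOf_eq_of_le hR
    rw [← eR]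
    rw [lt32_map T.subtype_injective]
    have he : ElemMod R' V := by
      constructor
      · intro a ha
        refine Subgroup.mem_centralizer_iff.2 fun w hw => Subtype.ext ?_
        exact Subgroup.mem_centralizer_iff.1 (hRe.1 _ ha) (w : G) (Subgroup.mem_map_of_mem _ hw)
      · intro a ha b hb
        refine Subgroup.mem_centralizer_iff.2 fun w hw => Subtype.ext ?_
        exact Subgroup.mem_centralizer_iff.1 (hRe.2 _ ha _ hb) (w : G) (Subgroup.mem_map_of_mem _ hw)
    by_cases hc : R' ≤ Subgroup.centralizer (V : Set T)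
    · exact lt32_of_le_centralizer hc
    · exact Or.inr ((witness_iff R' V).1 (hprop R' (witness_hyp_of_elemMod he) he.1 hc).1)

/-- E-groups centralise the subgroups with the witness property. -/
theorem le_centralizer_of_isEGroup [Finite G] {T V : Subgroup G} (hT : IsEGroup T) (hVT : V ≤ T)
    (hTV : T ≤ Subgroup.normalizer (V : Set G)) (hV : IsElementaryAbelian 2 V)
    (h : ∀ R ≤ T, ElemMod R V → ¬ R ≤ Subgroup.centralizer (V : Set G) →
      actCard R V ^ 3 < fixIdx R V ^ 2 ∧ actCard R V < Nat.card ↥⁅V, R⁆) :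
    T ≤ Subgroup.centralizer (V : Set G) := by
  have hn : (V.subgroupOf T).Normal := Subgroup.normal_subgroupOf_of_le_normalizer hTV
  set V' := V.subgroupOf T with hV'
  have eV : V'.map T.subtype = V := Subgroup.map_subgroupOf_eq_of_le hVT
  have hz := hT V' hn (CfsgLib.ThompsonJ.isElementaryAbelian_subgroupOf hV) ?_
  · intro t ht
    refine Subgroup.mem_centralizer_iff.2 fun v hv => ?_
    have h1 := Subgroup.mem_center_iff.1 (hz (show (⟨v, hVT hv⟩ : T) ∈ V' from hv)) ⟨t, ht⟩
    exact (congrArg Subtype.val h1).symm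
  · intro R h1 h2 hnc
    set R0 := R.map T.subtype with hR0
    have he : ElemMod R0 V := eV ▸ (elemMod_of_witness_hyp h1 h2).map T.subtype
    have hnc0 : ¬ R0 ≤ Subgroup.centralizer (V : Set G) := fun hle => hnc fun r hr =>
      Subgroup.mem_centralizer_iff.2 fun w hw => Subtype.ext
        (Subgroup.mem_centralizer_iff.1 (hle (Subgroup.mem_map_of_mem _ hr)) (w : G) hw)
    obtain ⟨g1, g2⟩ := h R0 (Subgroup.map_subtype_le R) he hnc0
    rw [← eV, hR0, actCard_map T.subtype_injective, fixIdx_map T.subtype_injective] at g1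
    rw [← eV, hR0, actCard_map T.subtype_injective, ← Subgroup.map_commutator,
      Subgroup.card_map_of_injective T.subtype_injective] at g2
    refine ⟨(witness_iff R V').2 g1, ?_⟩
    rw [gt_iff_lt, card_eq_mul_actCard R V', mul_comm (Nat.card ↥⁅V', R⁆)]
    exact Nat.mul_lt_mul_of_pos_left g2 Nat.card_pos

/-- E-groups are invariant under isomorphism. -/
theorem isEGroup_of_mulEquiv {T : Type u} [Group T] {T' : Type v} [Group T'] (e : T ≃* T')
    (h : IsEGroup T') : IsEGroup T := by
  intro V hVn hV hprop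
  have hinj : Function.Injective e.toMonoidHom := e.injective
  have hsurj : Function.Surjective e.toMonoidHom := e.surjective
  have hc : ∀ A : Subgroup T, (Subgroup.centralizer (A : Set T)).map e.toMonoidHom =
      Subgroup.centralizer (A.map e.toMonoidHom : Set T') := fun A => by
    have := map_inf_centralizer hinj ⊤ A
    rwa [top_inf_eq, Subgroup.map_top_of_surjective _ hsurj, top_inf_eq] at this
  have hz := h (V.map e.toMonoidHom) (Subgroup.Normal.map hVn _ hsurj)
    (CfsgLib.ThompsonJ.isElementaryAbelian_map hV _) ?_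
  · intro v hv
    rw [Subgroup.mem_center_iff]
    intro t
    apply e.injective
    rw [map_mul, map_mul]
    exact Subgroup.mem_center_iff.1 (hz (Subgroup.mem_map_of_mem _ hv)) (e t)
  · intro R h1 h2 hnc
    obtain ⟨R, rfl⟩ : ∃ R0 : Subgroup T, R0.map e.toMonoidHom = R :=
      ⟨R.comap e.toMonoidHom, Subgroup.map_comap_eq_self_of_surjective hsurj R⟩
    rw [← hc] at hnc h2
    rw [← hc, ← Subgroup.map_commutator, Subgroup.map_le_map_iff_of_injective hinj] at h1
    rw [Subgroup.map_le_map_iff_of_injective hinj] at hnc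
    have h2' : ∀ r ∈ R, r ^ 2 ∈ Subgroup.centralizer (V : Set T) := fun r hr => by
      obtain ⟨c, hcm, hcr⟩ := h2 _ (Subgroup.mem_map_of_mem _ hr)
      rw [← map_pow] at hcr
      rw [← hinj hcr]; exact hcm
    obtain ⟨g1, g2⟩ := hprop R h1 h2' hnc
    rw [← map_inf_centralizer hinj, ← map_inf_centralizer hinj, ← Subgroup.map_commutator]
    simp only [Subgroup.card_map_of_injective hinj]
    exact ⟨g1, g2⟩

/-- The subgroup generated by the E-subgroups of `K` containing the Thompson subgroup of `K`. -/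
def eGen (K : Subgroup G) : Subgroup G :=
  sSup {U : Subgroup G | U ≤ K ∧ IsEGroup U ∧ thompsonSubgroupOf 2 K ≤ U}

theorem eGen_le (K : Subgroup G) : eGen K ≤ K :=
  sSup_le fun _ hU => hU.1

theorem map_jHat (K : Subgroup G) : (jHat K).map K.subtype = eGen K := by
  refine le_antisymm ?_ (sSup_le fun U hU => ?_)
  · rw [Subgroup.map_le_iff_le_comap]
    refine sSup_le fun U hU => ?_
    rw [← Subgroup.map_le_iff_le_comap]
    refine le_sSup ⟨Subgroup.map_subtype_le U, ?_, ?_⟩
    · exact isEGroup_of_mulEquiv (U.equivMapOfInjective K.subtype K.subtype_injective).symm hU.1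
    · exact Subgroup.map_mono hU.2
  · obtain ⟨hUK, hE, hJ⟩ := hU
    rw [← Subgroup.map_subgroupOf_eq_of_le hUK]
    refine Subgroup.map_mono (le_sSup ⟨?_, ?_⟩)
    · exact isEGroup_of_mulEquiv (Subgroup.subgroupOfEquivOfLe hUK) hE
    · intro x hx
      exact hJ (Subgroup.mem_map_of_mem K.subtype hx)

theorem map_eGen {f : G →* H} (hf : Function.Injective f) (K : Subgroup G) :
    (eGen K).map f = eGen (K.map f) := by
  refine le_antisymm ?_ (sSup_le fun U hU => ?_)
  · rw [Subgroup.map_le_iff_le_comap]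
    refine sSup_le fun U hU => ?_
    rw [← Subgroup.map_le_iff_le_comap]
    refine le_sSup ⟨Subgroup.map_mono hU.1, ?_, ?_⟩
    · exact isEGroup_of_mulEquiv (U.equivMapOfInjective f hf).symm hU.2.1
    · rw [← CfsgLib.ThompsonJ.map_thompsonSubgroupOf hf]
      exact Subgroup.map_mono hU.2.2
  · obtain ⟨hUK, hE, hJ⟩ := hU
    have hr : U ≤ f.range := hUK.trans (Subgroup.map_le_range f K)
    have hU' : (U.comap f).map f = U := Subgroup.map_comap_eq_self hr
    rw [← hU']
    refine Subgroup.map_mono (le_sSup ⟨?_, ?_, ?_⟩)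
    · rw [← Subgroup.comap_map_eq_self_of_injective hf K]
      exact Subgroup.comap_mono hUK
    · exact isEGroup_of_mulEquiv (((U.comap f).equivMapOfInjective f hf).trans
        (MulEquiv.subgroupCongr hU')) hE
    · rw [← Subgroup.map_le_map_iff_of_injective hf, hU', CfsgLib.ThompsonJ.map_thompsonSubgroupOf hf]
      exact hJ

theorem normalizer_le_normalizer_eGen (K : Subgroup G) :
    Subgroup.normalizer (K : Set G) ≤ Subgroup.normalizer (eGen K : Set G) := by
  intro g hg
  rw [Subgroup.mem_normalizer_iff_map_conj_eq] at hg ⊢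
  exact (map_eGen (f := (MulAut.conj g).toMonoidHom) (MulAut.conj g).injective K).trans
    (congrArg eGen hg)

/-- The Thompson subgroup is an E-group. -/
theorem isEGroup_thompson [Finite G] (K : Subgroup G) :
    IsEGroup (thompsonSubgroupOf 2 K) :=
  isEGroup_of_forall fun V hVJ _ hV h =>
    CfsgLib.ThompsonJ.thompsonSubgroupOf_le_iff.2 fun A hA =>
      le_centralizer_of_lt32 hA hV (hVJ.trans (CfsgLib.ThompsonJ.thompsonSubgroupOf_le 2 K))
        (h A (CfsgLib.ThompsonJ.le_thompsonSubgroupOf hA) (elemMod_of_isElementaryAbelian hA.elem V))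

theorem thompson_le_eGen [Finite G] (K : Subgroup G) : thompsonSubgroupOf 2 K ≤ eGen K :=
  le_sSup ⟨CfsgLib.ThompsonJ.thompsonSubgroupOf_le 2 K, isEGroup_thompson K, le_rfl⟩

theorem eGen_eq_of_le [Finite G] {K S : Subgroup G} (hKS : K ≤ S) (h : eGen S ≤ K) :
    eGen K = eGen S := by
  have hJ : thompsonSubgroupOf 2 K = thompsonSubgroupOf 2 S :=
    CfsgLib.ThompsonJ.thompsonSubgroupOf_eq_of_le hKS ((thompson_le_eGen S).trans h)
  refine le_antisymm (sSup_le fun U hU => le_sSup ⟨hU.1.trans hKS, hU.2.1, hJ ▸ hU.2.2⟩)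
    (sSup_le fun U hU => le_sSup ⟨(le_trans (le_sSup hU : U ≤ eGen S) h), hU.2.1, hJ ▸ hU.2.2⟩)

/-- `Ω₁(Z(Ĵ))`. -/
noncomputable def omegaEGen (K : Subgroup G) : Subgroup G :=
  omegaOne 2 (eGen K ⊓ Subgroup.centralizer (eGen K : Set G))

theorem map_omegaEGen {f : G →* H} (hf : Function.Injective f) (K : Subgroup G) :
    (omegaEGen K).map f = omegaEGen (K.map f) := by
  rw [omegaEGen, omegaEGen, CfsgLib.ThompsonJ.map_omegaOne hf,
    CfsgLib.ThompsonJ.map_inf_centralizer hf, map_eGen hf]

theorem omegaEGen_le_omegaOne_centerThompsonOf [Finite G] (K : Subgroup G) :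
    omegaEGen K ≤ omegaOne 2 (centerThompsonOf 2 K) :=
  (CfsgLib.ThompsonJ.omegaOne_mono (inf_le_inf (eGen_le K)
    (Subgroup.centralizer_le (thompson_le_eGen K)))).trans
    (CfsgLib.ThompsonJ.omegaOne_inf_centralizer_le_thompsonSubgroupOf K)

end CfsgLib.SFourStep
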