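import Cfsg.Agent.Lib.SFourStep.Dual
import Cfsg.Agent.Lib.SFourStep.EGroup
import Cfsg.Agent.Lib.SFourStep.Producer
import Cfsg.Agent.Lib.Cores.Basic

/-!
The two factorisations through the centraliser of the centre of a Sylow 2-subgroup.
-/

set_option autoImplicit false
set_option linter.style.haveILetI false

namespace CfsgLib.SFourStep

open Cfsg CfsgLib.SFourFree

universe u

variable {L : Type u} [Group L] [Finite L]

/-- An element of odd order centralising the involutions of an abelian 2-group centralises it. -/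
theorem pow_mem_centralizer_of_omega {V : Subgroup L} [V.Normal] (hV : IsPGroup 2 V)
    (hVc : V ≤ Subgroup.centralizer (V : Set L)) {n : L}
    (hn : n ∈ Subgroup.centralizer (omegaOne 2 V : Set L)) :
    ∃ k : ℕ, n ^ 2 ^ k ∈ Subgroup.centralizer (V : Set L) := by
  obtain ⟨k, m, hm, hkm⟩ := Nat.exists_eq_two_pow_mul_odd (orderOf_pos n).ne'
  refine ⟨k, mem_centralizer_of_conj_eq fun v hv => ?_⟩
  obtain ⟨x, hx⟩ : ∃ x, x = n ^ 2 ^ k := ⟨_, rfl⟩
  rw [← hx]
  have hxc : x ∈ Subgroup.centralizer (omegaOne 2 V : Set L) := hx ▸ pow_mem hn _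
  have hxm : x ^ m = 1 := by rw [hx, ← pow_mul, ← hkm, pow_orderOf_eq_one]
  have key : ∀ e : ℕ, ∀ v ∈ V, v ^ 2 ^ e = 1 → x * v * x⁻¹ = v := by
    intro e
    induction e with
    | zero => intro v _ h; rw [pow_zero, pow_one] at h; simp [h]
    | succ e ih =>
      intro v hv h
      have h2 : x * v ^ 2 * x⁻¹ = v ^ 2 :=
        ih (v ^ 2) (V.pow_mem hv 2) (by rw [← pow_mul, ← pow_succ']; exact h)
      set w := x * v * x⁻¹ with hw
      have hwV : w ∈ V := (inferInstance : V.Normal).conj_mem v hv x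
      set c := w * v⁻¹ with hc
      have hcomm : Commute w v⁻¹ := (hVc (V.inv_mem hv) w hwV)
      have hc2 : c ^ 2 = 1 := by
        rw [hc, hcomm.mul_pow, hw, conj_pow, h2, inv_pow, mul_inv_cancel]
      have hcO : c ∈ omegaOne 2 V :=
        CfsgLib.ThompsonJ.mem_omegaOne (V.mul_mem hwV (V.inv_mem hv)) hc2
      refine pow_conj_eq (W := omegaOne 2 V) (fun y hy =>
        ((CfsgLib.ThompsonJ.mem_omegaOne_iff_of_le_centralizer hVc).1 hy).2) hcO
        (conj_eq_of_mem_centralizer hxc hcO) ?_ m hm (by rw [hxm]; simp)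
      show w = c * v
      rw [hc, inv_mul_cancel_right]
  obtain ⟨e, he⟩ := hV ⟨v, hv⟩
  exact key e v hv (congrArg Subtype.val he)

/-- Frattini: a subgroup of `C` normalised by the normalizer of `S ∩ C`. -/
theorem sup_eq_top_of_normalizer_inf (S : Sylow 2 L) (C : Subgroup L) [C.Normal] {W : Subgroup L}
    (hinf : Subgroup.normalizer (((S : Subgroup L) ⊓ C : Subgroup L) : Set L) ⊔ C = ⊤)
    (hW : Subgroup.normalizer (((S : Subgroup L) ⊓ C : Subgroup L) : Set L) ≤ W) :
    ∀ g : L, ∃ c ∈ C, ∃ w ∈ W, g = c * w := by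
  intro g
  have hg : g ∈ C ⊔ W := by
    rw [sup_comm]
    exact sup_le_sup_right hW C (hinf.symm ▸ Subgroup.mem_top g)
  rw [← SetLike.mem_coe, Subgroup.normal_mul] at hg
  obtain ⟨c, hc, w, hw, rfl⟩ := hg
  exact ⟨c, hc, w, hw, rfl⟩

theorem exists_mul_of_sup_eq_top {C W : Subgroup L} [C.Normal] (h : W ⊔ C = ⊤) :
    ∀ g : L, ∃ c ∈ C, ∃ w ∈ W, g = c * w := by
  intro g
  have hg : g ∈ C ⊔ W := by rw [sup_comm, h]; trivial
  rw [← SetLike.mem_coe, Subgroup.normal_mul] at hg
  obtain ⟨c, hc, w, hw, rfl⟩ := hg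
  exact ⟨c, hc, w, hw, rfl⟩

/-- The centraliser of the normal closure of the centre of `S`: it contains the E-subgroups containing
the Thompson subgroup. -/
theorem exists_normal_centralizer_centre (hR : RestrictedFactors L)
    (h4 : ¬ Involves (Equiv.Perm (Fin 4)) L)
    (hchar : Subgroup.centralizer (pCore 2 L : Set L) ≤ pCore 2 L) (S : Sylow 2 L) :
    ∃ C : Subgroup L, C.Normal ∧ C ≤ Subgroup.centralizer
        (((S : Subgroup L) ⊓ Subgroup.centralizer ((S : Subgroup L) : Set L) : Subgroup L) : Set L) ∧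
      eGen (S : Subgroup L) ≤ C := by
  haveI : Fact (Nat.Prime 2) := ⟨Nat.prime_two⟩
  set S' : Subgroup L := (S : Subgroup L) with hS'
  set Z := S' ⊓ Subgroup.centralizer (S' : Set L) with hZ
  set Q := pCore 2 L with hQ
  have hQS : Q ≤ S' := CfsgLib.Cores.pCore_le_sylow S
  set V0 := Subgroup.normalClosure (Z : Set L) with hV0
  haveI : V0.Normal := Subgroup.normalClosure_normal
  have hZQ : Z ≤ Q ⊓ Subgroup.centralizer (Q : Set L) :=
    le_inf ((inf_le_right.trans (Subgroup.centralizer_le hQS)).trans hchar)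
      (inf_le_right.trans (Subgroup.centralizer_le hQS))
  have hV0Q : V0 ≤ Q ⊓ Subgroup.centralizer (Q : Set L) :=
    Subgroup.normalClosure_le_normal hZQ
  have hV0c : V0 ≤ Subgroup.centralizer (V0 : Set L) :=
    (hV0Q.trans inf_le_right).trans (Subgroup.centralizer_le (hV0Q.trans inf_le_left))
  have hV0p : IsPGroup 2 V0 :=
    (CfsgLib.Cores.isPGroup_pCore 2 L).to_le (hV0Q.trans inf_le_left)
  have hrad0 : rad2 V0 ≤ Subgroup.centralizer (V0 : Set L) := by
    refine rad2_le_centralizer_of_generated S ((Subgroup.closure_le _).2 fun y hy => ?_)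
    obtain ⟨z, hz, hc⟩ := Group.mem_conjugatesOfSet_iff.1 hy
    obtain ⟨g, hg⟩ := isConj_iff.1 hc
    exact Subgroup.subset_closure ⟨g, z, Subgroup.subset_normalClosure hz, hz.2, hg.symm⟩
  set Mo := omegaOne 2 V0 with hMo
  haveI : Mo.Normal := ⟨fun x hx g => by
    have hV : V0.map (MulAut.conj g).toMonoidHom = V0 := Subgroup.mem_normalizer_iff_map_conj_eq.mp
      (show g ∈ Subgroup.normalizer (V0 : Set L) by rw [Subgroup.normalizer_eq_top]; trivial)
    have h1 := Subgroup.mem_map_of_mem (MulAut.conj g).toMonoidHom hx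
    rw [hMo, CfsgLib.ThompsonJ.map_omegaOne (MulAut.conj g).injective, hV] at h1
    exact h1⟩
  have hMoe : IsElementaryAbelian 2 Mo := CfsgLib.ThompsonJ.isElementaryAbelian_omegaOne hV0c
  have hMoV : Mo ≤ V0 := CfsgLib.ThompsonJ.omegaOne_le 2 V0
  have hCC : Subgroup.centralizer (Mo : Set L) ≤ Subgroup.centralizer (V0 : Set L) :=
    (le_rad2 fun n hn => pow_mem_centralizer_of_omega hV0p hV0c hn).trans hrad0
  have hradM : rad2 Mo ≤ Subgroup.centralizer (Mo : Set L) := by
    refine (le_trans ?_ hrad0).trans (Subgroup.centralizer_le hMoV)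
    exact le_rad2 fun n hn => (exists_pow_mem_of_mem_rad2 hn).imp fun _ hk => hCC hk
  have hMoS : Mo ≤ S' := hMoV.trans ((hV0Q.trans inf_le_left).trans hQS)
  have hL := hasSteps_of_restricted hR
  have hJ : thompsonSubgroupOf 2 S' ≤ Subgroup.centralizer (Mo : Set L) := by
    refine CfsgLib.ThompsonJ.thompsonSubgroupOf_le_iff.2 fun A hA => ?_
    have h1 := fixIdx_le_actCard_of_isMaxEA hA hMoe hMoS
    have h2 := (sq_actCard_le_fixIdx hL h4 hMoe hradM A
      (elemMod_of_isElementaryAbelian hA.elem Mo)).trans h1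
    have hpos : 0 < actCard A Mo := relIndex_pos _ _
    have h3 : actCard A Mo = 1 := by
      rcases Nat.lt_or_ge (actCard A Mo) 2 with h | h
      · omega
      · have : 2 * actCard A Mo ≤ actCard A Mo ^ 2 := by rw [pow_two]; exact Nat.mul_le_mul h le_rfl
        omega
    exact fun a ha => ((Subgroup.relIndex_eq_one.1 h3) ha).2
  have hMoJ : Mo ≤ thompsonSubgroupOf 2 S' :=
    ((CfsgLib.ThompsonJ.le_omegaOne hMoe (le_inf hMoS (Subgroup.le_centralizer_iff.1 hJ))).trans
      (CfsgLib.ThompsonJ.omegaOne_inf_centralizer_le_thompsonSubgroupOf S')).trans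
      ((CfsgLib.ThompsonJ.omegaOne_le 2 _).trans inf_le_left)
  refine ⟨Subgroup.centralizer (Mo : Set L), inferInstance,
    hCC.trans (Subgroup.centralizer_le Subgroup.subset_normalClosure), sSup_le fun U hU => ?_⟩
  obtain ⟨-, hE, hJU⟩ := hU
  refine le_centralizer_of_isEGroup hE (hMoJ.trans hJU)
    (fun u _ => by rw [Subgroup.normalizer_eq_top]; trivial) hMoe fun R _ hRe hnc => ?_
  have h1 := sq_actCard_le_fixIdx hL h4 hMoe hradM R hRe
  have h2 := sq_actCard_le_card_commutator hL h4 hMoe hradM hRe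
  have hpos : 0 < actCard R Mo := relIndex_pos _ _
  have hne : actCard R Mo ≠ 1 := fun h => hnc fun r hr => ((Subgroup.relIndex_eq_one.1 h) hr).2
  refine ⟨lt_of_lt_of_le (Nat.pow_lt_pow_right (show 1 < actCard R Mo by omega)
    (show 3 < 2 * 2 by norm_num)) ?_, lt_of_lt_of_le ?_ h2⟩
  · rw [pow_mul]; exact Nat.pow_le_pow_left h1 2
  · rw [pow_two]
    exact lt_mul_of_one_lt_left hpos (by omega)

/-- `G = C(Z(S)) N(J(S)) = C(Z(S)) N(Ĵ(S))`. -/
theorem factor_centre (hR : RestrictedFactors L)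
    (h4 : ¬ Involves (Equiv.Perm (Fin 4)) L)
    (hchar : Subgroup.centralizer (pCore 2 L : Set L) ≤ pCore 2 L) (S : Sylow 2 L)
    (hfr : ∀ (C : Subgroup L) [C.Normal],
      Subgroup.normalizer (((S : Subgroup L) ⊓ C : Subgroup L) : Set L) ⊔ C = ⊤) :
    (∀ g : L, ∃ c ∈ Subgroup.centralizer
        (((S : Subgroup L) ⊓ Subgroup.centralizer ((S : Subgroup L) : Set L) : Subgroup L) : Set L),
      ∃ n ∈ Subgroup.normalizer (thompsonSubgroupOf 2 (S : Subgroup L) : Set L), g = c * n) ∧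
    (∀ g : L, ∃ c ∈ Subgroup.centralizer
        (((S : Subgroup L) ⊓ Subgroup.centralizer ((S : Subgroup L) : Set L) : Subgroup L) : Set L),
      ∃ n ∈ Subgroup.normalizer (eGen (S : Subgroup L) : Set L), g = c * n) := by
  obtain ⟨C, hCn, hCZ, hEC⟩ := exists_normal_centralizer_centre hR h4 hchar S
  haveI := hCn
  have hEP : eGen (S : Subgroup L) ≤ (S : Subgroup L) ⊓ C := le_inf (eGen_le _) hEC
  refine ⟨fun g => ?_, fun g => ?_⟩
  · obtain ⟨c, hc, w, hw, rfl⟩ := sup_eq_top_of_normalizer_inf S C (hfr C)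
      (W := Subgroup.normalizer (thompsonSubgroupOf 2 (S : Subgroup L) : Set L))
      (CfsgLib.ThompsonJ.thompsonSubgroupOf_eq_of_le (inf_le_left : (S : Subgroup L) ⊓ C ≤ S)
          ((thompson_le_eGen _).trans hEP) ▸
        CfsgLib.ThompsonJ.normalizer_le_normalizer_thompsonSubgroupOf 2 _) g
    exact ⟨c, hCZ hc, w, hw, rfl⟩
  · obtain ⟨c, hc, w, hw, rfl⟩ := sup_eq_top_of_normalizer_inf S C (hfr C)
      (W := Subgroup.normalizer (eGen (S : Subgroup L) : Set L))
      (eGen_eq_of_le (inf_le_left : (S : Subgroup L) ⊓ C ≤ S) hEP ▸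
        normalizer_le_normalizer_eGen _) g
    exact ⟨c, hCZ hc, w, hw, rfl⟩

end CfsgLib.SFourStep
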