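import Cfsg.Agent.Lib.SFourStep.Lift
import Cfsg.Agent.Lib.Cores.Components
import Mathlib.GroupTheory.NoncommPiCoprod

/-!
Steps from a component: diagonal embeddings over the components conjugate under an elementary
abelian 2-subgroup.
-/

set_option autoImplicit false
set_option linter.style.haveILetI false

namespace CfsgLib.SFourStep

open Cfsg

universe u

variable {Y : Type u} [Group Y] [Finite Y]

omit [Finite Y] in
/-- Conjugation on a subgroup by an element of its normaliser. -/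
def conjOn (L : Subgroup Y) (g : Y) (hg : g ∈ Subgroup.normalizer (L : Set Y)) : MulAut L where
  toFun x := ⟨g * x * g⁻¹, (Subgroup.mem_normalizer_iff.1 hg x).1 x.2⟩
  invFun x := ⟨g⁻¹ * x * g, (Subgroup.mem_normalizer_iff''.1 hg x).1 x.2⟩
  left_inv x := Subtype.ext (by simp [mul_assoc])
  right_inv x := Subtype.ext (by simp [mul_assoc])
  map_mul' x y := Subtype.ext (by simp [mul_assoc])

/-- The diagonal homomorphism over the conjugates of a component by a complement to its normaliser. -/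
theorem exists_diagonal {A L Q : Subgroup Y} (hA : IsElementaryAbelian 2 A) (hL : IsComponent L)
    (hQA : Q ≤ A) (hQ : Q ⊓ Subgroup.normalizer (L : Set Y) = ⊥) :
    ∃ Ψ : L →* Y, (∀ q ∈ Q, ∀ x : L, q * Ψ x * q⁻¹ = Ψ x) ∧
      (∀ (a : Y) (hN : a ∈ Subgroup.normalizer (L : Set Y)), a ∈ A → ∀ x : L,
        a * Ψ x * a⁻¹ = Ψ (conjOn L a hN x)) ∧
      (∀ x : L, (x : Y)⁻¹ * Ψ x ∈ Subgroup.centralizer (L : Set Y)) ∧
      (∀ a : Y, (∀ q ∈ Q, a * q ∉ Subgroup.normalizer (L : Set Y)) →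
        ∀ x : L, a * Ψ x * a⁻¹ ∈ Subgroup.centralizer (L : Set Y)) := by
  classical
  haveI : Fintype Q := Fintype.ofFinite _
  set ϕ : Q → (L →* Y) := fun q => (MulAut.conj (q : Y)).toMonoidHom.comp L.subtype with hϕ
  -- a conjugate of `L` by an element moving it centralises `L`
  have hmov : ∀ g : Y, g ∉ Subgroup.normalizer (L : Set Y) →
      ∀ x : L, g * (x : Y) * g⁻¹ ∈ Subgroup.centralizer (L : Set Y) := by
    intro g hg x
    have hne : L.map (MulAut.conj g).toMonoidHom ≠ L := fun h =>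
      hg (Subgroup.mem_normalizer_iff_map_conj_eq.2 h)
    exact CfsgLib.Cores.le_centralizer_of_isComponent_ne
      (CfsgLib.Cores.isComponent_map_equiv hL (MulAut.conj g)) hL hne
      (Subgroup.mem_map.2 ⟨x, x.2, rfl⟩)
  have hϕc : Pairwise fun i j : Q => ∀ x y : L, Commute (ϕ i x) (ϕ j y) := by
    intro i j hij x y
    have hg : (j : Y)⁻¹ * i ∉ Subgroup.normalizer (L : Set Y) := by
      intro h
      have h1 : (j : Y)⁻¹ * i ∈ Q ⊓ Subgroup.normalizer (L : Set Y) :=
        ⟨Q.mul_mem (Q.inv_mem j.2) i.2, h⟩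
      rw [hQ, Subgroup.mem_bot, inv_mul_eq_one] at h1
      exact hij (Subtype.ext h1.symm)
    have hc : Commute (((j : Y)⁻¹ * i) * x * ((j : Y)⁻¹ * i)⁻¹) (y : Y) :=
      (Subgroup.mem_centralizer_iff.1 (hmov _ hg x) y y.2).symm
    have := hc.map (MulAut.conj (j : Y))
    simpa [hϕ, mul_assoc] using this
  set Φ : (Q → L) →* Y := MonoidHom.noncommPiCoprod ϕ hϕc with hΦ
  have hsingle : ∀ q x, Φ (Pi.mulSingle q x) = (q : Y) * x * (q : Y)⁻¹ := fun q x => by
    rw [hΦ, MonoidHom.noncommPiCoprod_mulSingle]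
    rfl
  set Δ : L →* (Q → L) := MonoidHom.pi fun _ => MonoidHom.id L with hΔ
  refine ⟨Φ.comp Δ, ?_, ?_, ?_, ?_⟩
  · intro q hq x
    let σ : (Q → L) →* (Q → L) := MonoidHom.pi fun i => Pi.evalMonoidHom _ ((⟨q, hq⟩ : Q)⁻¹ * i)
    have key : (MulAut.conj q).toMonoidHom.comp Φ = Φ.comp σ := by
      refine MonoidHom.pi_ext fun i y => ?_
      have : σ (Pi.mulSingle i y) = Pi.mulSingle ((⟨q, hq⟩ : Q) * i) y := by
        funext l
        show Pi.mulSingle (M := fun _ : Q => L) i y ((⟨q, hq⟩ : Q)⁻¹ * l) = _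
        simp only [Pi.mulSingle_apply, inv_mul_eq_iff_eq_mul]
      simp only [MonoidHom.comp_apply, this, hsingle, MulEquiv.coe_toMonoidHom, MulAut.conj_apply,
        Subgroup.coe_mul]
      group
    exact DFunLike.congr_fun key (Δ x)
  · intro a hN ha x
    let τ : (Q → L) →* (Q → L) :=
      MonoidHom.pi fun i => (conjOn L a hN).toMonoidHom.comp (Pi.evalMonoidHom _ i)
    have key : (MulAut.conj a).toMonoidHom.comp Φ = Φ.comp τ := by
      refine MonoidHom.pi_ext fun i z => ?_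
      have : τ (Pi.mulSingle i z) = Pi.mulSingle i (conjOn L a hN z) := by
        funext l
        show conjOn L a hN (Pi.mulSingle (M := fun _ : Q => L) i z l) = _
        simp only [Pi.mulSingle_apply, apply_ite (conjOn L a hN), map_one]
      simp only [MonoidHom.comp_apply, this, hsingle, MulEquiv.coe_toMonoidHom, MulAut.conj_apply]
      have hc : a * (i : Y) = i * a :=
        CfsgLib.ThompsonJ.isElementaryAbelian_comm hA ha (hQA i.2)
      show a * ((i : Y) * z * (i : Y)⁻¹) * a⁻¹ = i * (a * z * a⁻¹) * (i : Y)⁻¹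
      calc a * ((i : Y) * z * (i : Y)⁻¹) * a⁻¹ = (a * i) * z * (a * i)⁻¹ := by group
        _ = _ := by rw [hc]; group
    exact DFunLike.congr_fun key (Δ x)
  · intro x
    have h1 : Δ x = Pi.mulSingle (1 : Q) x * Function.update (Δ x) 1 1 := by
      funext i
      by_cases hi : i = 1
      · subst hi; simp [hΔ]
      · simp [Pi.mulSingle_eq_of_ne hi, Function.update_of_ne hi, hΔ]
    rw [MonoidHom.comp_apply, h1, map_mul, hsingle, OneMemClass.coe_one, one_mul, inv_one, mul_one,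
      inv_mul_cancel_left]
    refine Subgroup.noncommProd_mem _ (fun _ _ _ _ h => hϕc h _ _) fun i _ => ?_
    by_cases hi : i = 1
    · subst hi; rw [Function.update_self, map_one]; exact one_mem _
    · refine hmov _ (fun h => hi ?_) _
      have hmem : (i : Y) ∈ Q ⊓ Subgroup.normalizer (L : Set Y) := ⟨i.2, h⟩
      rw [hQ, Subgroup.mem_bot] at hmem
      exact Subtype.ext hmem
  · intro a hout x
    have : Φ (Δ x) ∈ (Subgroup.centralizer (L : Set Y)).comap (MulAut.conj a).toMonoidHom := by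
      refine Subgroup.noncommProd_mem _ (fun _ _ _ _ h => hϕc h _ _) fun i _ => ?_
      show a * ((i : Y) * _ * (i : Y)⁻¹) * a⁻¹ ∈ Subgroup.centralizer (L : Set Y)
      have := hmov _ (hout i i.2) (Δ x i)
      rw [mul_inv_rev] at this
      simp only [mul_assoc] at this ⊢
      exact this
    exact this

omit [Finite Y] in
theorem conjOn_mul (L : Subgroup Y) {g g' : Y} (hg : g ∈ Subgroup.normalizer (L : Set Y))
    (hg' : g' ∈ Subgroup.normalizer (L : Set Y)) :
    conjOn L (g * g') (mul_mem hg hg') = conjOn L g hg * conjOn L g' hg' :=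
  MulEquiv.ext fun x => Subtype.ext (by
    show g * g' * x * (g * g')⁻¹ = g * (g' * x * g'⁻¹) * g⁻¹
    group)

/-- An element of odd prime order in a non-abelian simple group. -/
theorem exists_orderOf_odd_prime {L : Type*} [Group L] [Finite L] [IsSimpleGroup L]
    (hnc : ¬ IsMulCommutative L) : ∃ (x : L) (r : ℕ), r.Prime ∧ r ≠ 2 ∧ orderOf x = r := by
  haveI : Fact (Nat.Prime 2) := ⟨Nat.prime_two⟩
  by_contra hcon
  have hall : ∀ {d : ℕ}, d.Prime → d ∣ Nat.card L → d = 2 := by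
    intro d hd hdvd
    by_contra hd2
    haveI := Fact.mk hd
    obtain ⟨x, hx⟩ := exists_prime_orderOf_dvd_card' d hdvd
    exact hcon ⟨x, d, hd, hd2, hx⟩
  have hP : IsPGroup 2 L :=
    IsPGroup.of_card (Nat.eq_prime_pow_of_unique_prime_dvd Nat.card_pos.ne' hall)
  haveI := hP.isNilpotent
  exact hnc ⟨⟨IsSimpleGroup.comm_iff_isSolvable.2 inferInstance⟩⟩

/-- A component moved by an elementary abelian 2-subgroup yields a step. -/
theorem step_of_component {A L : Subgroup Y} (hA : IsElementaryAbelian 2 A) (hL : IsComponent L)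
    [IsSimpleGroup L] (hnc : ¬ IsMulCommutative L) (hI : Inv3Free Y)
    (hout : ∀ φ : MulAut L, φ * φ = 1 →
      (∃ l, φ = MulAut.conj l) ∨ ∃ u : L, orderOf u = 3 ∧ φ u = u⁻¹)
    (hstep : StepFree L) (hnt : ¬ A ≤ Subgroup.centralizer (L : Set Y)) : Step A := by
  classical
  set N := Subgroup.normalizer (L : Set Y) with hN
  set A1 := A ⊓ N with hA1
  -- the action of `A1` on `L` is inner
  have hconj : Function.Injective (MulAut.conj : L →* MulAut L) := by
    refine (MonoidHom.ker_eq_bot_iff _).1 ?_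
    rcases (MonoidHom.normal_ker (MulAut.conj : L →* MulAut L)).eq_bot_or_eq_top with h | h
    · exact h
    · refine absurd ⟨⟨fun x y => ?_⟩⟩ hnc
      have := DFunLike.congr_fun (MonoidHom.mem_ker.1 (h ▸ Subgroup.mem_top x :
        x ∈ (MulAut.conj : L →* MulAut L).ker)) y
      exact mul_inv_eq_iff_eq_mul.1 this
  have hinner : ∀ a : A1, ∃ l : L, conjOn L a a.2.2 = MulAut.conj l := by
    intro a
    have ha2 : (a : Y) * a = 1 := by rw [← pow_two]; exact hA.2 a a.2.1
    refine (hout _ (MulEquiv.ext fun x => Subtype.ext ?_)).resolve_right ?_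
    · show (a : Y) * (a * x * (a : Y)⁻¹) * (a : Y)⁻¹ = x
      rw [inv_eq_of_mul_eq_one_right ha2]
      calc (a : Y) * (a * x * a) * a = (a * a) * x * (a * a) := by group
        _ = x := by rw [ha2, one_mul, mul_one]
    · rintro ⟨u, hu, hue⟩
      exact hI a u (by rw [pow_two, ha2]) (by rw [Subgroup.orderOf_coe, hu])
        (congrArg Subtype.val hue)
  choose θ₀ hθ₀ using hinner
  set θ : A1 →* L := MonoidHom.mk' θ₀ fun a b => hconj (by
    rw [map_mul, ← hθ₀, ← hθ₀, ← hθ₀]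
    exact conjOn_mul L a.2.2 b.2.2) with hθ
  have hθa : ∀ (a : A1) (x : L), conjOn L a a.2.2 x = θ a * x * (θ a)⁻¹ := fun a x => by
    rw [hθ₀ a]; rfl
  have hD : IsElementaryAbelian 2 θ.range := by
    rw [MonoidHom.range_eq_map]
    refine CfsgLib.ThompsonJ.isElementaryAbelian_map (CfsgLib.ThompsonJ.isElementaryAbelian_iff.2
      ⟨fun a _ => Subgroup.mem_centralizer_iff.2 fun b _ => Subtype.ext
        (CfsgLib.ThompsonJ.isElementaryAbelian_comm hA b.2.1 a.2.1),
        fun a _ => Subtype.ext (hA.2 a a.2.1)⟩) θ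
  have hinf : ∀ Q : Subgroup Y, Q ≤ A → Q ⊓ A1 = ⊥ → Q ⊓ N = ⊥ := fun Q hQA h => by
    rw [← h, hA1, ← inf_assoc, inf_eq_left.2 hQA]
  have hgrow : ∀ {Q : Subgroup Y} {c : Y}, Q ≤ A → c ∈ A → Q ⊓ A1 = ⊥ →
      (Q ⊔ Subgroup.zpowers c) ⊓ A1 = ⊥ ∨ c ∈ Q ⊔ A1 := by
    intro Q c hQA hc hQ
    refine or_iff_not_imp_left.2 fun hne => ?_
    obtain ⟨⟨y, hy⟩, hy1⟩ := (Subgroup.ne_bot_iff_exists_ne_one).1 hne
    have hnorm : Subgroup.zpowers c ≤ Subgroup.normalizer (Q : Set Y) :=
      ((Subgroup.zpowers_le.2 hc).trans ((CfsgLib.ThompsonJ.isElementaryAbelian_le_centralizer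
        hA).trans (Subgroup.centralizer_le hQA))).trans (Subgroup.centralizer_le_normalizer _)
    obtain ⟨q, hq, e, he, hqe⟩ : ∃ q ∈ Q, ∃ e ∈ Subgroup.zpowers c, q * e = y := by
      have := (Subgroup.mem_inf.1 hy).1
      rwa [← SetLike.mem_coe, Subgroup.coe_mul_of_right_le_normalizer_left Q _ hnorm,
        Set.mem_mul] at this
    have hc2 : c * c = 1 := by rw [← pow_two]; exact hA.2 c hc
    obtain ⟨i, rfl⟩ := Subgroup.mem_zpowers_iff.1 he
    rcases Int.even_or_odd i with ⟨j, rfl⟩ | ⟨j, rfl⟩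
    · rw [← two_mul, zpow_mul, show c ^ (2 : ℤ) = 1 by rw [zpow_two, hc2], one_zpow, mul_one] at hqe
      have : y ∈ Q ⊓ A1 := ⟨hqe ▸ hq, hy.2⟩
      rw [hQ, Subgroup.mem_bot] at this
      exact absurd (Subtype.ext this) hy1
    · rw [zpow_add, zpow_mul, show c ^ (2 : ℤ) = 1 by rw [zpow_two, hc2], one_zpow, one_mul,
        zpow_one] at hqe
      have : c = q⁻¹ * y := by rw [← hqe, inv_mul_cancel_left]
      exact this ▸ mul_mem (Subgroup.mem_sup_left (Q.inv_mem hq)) (Subgroup.mem_sup_right hy.2)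
  by_cases hθ1 : θ.range = ⊥
  · -- `A1` centralises `L`
    have hfix : ∀ (a : A1) (x : L), conjOn L a a.2.2 x = x := fun a x => by
      have : θ a = 1 := Subgroup.mem_bot.1 (hθ1 ▸ ⟨a, rfl⟩)
      rw [hθa, this, one_mul, inv_one, mul_one]
    obtain ⟨a, haA, haN⟩ : ∃ a ∈ A, a ∉ N := by
      by_contra hcon
      push Not at hcon
      refine hnt fun a ha => CfsgLib.SFourFree.mem_centralizer_of_conj_eq fun w hw => ?_
      exact congrArg Subtype.val (hfix ⟨a, ha, hcon a ha⟩ ⟨w, hw⟩)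
    obtain ⟨Q, ⟨hQA, hQ, haQ⟩, hmax⟩ := Set.Finite.exists_maximal
      (s := {Q : Subgroup Y | Q ≤ A ∧ Q ⊓ A1 = ⊥ ∧ a ∉ Q ⊔ A1}) (Set.toFinite _)
      ⟨⊥, bot_le, bot_inf_eq _, by rw [bot_sup_eq]; exact fun h => haN h.2⟩
    obtain ⟨Ψ, hΨQ, hΨA, hΨ1, hΨout⟩ := exists_diagonal hA hL hQA (hinf Q hQA hQ)
    obtain ⟨x, r, hr, hr2, hx⟩ := exists_orderOf_odd_prime hnc
    have haa : a * a = 1 := by rw [← pow_two]; exact hA.2 a haA
    have hai : a⁻¹ = a := inv_eq_of_mul_eq_one_right haa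
    set z := (Ψ x)⁻¹ * (a * Ψ x * a⁻¹) with hz
    have hzinv : a * z * a⁻¹ = z⁻¹ := by
      rw [hz, hai]
      simp only [mul_inv_rev, inv_inv, hai, mul_assoc, haa, mul_one]
    have hzmul : (x : Y) * z ∈ Subgroup.centralizer (L : Set Y) := by
      have h1 := hΨ1 x
      have h2 : a * Ψ x * a⁻¹ ∈ Subgroup.centralizer (L : Set Y) := by
        refine hΨout a (fun q hq h => haQ ?_) x
        have : a = (a * q) * q⁻¹ := by group
        rw [this]
        exact mul_mem (Subgroup.mem_sup_right ⟨mul_mem haA (hQA hq), h⟩)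
          (Subgroup.mem_sup_left (Q.inv_mem hq))
      have hcx : (x : Y) * ((x : Y)⁻¹ * Ψ x) = (x : Y)⁻¹ * Ψ x * x :=
        Subgroup.mem_centralizer_iff.1 h1 x x.2
      have e : (x : Y) * z = ((x : Y)⁻¹ * Ψ x)⁻¹ * (a * Ψ x * a⁻¹) := by
        rw [hz]
        conv_lhs => rw [show (Ψ x)⁻¹ = ((x : Y) * ((x : Y)⁻¹ * Ψ x))⁻¹ by group, hcx]
        group
      rw [e]
      exact mul_mem (inv_mem h1) h2
    have hcent : ∀ l : L, (l : Y) ∈ Subgroup.centralizer (L : Set Y) → l = 1 := fun l hl =>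
      hconj (by
        rw [map_one]
        exact MulEquiv.ext fun w => Subtype.ext
          (CfsgLib.SFourFree.conj_eq_of_mem_centralizer hl w.2))
    have hdvd : r ∣ orderOf z := by
      have hc : Commute (x : Y) ((x : Y) * z) :=
        (Subgroup.mem_centralizer_iff.1 hzmul x x.2)
      have hz' : z = (x : Y)⁻¹ * ((x : Y) * z) := by group
      have h1 : z ^ orderOf z = (x : Y)⁻¹ ^ orderOf z * ((x : Y) * z) ^ orderOf z := by
        rw [← Commute.mul_pow hc.inv_left, ← hz']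
      rw [pow_orderOf_eq_one] at h1
      have h2 : ((x ^ orderOf z : L) : Y) ∈ Subgroup.centralizer (L : Set Y) := by
        have : ((x ^ orderOf z : L) : Y) = ((x : Y) * z) ^ orderOf z := by
          rw [Subgroup.coe_pow]
          calc (x : Y) ^ orderOf z
              = (x : Y) ^ orderOf z * ((x : Y)⁻¹ ^ orderOf z * ((x : Y) * z) ^ orderOf z) := by
                rw [← h1, mul_one]
            _ = ((x : Y) * z) ^ orderOf z := by rw [inv_pow, mul_inv_cancel_left]
        rw [this]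
        exact pow_mem hzmul _
      exact hx ▸ orderOf_dvd_of_pow_eq_one (hcent _ h2)
    have hBA : Q ⊔ A1 ≤ A := sup_le hQA inf_le_left
    have hcov : ∀ c ∈ A, c ∈ Q ⊔ A1 ∨ c * a ∈ Q ⊔ A1 := by
      intro c hc
      rcases hgrow hQA hc hQ with h | h
      · by_cases hcQ : c ∈ Q
        · exact Or.inl (Subgroup.mem_sup_left hcQ)
        have h1 : a ∈ (Q ⊔ Subgroup.zpowers c) ⊔ A1 := by
          by_contra hna
          exact hcQ (hmax ⟨sup_le hQA (Subgroup.zpowers_le.2 hc), h, hna⟩ le_sup_left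
            (Subgroup.mem_sup_right (Subgroup.mem_zpowers c)))
        rw [sup_right_comm] at h1
        have hnorm : Subgroup.zpowers c ≤ Subgroup.normalizer ((Q ⊔ A1 : Subgroup Y) : Set Y) :=
          ((Subgroup.zpowers_le.2 hc).trans ((CfsgLib.ThompsonJ.isElementaryAbelian_le_centralizer
            hA).trans (Subgroup.centralizer_le hBA))).trans (Subgroup.centralizer_le_normalizer _)
        rw [← SetLike.mem_coe, Subgroup.coe_mul_of_right_le_normalizer_left _ _ hnorm,
          Set.mem_mul] at h1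
        obtain ⟨b, hb, e, he, hbe⟩ := h1
        obtain ⟨i, rfl⟩ := Subgroup.mem_zpowers_iff.1 he
        have hc2 : c ^ (2 : ℤ) = 1 := by rw [zpow_two, ← pow_two]; exact hA.2 c hc
        rcases Int.even_or_odd i with ⟨j, rfl⟩ | ⟨j, rfl⟩
        · rw [← two_mul, zpow_mul, hc2, one_zpow, mul_one] at hbe
          exact absurd (hbe ▸ hb) haQ
        · rw [zpow_add, zpow_mul, hc2, one_zpow, one_mul, zpow_one] at hbe
          right
          have : c * a = b := by
            rw [← hbe, CfsgLib.ThompsonJ.isElementaryAbelian_comm hA (hBA hb) hc, ← mul_assoc,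
              ← pow_two, hA.2 c hc, one_mul]
          exact this ▸ hb
      · exact Or.inl h
    refine ⟨Q ⊔ A1, a, z ^ (orderOf z / r), r, 1, hBA, ?_, le_rfl, haA, hr, hr2, ?_, ?_, ?_,
      fun h => absurd h (by norm_num)⟩
    · rw [pow_one]
      show ((Q ⊔ A1).subgroupOf A).index = 2
      refine Subgroup.index_eq_two_iff.2 ⟨⟨a, haA⟩, fun b => ?_⟩
      rw [Subgroup.mem_subgroupOf, Subgroup.mem_subgroupOf, Subgroup.coe_mul]
      rcases hcov b b.2 with h | h
      · exact Or.inr ⟨h, fun h' => haQ (by simpa using mul_mem (inv_mem h) h')⟩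
      · exact Or.inl ⟨h, fun h' => haQ (by simpa using mul_mem (inv_mem h') h)⟩
    · rw [orderOf_pow_of_dvd (Nat.div_pos (Nat.le_of_dvd (orderOf_pos _) hdvd) hr.pos).ne'
        (Nat.div_dvd_of_dvd hdvd), Nat.div_div_self hdvd (orderOf_pos _).ne']
    · refine pow_mem ?_ _
      have hB : Q ⊔ A1 ≤ Subgroup.centralizer ({Ψ x} : Set Y) := sup_le
        (fun q hq => Subgroup.mem_centralizer_singleton_iff.2
          (mul_inv_eq_iff_eq_mul.1 (hΨQ q hq x)))
        (fun b hb => Subgroup.mem_centralizer_singleton_iff.2 (mul_inv_eq_iff_eq_mul.1 (by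
          rw [hΨA b hb.2 hb.1, hfix ⟨b, hb⟩])))
      rw [Subgroup.mem_centralizer_iff]
      intro b hb
      have h1 : Commute b (Ψ x) := Subgroup.mem_centralizer_singleton_iff.1 (hB hb)
      have h2 : Commute b a := CfsgLib.ThompsonJ.isElementaryAbelian_comm hA (hBA hb) haA
      exact (h1.inv_right.mul_right ((h2.mul_right h1).mul_right h2.inv_right)).eq
    · rw [← conj_pow, hzinv, inv_pow]
  · obtain ⟨BD, _, x, r, k, hBD, hidx, hk, ⟨a, rfl⟩, hr, hr2, hx, hxB, hinv, hord⟩ :=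
      hstep θ.range hD hθ1
    obtain ⟨Q, ⟨hQA, hQ⟩, hmax⟩ := Set.Finite.exists_maximal
      (s := {Q : Subgroup Y | Q ≤ A ∧ Q ⊓ A1 = ⊥}) (Set.toFinite _) ⟨⊥, bot_le, bot_inf_eq _⟩
    obtain ⟨Ψ, hΨQ, hΨA, hΨ1, -⟩ := exists_diagonal hA hL hQA (hinf Q hQA hQ)
    have hsup : A = Q ⊔ A1 := le_antisymm (fun c hc => by
      rcases hgrow hQA hc hQ with h | h
      · exact Subgroup.mem_sup_left (hmax ⟨sup_le hQA (Subgroup.zpowers_le.2 hc), h⟩ le_sup_left
          (Subgroup.mem_sup_right (Subgroup.mem_zpowers c)))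
      · exact h) (sup_le hQA inf_le_left)
    set B1 : Subgroup Y := (BD.comap θ).map A1.subtype with hB1
    have hB1A : B1 ≤ A1 := Subgroup.map_subtype_le _
    have hBA : Q ⊔ B1 ≤ A := sup_le hQA (hB1A.trans inf_le_left)
    have hA1n : ∀ H : Subgroup Y, H ≤ A → A1 ≤ Subgroup.normalizer (H : Set Y) := fun H hH =>
      ((inf_le_left.trans (CfsgLib.ThompsonJ.isElementaryAbelian_le_centralizer hA)).trans
        (Subgroup.centralizer_le hH)).trans (Subgroup.centralizer_le_normalizer _)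
    have hidx' : (Q ⊔ B1).relIndex A = 2 ^ k := by
      have e1 : A = (Q ⊔ B1) ⊔ A1 := by
        rw [sup_assoc, sup_eq_right.2 hB1A, ← hsup]
      have e2 : (Q ⊔ B1) ⊓ A1 = B1 := by
        refine le_antisymm ?_ (le_inf le_sup_right hB1A)
        intro g hg'
        obtain ⟨hg, hg1⟩ := Subgroup.mem_inf.1 hg'
        rw [← SetLike.mem_coe, Subgroup.coe_mul_of_right_le_normalizer_left _ _
          (hB1A.trans (hA1n Q hQA)), Set.mem_mul] at hg
        obtain ⟨q, hq, b, hb, rfl⟩ := hg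
        have : q ∈ Q ⊓ A1 := ⟨hq, by simpa using mul_mem hg1 (inv_mem (hB1A hb))⟩
        rw [hQ, Subgroup.mem_bot] at this
        rw [this, one_mul]
        exact hb
      rw [e1, CfsgLib.SFourFree.relIndex_sup_eq (hA1n _ hBA), ← Subgroup.inf_relIndex_right, e2,
        hB1, Subgroup.relIndex, Subgroup.subgroupOf, Subgroup.comap_map_eq_self_of_injective A1.subtype_injective, Subgroup.index_comap, hidx]
    have hinj : Function.Injective Ψ := by
      refine (MonoidHom.ker_eq_bot_iff _).1 ?_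
      rcases (MonoidHom.normal_ker Ψ).eq_bot_or_eq_top with h | h
      · exact h
      · refine absurd ⟨⟨fun u v => ?_⟩⟩ hnc
        have h1 := hΨ1 u
        rw [MonoidHom.mem_ker.1 (h ▸ Subgroup.mem_top u : u ∈ Ψ.ker), mul_one, inv_mem_iff] at h1
        exact Subtype.ext (Subgroup.mem_centralizer_iff.1 h1 v v.2).symm
    refine ⟨Q ⊔ B1, (a : Y), Ψ x, r, k, hBA, hidx', hk, a.2.1, hr, hr2, ?_, ?_, ?_, hord⟩
    · rw [orderOf_injective Ψ hinj, hx]
    · have hB : Q ⊔ B1 ≤ Subgroup.centralizer ({Ψ x} : Set Y) := sup_le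
        (fun q hq => Subgroup.mem_centralizer_singleton_iff.2
          (mul_inv_eq_iff_eq_mul.1 (hΨQ q hq x))) (by
        rintro _ ⟨b, hb, rfl⟩
        refine Subgroup.mem_centralizer_singleton_iff.2 (mul_inv_eq_iff_eq_mul.1 ?_)
        have hbx : θ b * x = x * θ b := Subgroup.mem_centralizer_iff.1 hxB _ hb
        show (b : Y) * Ψ x * (b : Y)⁻¹ = Ψ x
        rw [hΨA b b.2.2 b.2.1, hθa, hbx, mul_inv_cancel_right])
      exact Subgroup.mem_centralizer_iff.2 fun b hb =>
        Subgroup.mem_centralizer_singleton_iff.1 (hB hb)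
    · rw [hΨA a a.2.2 a.2.1, hθa, hinv, map_inv]

end CfsgLib.SFourStep
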