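import Cfsg.Agent.Lib.Subnormal.BaerSuzuki
import Cfsg.Agent.Lib.SFourFree.Basic

/-!
Steps for elementary abelian 2-subgroups: a subgroup of index `2 ^ k` centralising an element of odd
prime order that is inverted by an element of the group and has large multiplicative order of 2.
-/

set_option autoImplicit false
set_option linter.style.haveILetI false

namespace CfsgLib.SFourStep

open Cfsg

universe u

variable {X : Type u} [Group X]

/-- A step for `A`. -/
def Step (A : Subgroup X) : Prop :=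
  ∃ (B : Subgroup X) (a x : X) (r k : ℕ), B ≤ A ∧ B.relIndex A = 2 ^ k ∧ 1 ≤ k ∧ a ∈ A ∧ r.Prime ∧
    r ≠ 2 ∧ orderOf x = r ∧ x ∈ Subgroup.centralizer (B : Set X) ∧ a * x * a⁻¹ = x⁻¹ ∧
    (2 ≤ k → ∀ i, 0 < i → i ≤ 4 * k - 2 → ¬ r ∣ 2 ^ i - 1)

/-- No involution inverts an element of order 3. -/
def Inv3Free (X : Type*) [Group X] : Prop :=
  ∀ a u : X, a ^ 2 = 1 → orderOf u = 3 → a * u * a⁻¹ ≠ u⁻¹

/-- Every nontrivial elementary abelian 2-subgroup has a step. -/
def StepFree (X : Type*) [Group X] : Prop :=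
  ∀ A : Subgroup X, IsElementaryAbelian 2 A → A ≠ ⊥ → Step A

/-- The quotients with trivial `O₂` without involution inverting an element of order 3 have all
steps. -/
def HasSteps (L : Type u) [Group L] : Prop :=
  ∀ (X : Type u) [Group X] [Finite X] (f : L →* X), Function.Surjective f → pCore 2 X = ⊥ →
    Inv3Free X → StepFree X

theorem HasSteps.of_surjective {L M : Type u} [Group L] [Group M] (h : HasSteps L) {f : L →* M}
    (hf : Function.Surjective f) : HasSteps M :=
  fun X _ _ g hg => h X (g.comp f) (hg.comp hf)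

/-- From an inverted element with a power of the right image order to an exact one. -/
theorem exists_pow_orderOf {Y : Type*} [Group Y] [Finite X] (f : X →* Y) {w : X} {r : ℕ}
    (hr : r.Prime) (hw : orderOf (f w) = r) : ∃ m : ℕ, orderOf (w ^ m) = r := by
  have hd : r ∣ orderOf w := hw ▸ orderOf_map_dvd f w
  refine ⟨orderOf w / r, ?_⟩
  rw [orderOf_pow_of_dvd (Nat.div_pos (Nat.le_of_dvd (orderOf_pos w) hd) hr.pos).ne'
    (Nat.div_dvd_of_dvd hd), Nat.div_div_self hd (orderOf_pos w).ne']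

/-- An involution outside `O₂` inverts an element of odd prime order. -/
theorem exists_inverted_of_not_mem_pCore [Finite X] {a : X} (ha : a ^ 2 = 1)
    (hnot : a ∉ pCore 2 X) :
    ∃ (x : X) (r : ℕ), r.Prime ∧ r ≠ 2 ∧ orderOf x = r ∧ a * x * a⁻¹ = x⁻¹ := by
  haveI : Fact (Nat.Prime 2) := ⟨Nat.prime_two⟩
  by_contra hcon
  apply hnot
  refine CfsgLib.Subnormal.mem_pCore_of_forall_closure_pair fun g => ?_
  set b := g * a * g⁻¹ with hb
  have haa : a * a = 1 := by rw [← pow_two]; exact ha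
  have hai : a⁻¹ = a := inv_eq_of_mul_eq_one_right haa
  have hbb : b * b = 1 := by rw [hb]; simp [mul_assoc, ← mul_assoc a a, haa]
  have hbi : b⁻¹ = b := inv_eq_of_mul_eq_one_right hbb
  set c := a * b with hc
  have hinv : a * c * a⁻¹ = c⁻¹ := by
    rw [hc, hai, mul_inv_rev, hai, hbi, ← mul_assoc, haa, one_mul]
  have hc2 : ∃ j, orderOf c = 2 ^ j := by
    obtain ⟨j, m, hm, hjm⟩ := Nat.exists_eq_two_pow_mul_odd (orderOf_pos c).ne'
    refine ⟨j, ?_⟩
    by_contra hne
    have hm1 : m ≠ 1 := fun e => hne (by rw [hjm, e, mul_one])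
    obtain ⟨r, hr, hrm⟩ := Nat.exists_prime_and_dvd hm1
    have hd : r ∣ orderOf c := hjm ▸ hrm.mul_left _
    refine hcon ⟨c ^ (orderOf c / r), r, hr, fun e => ?_, ?_, ?_⟩
    · exact hm.not_two_dvd_nat (e ▸ hrm)
    · rw [orderOf_pow_of_dvd (Nat.div_pos (Nat.le_of_dvd (orderOf_pos c) hd) hr.pos).ne'
        (Nat.div_dvd_of_dvd hd), Nat.div_div_self hd (orderOf_pos c).ne']
    · rw [← conj_pow, hinv, inv_pow]
  obtain ⟨j, hj⟩ := hc2
  have hC : IsPGroup 2 (Subgroup.zpowers c) := IsPGroup.of_card (n := j) (by rw [Nat.card_zpowers, hj])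
  have hA : IsPGroup 2 (Subgroup.zpowers a) :=
    CfsgLib.ThompsonJ.isPGroup_of_isElementaryAbelian (CfsgLib.ThompsonJ.isElementaryAbelian_zpowers ha)
  have hn : Subgroup.zpowers a ≤ Subgroup.normalizer (Subgroup.zpowers c : Set X) := by
    rw [Subgroup.zpowers_le, Subgroup.mem_normalizer_iff_map_conj_eq]
    have : (MulAut.conj a).toMonoidHom c = c⁻¹ := hinv
    rw [MonoidHom.map_zpowers]
    exact (congrArg Subgroup.zpowers this).trans Subgroup.zpowers_inv
  refine (hA.to_sup_of_normal_right' hC hn).to_le ((Subgroup.closure_le _).2 ?_)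
  rintro y (rfl | rfl)
  · exact Subgroup.mem_sup_left (Subgroup.mem_zpowers _)
  · have hbc : b = a * c := by rw [hc, ← mul_assoc, haa, one_mul]
    rw [hbc]
    exact Subgroup.mul_mem _ (Subgroup.mem_sup_left (Subgroup.mem_zpowers _))
      (Subgroup.mem_sup_right (Subgroup.mem_zpowers _))

/-- Steps for groups of order two. -/
theorem step_of_card_two [Finite X] (hO : pCore 2 X = ⊥) {A : Subgroup X}
    (hA : IsElementaryAbelian 2 A) (hc : Nat.card A = 2) : Step A := by
  have hne : A ≠ ⊥ := fun h => by rw [h, Subgroup.card_bot] at hc; omega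
  obtain ⟨⟨a, ha⟩, ha1⟩ := (Subgroup.ne_bot_iff_exists_ne_one).1 hne
  obtain ⟨x, r, hr, hr2, hx, hinv⟩ := exists_inverted_of_not_mem_pCore (hA.2 a ha) (by
    rw [hO, Subgroup.mem_bot]; exact fun h => ha1 (Subtype.ext h))
  refine ⟨⊥, a, x, r, 1, bot_le, by rw [Subgroup.relIndex_bot_left, hc, pow_one], le_rfl, ha, hr, hr2,
    hx, ?_, hinv, fun h => absurd h (by norm_num)⟩
  exact Subgroup.mem_centralizer_iff.2 fun y hy => by
    rw [SetLike.mem_coe, Subgroup.mem_bot] at hy; simp [hy]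

end CfsgLib.SFourStep
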