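import Cfsg.Agent.Lib.SFourStep.Bounds
import Mathlib.GroupTheory.SemidirectProduct

/-!
The dual squared bound for a normal module with trivial 2-radical.
-/

set_option autoImplicit false
set_option linter.style.haveILetI false

namespace CfsgLib.SFourStep

open Cfsg CfsgLib.SFourFree
open scoped commutatorElement

universe u

variable {L : Type u} [Group L] [Finite L]

theorem sq_actCard_le_card_commutator (hL : HasSteps L)
    (h4 : ¬ Involves (Equiv.Perm (Fin 4)) L) {U : Subgroup L} [U.Normal]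
    (hU : IsElementaryAbelian 2 U) (hR : rad2 U ≤ Subgroup.centralizer (U : Set L))
    {A : Subgroup L} (hA : ElemMod A U) : actCard A U ^ 2 ≤ Nat.card ↥⁅U, A⁆ := by
  haveI : Fact (Nat.Prime 2) := ⟨Nat.prime_two⟩
  set C := Subgroup.centralizer (U : Set L) with hC
  set f := QuotientGroup.mk' C with hf
  have hone : ∀ g, f g = 1 ↔ g ∈ C := fun g => QuotientGroup.eq_one_iff g
  have hO2 : pCore 2 (L ⧸ C) = ⊥ := by
    rw [eq_bot_iff]
    intro q hq
    obtain ⟨g, rfl⟩ := QuotientGroup.mk'_surjective C q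
    exact Subgroup.mem_bot.2 ((hone g).2 (hR hq))
  have hI : Inv3Free (L ⧸ C) :=
    inv3Free_quotient h4 (CfsgLib.ThompsonJ.isPGroup_of_isElementaryAbelian hU)
  have hS : StepFree (L ⧸ C) := hL (L ⧸ C) f (QuotientGroup.mk'_surjective C) hO2 hI
  set φ : L ⧸ C →* MulAut U := QuotientGroup.lift C MulAut.conjNormal (fun g hg =>
    MonoidHom.mem_ker.2 (MulEquiv.ext fun w => Subtype.ext (by
      rw [MulAut.conjNormal_apply]
      exact conj_eq_of_mem_centralizer hg w.2))) with hφ
  have hφv : ∀ (g : L) (w : U), ((φ (f g) w : U) : L) = g * w * g⁻¹ := fun g w => by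
    rw [hφ, hf, QuotientGroup.mk'_apply, QuotientGroup.lift_mk, MulAut.conjNormal_apply]
  haveI : Finite (U ⋊[φ] (L ⧸ C)) := Finite.of_equiv _ SemidirectProduct.equivProd.symm
  set U' := (SemidirectProduct.inl (φ := φ)).range with hU'
  haveI : U'.Normal := by
    rw [hU', SemidirectProduct.range_inl_eq_ker_rightHom]; infer_instance
  set G' := (SemidirectProduct.inr (φ := φ)).range with hG'
  have hU'e : IsElementaryAbelian 2 U' := by
    rw [hU', MonoidHom.range_eq_map]
    refine CfsgLib.ThompsonJ.isElementaryAbelian_map ?_ _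
    refine (CfsgLib.ThompsonJ.isElementaryAbelian_map_iff U.subtype_injective).1 ?_
    rwa [← MonoidHom.range_eq_map, Subgroup.range_subtype]
  have hf' : G' ⊓ Subgroup.centralizer (U' : Set (U ⋊[φ] (L ⧸ C))) = ⊥ := by
    rw [eq_bot_iff]
    rintro _ ⟨⟨q, rfl⟩, hc⟩
    obtain ⟨g, rfl⟩ := QuotientGroup.mk'_surjective C q
    have hg : g ∈ C := mem_centralizer_of_conj_eq fun w hw => by
      have h1 := conj_eq_of_mem_centralizer hc
        (show (SemidirectProduct.inl (⟨w, hw⟩ : U) : U ⋊[φ] (L ⧸ C)) ∈ U' from ⟨_, rfl⟩)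
      rw [← map_inv, ← SemidirectProduct.inl_aut] at h1
      have h2 := SemidirectProduct.inl_injective h1
      exact (hφv g ⟨w, hw⟩).symm.trans (congrArg Subtype.val h2)
    rw [Subgroup.mem_bot, show QuotientGroup.mk' C g = 1 from (hone g).2 hg, map_one]
  have e : G' ≃* L ⧸ C := (MonoidHom.ofInjective SemidirectProduct.inr_injective).symm
  have hAe : IsElementaryAbelian 2 (A.map f) := by
    refine CfsgLib.ThompsonJ.isElementaryAbelian_iff.2 ⟨?_, ?_⟩
    · rintro _ ⟨a, ha, rfl⟩
      rw [Subgroup.mem_centralizer_iff]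
      rintro _ ⟨b, hb, rfl⟩
      rw [← mul_inv_eq_one, ← map_mul, ← map_mul, ← map_inv, ← map_mul, hone, mul_inv_rev,
        ← mul_assoc]
      exact hA.2 b hb a ha
    · rintro _ ⟨a, ha, rfl⟩
      rw [← map_pow, hone]
      exact hA.1 a ha
  set A' := (A.map f).map (SemidirectProduct.inr (φ := φ)) with hA'
  obtain ⟨-, h2⟩ := bounds_of_stepFree hU'e hf' (StepFree.of_mulEquiv e hS)
    (hI.of_injective e.toMonoidHom e.injective) A' (Subgroup.map_le_range _ _)
    (CfsgLib.ThompsonJ.isElementaryAbelian_map hAe _)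
  rw [hA', Subgroup.card_map_of_injective SemidirectProduct.inr_injective,
    ← actCard_eq_card_map] at h2
  refine h2.trans ?_
  have hle : ⁅U', A'⁆ ≤ (⁅U, A⁆.subgroupOf U).map (SemidirectProduct.inl (φ := φ)) := by
    refine Subgroup.commutator_le.2 ?_
    rintro _ ⟨w, rfl⟩ _ ⟨_, ⟨a, ha, rfl⟩, rfl⟩
    refine ⟨w * φ (f a) w⁻¹, ?_, ?_⟩
    · show (w : L) * ((φ (f a) w⁻¹ : U) : L) ∈ ⁅U, A⁆
      have h3 := Subgroup.commutator_mem_commutator (H₁ := U) (H₂ := A) w.2 ha
      rw [commutatorElement_def] at h3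
      rw [hφv, Subgroup.coe_inv]
      simpa [mul_assoc] using h3
    · rw [map_mul, SemidirectProduct.inl_aut, map_inv, map_inv, commutatorElement_def]
      simp [mul_assoc]
  refine (Nat.le_of_dvd Nat.card_pos (Subgroup.card_dvd_of_le hle)).trans ?_
  rw [Subgroup.card_map_of_injective SemidirectProduct.inl_injective]
  exact Nat.le_of_dvd Nat.card_pos
    (Subgroup.card_comap_dvd_of_injective ⁅U, A⁆ U.subtype U.subtype_injective)

end CfsgLib.SFourStep
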