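import Cfsg.Agent.Lib.SFourStep.Action
import Cfsg.Agent.Lib.SFourStep.Producer
import Cfsg.Agent.Lib.SFourFree.Closure

/-!
The strict bound with exponent `3/2` and auxiliary facts for the offender argument.
-/

set_option autoImplicit false
set_option linter.style.haveILetI false

namespace CfsgLib.SFourStep

open Cfsg CfsgLib.SFourFree

universe u

variable {L : Type u} [Group L]

/-- Either a trivial action or `|Ā| ^ (3/2) < |U : C_U(A)|`. -/
def Lt32 (A U : Subgroup L) : Prop :=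
  actCard A U = 1 ∨ actCard A U ^ 3 < fixIdx A U ^ 2

variable [Finite L]

theorem relIndex_map_le {M : Type*} [Group M] (f : L →* M) (H K : Subgroup L) :
    (H.map f).relIndex (K.map f) ≤ H.relIndex K := by
  rw [← Subgroup.relIndex_comap]
  exact relIndex_le_of_le_left (Subgroup.le_comap_map f H) K

theorem fixIdx_le_of_le_right {A U V : Subgroup L} (h : V ≤ U) : fixIdx A V ≤ fixIdx A U := by
  unfold fixIdx
  rw [Subgroup.inf_relIndex_left, Subgroup.inf_relIndex_left]
  exact Subgroup.relIndex_le_of_le_right h Subgroup.index_ne_zero_of_finite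

theorem fixIdx_map_le {M : Type*} [Group M] [Finite M] (f : L →* M) (A U : Subgroup L) :
    fixIdx (A.map f) (U.map f) ≤ fixIdx A U := by
  refine le_trans ?_ (relIndex_map_le f _ U)
  refine relIndex_le_of_le_left (le_inf (Subgroup.map_mono inf_le_left) ?_) _
  rintro _ ⟨w, hw, rfl⟩
  rw [Subgroup.mem_centralizer_iff]
  rintro _ ⟨a, ha, rfl⟩
  rw [← map_mul, ← map_mul, Subgroup.mem_centralizer_iff.1 hw.2 a ha]

theorem elemMod_subgroupOf {A U K : Subgroup L} (hA : A ≤ K) (hU : U ≤ K) (h : ElemMod A U) :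
    ElemMod (A.subgroupOf K) (U.subgroupOf K) :=
  ⟨fun a ha => Subgroup.mem_centralizer_iff.2 fun w hw =>
      Subtype.ext (Subgroup.mem_centralizer_iff.1 (h.1 _ ha) (w : L) hw),
    fun a ha b hb => Subgroup.mem_centralizer_iff.2 fun w hw =>
      Subtype.ext (Subgroup.mem_centralizer_iff.1 (h.2 _ ha _ hb) (w : L) hw)⟩

/-- The gain of a step on a module normalised by all the participants. -/
theorem pow_four_mul_fixIdx_le' {U : Subgroup L} (hU : IsElementaryAbelian 2 U)
    {A B : Subgroup L} (hAN : A ≤ Subgroup.normalizer (U : Set L)) (hA : ElemMod A U) (hBA : B ≤ A)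
    {a v : L} (ha : a ∈ A) (hv : v ∈ Subgroup.normalizer (U : Set L)) {p k : ℕ}
    (hp : p.Prime) (hp2 : p ≠ 2) (hord : ∀ i, 0 < i → i ≤ 4 * k - 2 → ¬ p ∣ 2 ^ i - 1)
    (hvp : v ^ p ∈ Subgroup.centralizer (U : Set L))
    (hvinv : a * v * a⁻¹ * v ∈ Subgroup.centralizer (U : Set L))
    (hvC : v ∉ Subgroup.centralizer (U : Set L))
    (hvB : ∀ b ∈ B, v * b * v⁻¹ * b⁻¹ ∈ Subgroup.centralizer (U : Set L)) :
    4 ^ k * fixIdx B U ≤ fixIdx A U := by
  set K := Subgroup.normalizer (U : Set L) with hK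
  have hUK : U ≤ K := Subgroup.le_normalizer
  haveI : (U.subgroupOf K).Normal := Subgroup.normal_in_normalizer
  have hcen : ∀ g : K, g ∈ Subgroup.centralizer (U.subgroupOf K : Set K) ↔
      (g : L) ∈ Subgroup.centralizer (U : Set L) := fun g =>
    ⟨fun h => Subgroup.mem_centralizer_iff.2 fun w hw =>
      congrArg Subtype.val (Subgroup.mem_centralizer_iff.1 h ⟨w, hUK hw⟩ hw),
    fun h => Subgroup.mem_centralizer_iff.2 fun w hw =>
      Subtype.ext (Subgroup.mem_centralizer_iff.1 h (w : L) hw)⟩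
  have h := pow_four_mul_fixIdx_le (U := U.subgroupOf K) (A := A.subgroupOf K) (B := B.subgroupOf K)
    (CfsgLib.ThompsonJ.isElementaryAbelian_subgroupOf hU) (elemMod_subgroupOf hAN hUK hA)
    (Subgroup.comap_mono hBA) (a := ⟨a, hAN ha⟩) (v := ⟨v, hv⟩) ha hp hp2 hord
    ((hcen _).2 hvp) ((hcen _).2 hvinv) (fun h => hvC ((hcen _).1 h))
    (fun b hb => (hcen _).2 (hvB _ hb))
  rwa [← fixIdx_map K.subtype_injective, ← fixIdx_map K.subtype_injective (A.subgroupOf K),
    Subgroup.map_subgroupOf_eq_of_le (hBA.trans hAN), Subgroup.map_subgroupOf_eq_of_le hAN,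
    Subgroup.map_subgroupOf_eq_of_le hUK] at h

theorem exists_pow_mem_of_sup_eq_top {S : Sylow 2 L} {N : Subgroup L} [N.Normal]
    (h : (S : Subgroup L) ⊔ N = ⊤) (g : L) : ∃ j, g ^ 2 ^ j ∈ N := by
  have hg : g ∈ (S : Subgroup L) ⊔ N := h ▸ Subgroup.mem_top g
  have hq : QuotientGroup.mk' N g ∈ (S : Subgroup L).map (QuotientGroup.mk' N) := by
    have := Subgroup.mem_map_of_mem (QuotientGroup.mk' N) hg
    rwa [Subgroup.map_sup, QuotientGroup.map_mk'_self, sup_bot_eq] at this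
  obtain ⟨j, hj⟩ := (S.2.map (QuotientGroup.mk' N)) ⟨_, hq⟩
  refine ⟨j, (QuotientGroup.eq_one_iff _).1 ?_⟩
  have := congrArg Subtype.val hj
  rw [← QuotientGroup.mk'_apply, map_pow]
  exact this

theorem sup_eq_top_of_pow_mem (S : Sylow 2 L) {N : Subgroup L} [N.Normal]
    (h : ∀ g : L, ∃ j, g ^ 2 ^ j ∈ N) : (S : Subgroup L) ⊔ N = ⊤ := by
  haveI : Fact (Nat.Prime 2) := ⟨Nat.prime_two⟩
  have hP : IsPGroup 2 (L ⧸ N) := by
    intro q
    obtain ⟨g, rfl⟩ := QuotientGroup.mk'_surjective N q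
    obtain ⟨j, hj⟩ := h g
    exact ⟨j, by rw [← map_pow]; exact (QuotientGroup.eq_one_iff _).2 hj⟩
  obtain ⟨c, hc⟩ := IsPGroup.iff_card.1 hP
  refine Subgroup.index_eq_one.1 (Nat.eq_one_of_dvd_coprimes
    (((Nat.Prime.coprime_iff_not_dvd Nat.prime_two).2 S.not_dvd_index).pow_left c).symm
    (Subgroup.index_dvd_of_le le_sup_left) ?_)
  rw [← hc, ← Subgroup.index_eq_card]
  exact Subgroup.index_dvd_of_le le_sup_right

theorem mem_of_sup_eq_top {S : Sylow 2 L} {N : Subgroup L} [N.Normal]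
    (h : (S : Subgroup L) ⊔ N = ⊤) {x : L} {m : ℕ} (hm : Odd m) (hx : x ^ m = 1) : x ∈ N := by
  obtain ⟨j, hj⟩ := exists_pow_mem_of_sup_eq_top h x
  exact mem_of_pow_mem_coprime (m := m) (by rw [hx]; exact one_mem N) hj
    ((Nat.coprime_two_right.2 hm).pow_right j)

/-- An inverted element commuting with `B` modulo the centraliser of `W` costs at most the index it
gains on `W`. -/
theorem relIndex_centralizer_mul_le {U W : Subgroup L} (hU : IsElementaryAbelian 2 U) [U.Normal]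
    [W.Normal] (hWU : W ≤ U) {A B : Subgroup L} (hBA : B ≤ A) {F : Subgroup L} (hFU : F ≤ U)
    (hFA : F ≤ Subgroup.centralizer (A : Set L)) (hsup : U ≤ W ⊔ F) {a x : L} (ha : a ∈ A)
    (haa : a * a = 1) {m : ℕ} (hxm : x ^ (2 * m + 1) = 1) (hxinv : a * x * a⁻¹ = x⁻¹)
    (hxU : ∀ v ∈ U, x * v * x⁻¹ * v⁻¹ ∈ W)
    (hxB : ∀ b ∈ B, x * b * x⁻¹ * b⁻¹ ∈ Subgroup.centralizer (W : Set L))
    (hquad : ∀ w ∈ W, ∀ b ∈ B, b * (a * w * a⁻¹ * w⁻¹) * b⁻¹ = a * w * a⁻¹ * w⁻¹) :
    (F ⊓ Subgroup.centralizer ({x} : Set L)).relIndex F * fixIdx B W ≤ fixIdx A W := by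
  have hai : a⁻¹ = a := inv_eq_of_mul_eq_one_right haa
  have cW : ∀ (g : L) {w : L}, w ∈ W → g * w * g⁻¹ ∈ W := fun g _ hw =>
    (inferInstance : W.Normal).conj_mem _ hw g
  have cU : ∀ {s t : L}, s ∈ U → t ∈ U → s * t = t * s := fun hs ht =>
    CfsgLib.ThompsonJ.isElementaryAbelian_comm hU hs ht
  set WB := W ⊓ Subgroup.centralizer (B : Set L) with hWB
  have hxWB : ∀ {w : L}, w ∈ WB → x * w * x⁻¹ ∈ WB := by
    intro w hw
    refine ⟨cW x hw.1, Subgroup.mem_centralizer_iff.2 fun b hb => mul_inv_eq_iff_eq_mul.1 ?_⟩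
    have hfix : b * w * b⁻¹ = w := by
      rw [Subgroup.mem_centralizer_iff.1 hw.2 b hb, mul_inv_cancel_right]
    calc b * (x * w * x⁻¹) * b⁻¹
        = (x * b * x⁻¹ * b⁻¹)⁻¹ * (x * (b * w * b⁻¹) * x⁻¹) * ((x * b * x⁻¹ * b⁻¹)⁻¹)⁻¹ := by group
      _ = x * w * x⁻¹ := by
        rw [hfix]; exact conj_eq_of_mem_centralizer (inv_mem (hxB b hb)) (cW x hw.1)
  have hxWBn : ∀ (n : ℕ) {w : L}, w ∈ WB → x ^ n * w * (x ^ n)⁻¹ ∈ WB := by
    intro n
    induction n with
    | zero => intro w hw; simpa using hw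
    | succ n ih =>
      intro w hw
      rw [pow_succ' x n, show x * x ^ n * w * (x * x ^ n)⁻¹ = x * (x ^ n * w * (x ^ n)⁻¹) * x⁻¹ by group]
      exact hxWB (ih hw)
  have hxi : x⁻¹ = x ^ (2 * m) := inv_eq_of_mul_eq_one_right (by rw [← pow_succ']; exact hxm)
  have hinvWB : ∀ {w : L}, w ∈ WB → x⁻¹ * w * x ∈ WB := fun {w} hw => by
    have h0 := hxWBn (2 * m) hw
    rwa [← hxi, inv_inv] at h0
  have hquad' : ∀ w ∈ W, a * w * a⁻¹ * w⁻¹ ∈ WB := fun w hw =>
    ⟨W.mul_mem (cW a hw) (W.inv_mem hw), Subgroup.mem_centralizer_iff.2 fun b hb =>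
      mul_inv_eq_iff_eq_mul.1 (hquad w hw b hb)⟩
  -- `[W, x] ≤ WB`
  have hsq : ∀ (n : ℕ), ∀ w ∈ W, x ^ (2 * n) * w * (x ^ (2 * n))⁻¹ * w⁻¹ ∈ WB := by
    intro n
    induction n with
    | zero => intro w _; simp
    | succ n ih =>
      intro w hw
      set w2 := x ^ 2 * w * (x ^ 2)⁻¹ with hw2
      have hw2W : w2 ∈ W := cW _ hw
      have h1 : w2 * w⁻¹ ∈ WB := by
        set y := x * w * x⁻¹ with hy
        set e := a * y * a⁻¹ * y⁻¹ with he
        set f := a * w * a⁻¹ * w⁻¹ with hf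
        have heq : e * y = (x⁻¹ * f * x) * (x⁻¹ * w * x) := by
          calc e * y = (a * x * a⁻¹) * (a * w * a⁻¹) * (a * x * a⁻¹)⁻¹ := by rw [he, hy]; group
            _ = x⁻¹ * (a * w * a⁻¹) * x := by rw [hxinv, inv_inv]
            _ = _ := by rw [hf]; group
        set g := (x⁻¹ * f * x)⁻¹ * e with hg
        have hgm : g ∈ WB := mul_mem (inv_mem (hinvWB (hquad' w hw))) (hquad' y (cW x hw))
        have h2 : g * y = x⁻¹ * w * x := by rw [hg, mul_assoc, heq, inv_mul_cancel_left]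
        have h3 : (x * g * x⁻¹) * w2 = w := by
          calc (x * g * x⁻¹) * w2 = x * (g * y) * x⁻¹ := by rw [hw2, hy, pow_two]; group
            _ = w := by rw [h2]; group
        have h4 : w2 * w⁻¹ = (x * g * x⁻¹)⁻¹ := by
          calc w2 * w⁻¹ = w2 * ((x * g * x⁻¹) * w2)⁻¹ := by rw [h3]
            _ = _ := by rw [mul_inv_rev, mul_inv_cancel_left]
        rw [h4]; exact inv_mem (hxWB hgm)
      have : x ^ (2 * (n + 1)) * w * (x ^ (2 * (n + 1)))⁻¹ * w⁻¹ =
          (x ^ (2 * n) * w2 * (x ^ (2 * n))⁻¹ * w2⁻¹) * (w2 * w⁻¹) := by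
        rw [hw2, mul_add, mul_one, pow_add]; group
      rw [this]
      exact mul_mem (ih w2 hw2W) h1
  have hxW : ∀ w ∈ W, x * w * x⁻¹ * w⁻¹ ∈ WB := by
    intro w hw
    have := hsq (m + 1) w hw
    rwa [show 2 * (m + 1) = (2 * m + 1) + 1 by ring, pow_succ, hxm, one_mul] at this
  have hxU' : ∀ v ∈ U, x * v * x⁻¹ * v⁻¹ ∈ WB := by
    intro v hv
    set c := x * v * x⁻¹ * v⁻¹ with hc
    have hcW : c ∈ W := hxU v hv
    have key : ∀ n : ℕ, x ^ n * v * (x ^ n)⁻¹ * v⁻¹ ∈ W ∧
        (c ^ n)⁻¹ * (x ^ n * v * (x ^ n)⁻¹ * v⁻¹) ∈ WB := by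
      intro n
      induction n with
      | zero => simp
      | succ n ih =>
        set d := x ^ n * v * (x ^ n)⁻¹ * v⁻¹ with hd
        have e1 : x ^ (n + 1) * v * (x ^ (n + 1))⁻¹ * v⁻¹ = (x * d * x⁻¹ * d⁻¹) * d * c := by
          rw [hd, hc, pow_succ' x n]; group
        rw [e1]
        have hdd : x * d * x⁻¹ * d⁻¹ ∈ WB := hxW d ih.1
        refine ⟨W.mul_mem (W.mul_mem hdd.1 ih.1) hcW, ?_⟩
        have e2 : (c ^ (n + 1))⁻¹ * ((x * d * x⁻¹ * d⁻¹) * d * c) =
            (x * d * x⁻¹ * d⁻¹) * ((c ^ n)⁻¹ * d) := by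
          have hcn : (c ^ n)⁻¹ ∈ U := U.inv_mem (pow_mem (hWU hcW) n)
          have hdU : d ∈ U := hWU ih.1
          have hU' : x * d * x⁻¹ * d⁻¹ ∈ U := hWU hdd.1
          have c1 := cU hcn hU'
          have c2 := cU (U.inv_mem (hWU hcW)) (U.mul_mem (U.mul_mem hcn hU') hdU)
          calc (c ^ (n + 1))⁻¹ * ((x * d * x⁻¹ * d⁻¹) * d * c)
              = (c⁻¹ * ((c ^ n)⁻¹ * (x * d * x⁻¹ * d⁻¹) * d)) * c := by
                rw [pow_succ c n]; group
            _ = ((c ^ n)⁻¹ * (x * d * x⁻¹ * d⁻¹)) * d := by rw [c2, inv_mul_cancel_right]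
            _ = _ := by rw [c1, mul_assoc]
        rw [e2]
        exact mul_mem hdd ih.2
    have h1 := (key (2 * m + 1)).2
    rw [hxm] at h1
    have h2 : c ^ (2 * m + 1) ∈ WB := inv_mem_iff.1 (by simpa using h1)
    exact mem_of_pow_mem_coprime (m := 2) (n := 2 * m + 1) (by rw [hU.2 c (hWU hcW)]; exact one_mem _)
      h2 (Nat.coprime_two_left.2 ⟨m, rfl⟩)
  set H := U ⊓ Subgroup.centralizer (B : Set L) with hH
  have hWBH : WB ≤ H := inf_le_inf_right _ hWU
  have hxH : x ∈ Subgroup.normalizer (H : Set L) :=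
    CfsgLib.CoprimeAction.mem_normalizer_of_conj_mem fun v hv => by
      rw [show x * v * x⁻¹ = (x * v * x⁻¹ * v⁻¹) * v by group]
      exact H.mul_mem (hWBH (hxU' v hv.1)) hv
  have hFH : F ≤ H := le_inf hFU (hFA.trans (Subgroup.centralizer_le hBA))
  set a2 := x * a * x⁻¹ with ha2
  have hFa : F ≤ Subgroup.centralizer ({a} : Set L) :=
    hFA.trans (Subgroup.centralizer_le (Set.singleton_subset_iff.2 ha))
  have h2 : F ⊓ Subgroup.centralizer ({a2} : Set L) ≤ Subgroup.centralizer ({x} : Set L) := by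
    rintro v ⟨hv, hv2⟩
    rw [Subgroup.mem_centralizer_singleton_iff]
    have c2 : Commute v a2 := Subgroup.mem_centralizer_singleton_iff.1 hv2
    have c1 : Commute v a := Subgroup.mem_centralizer_singleton_iff.1 (hFa hv)
    have hx2 : a2 * a = x ^ 2 := by
      calc a2 * a = x * (a * x * a⁻¹)⁻¹ := by rw [ha2, mul_inv_rev, mul_inv_rev, inv_inv, hai]; group
        _ = x ^ 2 := by rw [hxinv, inv_inv, pow_two]
    have c3 : Commute v (x ^ 2) := hx2 ▸ c2.mul_right c1
    have hx21 : (x ^ 2) ^ (m + 1) = x := by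
      rw [← pow_mul, show 2 * (m + 1) = (2 * m + 1) + 1 by ring, pow_succ, hxm, one_mul]
    exact (hx21 ▸ c3.pow_right (m + 1) : Commute v x).eq
  have hcost : (F ⊓ Subgroup.centralizer ({x} : Set L)).relIndex F ≤
      (W ⊓ Subgroup.centralizer (A : Set L)).relIndex WB := by
    calc (F ⊓ Subgroup.centralizer ({x} : Set L)).relIndex F
        ≤ (F ⊓ Subgroup.centralizer ({a2} : Set L)).relIndex F :=
          relIndex_le_of_le_left (le_inf inf_le_left h2) _
      _ = (Subgroup.centralizer ({a2} : Set L)).relIndex F := Subgroup.inf_relIndex_left _ _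
      _ ≤ (Subgroup.centralizer ({a2} : Set L)).relIndex H :=
          Subgroup.relIndex_le_of_le_right hFH Subgroup.index_ne_zero_of_finite
      _ = (Subgroup.centralizer ({a} : Set L)).relIndex H := by
          have hcm : (Subgroup.centralizer ({a} : Set L)).map (MulAut.conj x).toMonoidHom =
              Subgroup.centralizer ({a2} : Set L) := by
            ext v
            simp only [Subgroup.mem_map, Subgroup.mem_centralizer_singleton_iff,
              MulEquiv.coe_toMonoidHom, MulAut.conj_apply, ha2]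
            constructor
            · rintro ⟨d, hd, rfl⟩
              have := congrArg (MulAut.conj x) hd
              simpa [mul_assoc] using this
            · intro hv
              refine ⟨x⁻¹ * v * x, ?_, by group⟩
              have := congrArg (MulAut.conj x⁻¹) hv
              simpa [mul_assoc] using this
          rw [← hcm]
          conv_lhs => arg 2; rw [← Subgroup.mem_normalizer_iff_map_conj_eq.mp hxH]
          exact Subgroup.relIndex_map_map_of_injective _ _ (MulAut.conj x).injective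
      _ ≤ (H ⊓ Subgroup.centralizer (A : Set L)).relIndex H :=
          relIndex_le_of_le_left (inf_le_right.trans
            (Subgroup.centralizer_le (Set.singleton_subset_iff.2 ha))) _
      _ = (W ⊓ Subgroup.centralizer (A : Set L)).relIndex WB := by
          have hHs : H = (H ⊓ Subgroup.centralizer (A : Set L)) ⊔ WB := by
            refine le_antisymm (fun v hv => ?_) (sup_le inf_le_left hWBH)
            have hv' := hsup hv.1
            rw [← SetLike.mem_coe, sup_comm, Subgroup.mul_normal] at hv'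
            obtain ⟨c, hc, w, hw, hcw⟩ := hv'
            have hcH : c ∈ H ⊓ Subgroup.centralizer (A : Set L) := ⟨hFH hc, hFA hc⟩
            have hwH : w ∈ H := by
              have : w = c⁻¹ * v := by rw [← hcw]; group
              rw [this]; exact H.mul_mem (H.inv_mem (hFH hc)) hv
            rw [← hcw]
            exact Subgroup.mul_mem_sup hcH ⟨hw, hwH.2⟩
          conv_lhs => arg 2; rw [hHs]
          rw [relIndex_sup_eq ((hWBH.trans inf_le_left).trans
            (le_normalizer_of_elem hU (inf_le_left.trans inf_le_left)))]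
          rw [← Subgroup.inf_relIndex_right, ← Subgroup.inf_relIndex_right (W ⊓ _) WB]
          congr 1
          ext v
          exact ⟨fun h => ⟨⟨h.2.1, h.1.2⟩, h.2⟩, fun h => ⟨⟨hWBH h.2, h.1.2⟩, h.2⟩⟩
  calc (F ⊓ Subgroup.centralizer ({x} : Set L)).relIndex F * fixIdx B W
      ≤ (W ⊓ Subgroup.centralizer (A : Set L)).relIndex WB * WB.relIndex W :=
        Nat.mul_le_mul hcost le_rfl
    _ = fixIdx A W := Subgroup.relIndex_mul_relIndex _ _ _
        (inf_le_inf_left W (Subgroup.centralizer_le hBA)) inf_le_left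

end CfsgLib.SFourStep
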