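import Cfsg.Agent.Lib.SFourStep.Producer
import Cfsg.Agent.Lib.SFourStep.Strict
import Cfsg.Agent.S0205

/-!
Restricted composition factors for extensions by solvable groups, and Sylow intersections with normal
subgroups.
-/

set_option autoImplicit false
set_option linter.style.haveILetI false

namespace CfsgLib.SFourStep

open Cfsg

universe u

theorem RestrictedFactors.of_extension {H : Type u} [Group H] {N : Subgroup H} [N.Normal]
    (hN : RestrictedFactors N) (hs : Group.IsSolvable (H ⧸ N)) : RestrictedFactors H := by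
  intro K hK S _ g hg hsimple hnc
  haveI := hsimple
  haveI := hs
  set NK := N.subgroupOf K with hNK
  rcases ((inferInstance : NK.Normal).map g hg).eq_bot_or_eq_top with hb | ht
  · exfalso
    haveI : Group.IsSolvable (K ⧸ NK) := by
      refine Group.isSolvable_of_isSolvable_injective (G' := H ⧸ N)
        (f := QuotientGroup.map NK N K.subtype fun x hx => hx) ?_
      rw [← MonoidHom.ker_eq_bot_iff, eq_bot_iff]
      intro q hq
      obtain ⟨k, rfl⟩ := QuotientGroup.mk'_surjective NK q
      rw [MonoidHom.mem_ker] at hq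
      change (QuotientGroup.mk' N (k : H)) = 1 at hq
      rw [QuotientGroup.mk'_apply, QuotientGroup.eq_one_iff] at hq
      exact Subgroup.mem_bot.2 ((QuotientGroup.eq_one_iff k).2 hq)
    have hle : NK ≤ g.ker := (Subgroup.map_eq_bot_iff _).1 hb
    have : Group.IsSolvable S := Group.isSolvable_of_surjective (G := K ⧸ NK)
      (f := QuotientGroup.lift NK g hle) fun s => by
        obtain ⟨k, rfl⟩ := hg s
        exact ⟨k, rfl⟩
    exact hnc ⟨⟨IsSimpleGroup.comm_iff_isSolvable.2 this⟩⟩
  · let h : K.subgroupOf N →* S := g.comp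
      { toFun := fun x => ⟨((x : N) : H), x.2⟩
        map_one' := rfl
        map_mul' := fun _ _ => rfl }
    refine hN (K.subgroupOf N) (hK.comap N.subtype) S h (fun s => ?_) hsimple hnc
    have hs' : s ∈ NK.map g := by rw [ht]; trivial
    obtain ⟨k, hk, rfl⟩ := hs'
    exact ⟨⟨⟨(k : H), hk⟩, k.2⟩, rfl⟩

theorem RestrictedFactors.of_solvable_ker {H X : Type u} [Group H] [Group X] (f : H →* X)
    (hf : Function.Surjective f) (hker : Group.IsSolvable f.ker) (hX : RestrictedFactors X) :
    RestrictedFactors H := by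
  intro K hK S _ g hg hsimple hnc
  haveI := hsimple
  haveI := hker
  set f' := f.subgroupMap K with hf'
  have hf's : Function.Surjective f' := f.subgroupMap_surjective K
  rcases ((inferInstance : f'.ker.Normal).map g hg).eq_bot_or_eq_top with hb | ht
  · have hle : f'.ker ≤ g.ker := (Subgroup.map_eq_bot_iff _).1 hb
    refine hX (K.map f) (hK.map hf) S (f'.liftOfSurjective hf's ⟨g, hle⟩) (fun s => ?_) hsimple hnc
    obtain ⟨k, rfl⟩ := hg s
    exact ⟨f' k, MonoidHom.liftOfRightInverse_comp_apply f' _ (Function.rightInverse_surjInv hf's)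
      ⟨g, hle⟩ k⟩
  · exfalso
    haveI : Group.IsSolvable f'.ker := Group.isSolvable_of_isSolvable_injective (G' := f.ker)
      (f := ({ toFun := fun k => ⟨((k : K) : H), MonoidHom.mem_ker.2
                (congrArg Subtype.val (MonoidHom.mem_ker.1 k.2))⟩
               map_one' := rfl
               map_mul' := fun _ _ => rfl } : f'.ker →* f.ker))
      fun a b hab => Subtype.ext (Subtype.ext (congrArg (fun x : f.ker => (x : H)) hab))
    have : Group.IsSolvable S := Group.isSolvable_of_surjective (G := f'.ker)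
      (f := g.comp f'.ker.subtype) fun s => by
        have hs' : s ∈ f'.ker.map g := by rw [ht]; trivial
        obtain ⟨k, hk, rfl⟩ := hs'
        exact ⟨⟨k, hk⟩, rfl⟩
    exact hnc ⟨⟨IsSimpleGroup.comm_iff_isSolvable.2 this⟩⟩

variable {L : Type u} [Group L] [Finite L]

/-- A Sylow 2-subgroup meets a normal subgroup in a Sylow 2-subgroup. -/
theorem exists_sylow_inf_eq (S : Sylow 2 L) (N : Subgroup L) [N.Normal] :
    ∃ P : Sylow 2 N, (P : Subgroup N).map N.subtype = (S : Subgroup L) ⊓ N := by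
  haveI : Fact (Nat.Prime 2) := ⟨Nat.prime_two⟩
  obtain ⟨P, hP⟩ := (S.2.comap_subtype (K := N)).exists_le_sylow
  obtain ⟨S', hS'⟩ := (P.2.map N.subtype).exists_le_sylow
  obtain ⟨g, rfl⟩ := MulAction.exists_smul_eq L S S'
  rw [Sylow.coe_subgroup_smul, Subgroup.pointwise_smul_def] at hS'
  refine ⟨P, (Subgroup.eq_of_le_of_card_ge ?_ ?_).symm⟩
  · intro x hx
    exact ⟨⟨x, hx.2⟩, hP hx.1, rfl⟩
  rw [← Subgroup.card_map_of_injective (f := (MulAut.conj g⁻¹).toMonoidHom) (MulAut.conj g⁻¹).injective]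
  refine Nat.le_of_dvd Nat.card_pos (Subgroup.card_dvd_of_le ?_)
  rintro _ ⟨r, hr, rfl⟩
  obtain ⟨s, hs, hsr⟩ := hS' hr
  have hsr' : g * s * g⁻¹ = r := hsr
  obtain ⟨r', -, hr'⟩ := hr
  have hrR : r ∈ N := hr' ▸ r'.2
  refine ⟨?_, (inferInstance : N.Normal).conj_mem r hrR g⁻¹⟩
  show g⁻¹ * r * g⁻¹⁻¹ ∈ (S : Subgroup L)
  rw [← hsr']
  have : g⁻¹ * (g * s * g⁻¹) * g⁻¹⁻¹ = s := by group
  rw [this]; exact hs

/-- The Frattini argument for the intersection with a normal subgroup. -/
theorem normalizer_inf_sup_eq_top (S : Sylow 2 L) (N : Subgroup L) [N.Normal] :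
    Subgroup.normalizer (((S : Subgroup L) ⊓ N : Subgroup L) : Set L) ⊔ N = ⊤ := by
  haveI : Fact (Nat.Prime 2) := ⟨Nat.prime_two⟩
  obtain ⟨P, hP⟩ := exists_sylow_inf_eq S N
  rw [← hP]
  exact Sylow.normalizer_sup_eq_top P

theorem RestrictedFactors.sylow_sup (hR : RestrictedFactors L) (S : Sylow 2 L) (N : Subgroup L)
    [N.Normal] : RestrictedFactors ↥((S : Subgroup L) ⊔ N) := by
  haveI : Fact (Nat.Prime 2) := ⟨Nat.prime_two⟩
  set H := (S : Subgroup L) ⊔ N with hH
  have hSH : (S : Subgroup L) ≤ H := le_sup_left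
  haveI : (N.subgroupOf H).Normal := Subgroup.Normal.comap inferInstance _
  have hN : RestrictedFactors (N.subgroupOf H) :=
    (hR.subgroup (inferInstance : N.Normal).isSubnormal).of_surjective
      (Subgroup.subgroupOfEquivOfLe (le_sup_right : N ≤ H)).symm.toMonoidHom (MulEquiv.surjective _)
  refine RestrictedFactors.of_extension hN ?_
  have htop : (S.subtype hSH : Subgroup H) ⊔ N.subgroupOf H = ⊤ := by
    rw [eq_top_iff]
    rintro ⟨x, hx⟩ -
    rw [hH, ← SetLike.mem_coe, Subgroup.mul_normal] at hx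
    obtain ⟨t, ht, n, hn, rfl⟩ := hx
    have ht' : (⟨t, hSH ht⟩ : H) ∈ (S.subtype hSH : Subgroup H) := ht
    have hn' : (⟨n, le_sup_right (a := (S : Subgroup L)) hn⟩ : H) ∈ N.subgroupOf H := hn
    exact Subgroup.mul_mem_sup ht' hn'
  have hP : IsPGroup 2 (H ⧸ N.subgroupOf H) := by
    intro q
    obtain ⟨g, rfl⟩ := QuotientGroup.mk'_surjective (N.subgroupOf H) q
    obtain ⟨j, hj⟩ := exists_pow_mem_of_sup_eq_top htop g
    exact ⟨j, by rw [← map_pow]; exact (QuotientGroup.eq_one_iff _).2 hj⟩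
  haveI := hP.isNilpotent
  infer_instance

theorem RestrictedFactors.normalizer_inf (hR : RestrictedFactors L) (S : Sylow 2 L) (N : Subgroup L)
    [N.Normal] :
    RestrictedFactors ↥(Subgroup.normalizer (((S : Subgroup L) ⊓ N : Subgroup L) : Set L)) := by
  haveI : Fact (Nat.Prime 2) := ⟨Nat.prime_two⟩
  set H := Subgroup.normalizer (((S : Subgroup L) ⊓ N : Subgroup L) : Set L) with hH
  set f := (QuotientGroup.mk' N).comp H.subtype with hf
  have hfs : Function.Surjective f := by
    intro q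
    obtain ⟨g, rfl⟩ := QuotientGroup.mk'_surjective N q
    have hg : g ∈ H ⊔ N := (normalizer_inf_sup_eq_top S N).symm ▸ Subgroup.mem_top g
    rw [← SetLike.mem_coe, Subgroup.mul_normal] at hg
    obtain ⟨h, hh, n, hn, rfl⟩ := hg
    refine ⟨⟨h, hh⟩, ?_⟩
    show QuotientGroup.mk' N h = QuotientGroup.mk' N (h * n)
    rw [map_mul, show QuotientGroup.mk' N n = 1 from (QuotientGroup.eq_one_iff n).2 hn, mul_one]
  refine RestrictedFactors.of_solvable_ker f hfs ?_
    (hR.of_surjective _ (QuotientGroup.mk'_surjective N))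
  obtain ⟨P, hP⟩ := exists_sylow_inf_eq S N
  set ι := H.subtype.comp f.ker.subtype with hι
  have hrange : ι.range ≤ N := by
    rintro _ ⟨x, rfl⟩
    exact (QuotientGroup.eq_one_iff _).1 x.2
  have hPr : (S : Subgroup L) ⊓ N ≤ ι.range := fun x hx =>
    ⟨⟨⟨x, Subgroup.le_normalizer hx⟩, (QuotientGroup.eq_one_iff x).2 hx.2⟩, rfl⟩
  set P' := ((S : Subgroup L) ⊓ N).comap ι with hP'
  haveI : P'.Normal := ⟨fun x hx k => by
    show ι (k * x * k⁻¹) ∈ (S : Subgroup L) ⊓ N
    rw [map_mul, map_mul, map_inv]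
    exact (Subgroup.mem_normalizer_iff.1 (k : H).2 _).1 hx⟩
  have hι' : Function.Injective ι := H.subtype_injective.comp f.ker.subtype_injective
  have hodd : Odd (Nat.card (f.ker ⧸ P')) := by
    rw [← Subgroup.index_eq_card, hP', Subgroup.index_comap, ← Nat.not_even_iff_odd, even_iff_two_dvd]
    intro h2
    refine P.not_dvd_index ?_
    have h3 : ((S : Subgroup L) ⊓ N).relIndex N = (P : Subgroup N).index := by
      rw [← hP, Subgroup.relIndex, Subgroup.subgroupOf,
        Subgroup.comap_map_eq_self_of_injective N.subtype_injective]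
    rw [← h3, ← Subgroup.relIndex_mul_relIndex _ _ _ hPr hrange]
    exact h2.mul_right _
  haveI : Group.IsSolvable (f.ker ⧸ P') := Cfsg.Agent.S0205.result hodd
  have hP2 : IsPGroup 2 P' := (S.2.to_le inf_le_left).comap_of_injective ι hι'
  haveI := hP2.isNilpotent
  exact (Group.isSolvable_iff_subgroup_quotient P').2 ⟨inferInstance, inferInstance⟩

end CfsgLib.SFourStep
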