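import Cfsg.Agent.Lib.SFourStep.Normal
import Cfsg.Agent.Lib.SFourStep.Restricted
import Cfsg.Agent.Lib.SFourStep.Centre
import Cfsg.Agent.Lib.Amalgams.Involves

/-!
The factorisation `G = C(Ω₁(Z(Ĵ(S)))) N(J(S))` and the three factorisations of the 2-factorisation
theorem.
-/

set_option autoImplicit false
set_option linter.style.haveILetI false

namespace CfsgLib.SFourStep

open Cfsg CfsgLib.SFourFree

universe u

theorem not_involves_subgroup_four {L : Type u} [Group L] (h4 : ¬ Involves (Equiv.Perm (Fin 4)) L)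
    (H : Subgroup L) : ¬ Involves (Equiv.Perm (Fin 4)) H := fun h =>
  h4 (CfsgLib.Amalgams.involves_of_involves_image (MonoidHom.id H) h Function.surjective_id)

theorem constrained_subgroup {L : Type u} [Group L] [Finite L]
    (hchar : Subgroup.centralizer (pCore 2 L : Set L) ≤ pCore 2 L) {H : Subgroup L}
    (hQH : pCore 2 L ≤ H) : Subgroup.centralizer (pCore 2 H : Set H) ≤ pCore 2 H := by
  haveI : Fact (Nat.Prime 2) := ⟨Nat.prime_two⟩
  haveI : ((pCore 2 L).subgroupOf H).Normal := Subgroup.Normal.comap inferInstance _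
  have hQ : (pCore 2 L).subgroupOf H ≤ pCore 2 H :=
    CfsgLib.Cores.le_pCore ((CfsgLib.Cores.isPGroup_pCore 2 L).comap_subtype)
  intro g hg
  refine hQ (Subgroup.mem_subgroupOf.2 (hchar (Subgroup.mem_centralizer_iff.2 fun q hq => ?_)))
  exact congrArg Subtype.val (Subgroup.mem_centralizer_iff.1 hg ⟨q, hQH hq⟩ (hQ hq))

/-- `G = C(Ω₁(Z(Ĵ(S)))) N(J(S))`. -/
theorem factor_omegaEGen : ∀ (n : ℕ) (L : Type u) [Group L] [Finite L], Nat.card L ≤ n →
    RestrictedFactors L → ¬ Involves (Equiv.Perm (Fin 4)) L →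
    Subgroup.centralizer (pCore 2 L : Set L) ≤ pCore 2 L → ∀ (S : Sylow 2 L) (g : L),
      ∃ c ∈ Subgroup.centralizer (omegaEGen (S : Subgroup L) : Set L),
        ∃ m ∈ Subgroup.normalizer (thompsonSubgroupOf 2 (S : Subgroup L) : Set L), g = c * m := by
  intro n
  induction n with
  | zero => intro L _ _ hc; exact absurd hc (not_le.2 Nat.card_pos)
  | succ n ih =>
  intro L _ _ hcard hR h4 hchar S
  haveI : Fact (Nat.Prime 2) := ⟨Nat.prime_two⟩
  set T := omegaEGen (S : Subgroup L) with hT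
  set M := Subgroup.normalizer (thompsonSubgroupOf 2 (S : Subgroup L) : Set L) with hM
  suffices h : ∃ U : Subgroup L, U.Normal ∧ T ≤ U ∧
      thompsonSubgroupOf 2 (S : Subgroup L) ≤ Subgroup.centralizer (U : Set L) by
    obtain ⟨U, hUn, hTU, hJU⟩ := h
    haveI := hUn
    intro g
    obtain ⟨c, hc, m, hm, rfl⟩ :=
      exists_mul_of_sup_eq_top (normalizer_thompson_sup_eq_top S U hJU) g
    exact ⟨c, Subgroup.centralizer_le hTU hc, m, hm, rfl⟩
  by_cases hd : ∀ N : Subgroup L, N.Normal →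
      (S : Subgroup L) ⊔ N = ⊤ ∨ (S : Subgroup L) ⊓ N ≤ pCore 2 L
  · exact exists_normal_of_dichotomy hR h4 hchar S hd
  push Not at hd
  obtain ⟨N, hNn, hSN, hNQ⟩ := hd
  haveI := hNn
  set D := omegaOne 2 (centerThompsonOf 2 (S : Subgroup L)) with hD
  have hTD : T ≤ D := omegaEGen_le_omegaOne_centerThompsonOf _
  have hMD : M ≤ Subgroup.normalizer (D : Set L) := normalizer_le_normalizer_omega _
  -- the induction hypothesis inside a proper subgroup containing `S`
  have hsub : ∀ H : Subgroup L, (S : Subgroup L) ≤ H → H ≠ ⊤ → RestrictedFactors H →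
      ∀ h ∈ H, ∃ c ∈ Subgroup.centralizer (T : Set L), ∃ m ∈ M, h = c * m := by
    intro H hSH hHne hRH h hh
    have hlt : Nat.card H ≤ n := by
      have h1 : Nat.card H < Nat.card L := by
        by_contra hle
        exact hHne (Subgroup.eq_top_of_card_eq H
          (le_antisymm (Subgroup.card_le_card_group H) (not_lt.1 hle)))
      omega
    have hmap : (S.subtype hSH : Subgroup H).map H.subtype = S :=
      Subgroup.map_subgroupOf_eq_of_le hSH
    obtain ⟨c, hc, m, hm, hcm⟩ := ih H hlt hRH (not_involves_subgroup_four h4 H)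
      (constrained_subgroup hchar ((CfsgLib.Cores.pCore_le_sylow S).trans hSH)) (S.subtype hSH)
      ⟨h, hh⟩
    refine ⟨(c : L), ?_, (m : L), ?_, congrArg Subtype.val hcm⟩
    · have h1 := CfsgLib.SFourFree.map_mem_centralizer H.subtype hc
      rwa [map_omegaEGen H.subtype_injective, hmap] at h1
    · have h1 := Subgroup.le_normalizer_map H.subtype (Subgroup.mem_map_of_mem H.subtype hm)
      rwa [CfsgLib.ThompsonJ.map_thompsonSubgroupOf H.subtype_injective, hmap] at h1
  have h1ne : Subgroup.normalizer (((S : Subgroup L) ⊓ N : Subgroup L) : Set L) ≠ ⊤ := by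
    intro htop
    refine hNQ ?_
    haveI : ((S : Subgroup L) ⊓ N).Normal := Subgroup.normalizer_eq_top_iff.1 htop
    exact CfsgLib.Cores.le_pCore (S.2.to_le inf_le_left)
  have hS2 : (S : Subgroup L) ≤ Subgroup.normalizer (((S : Subgroup L) ⊓ N : Subgroup L) : Set L) :=
    fun s hs => CfsgLib.CoprimeAction.mem_normalizer_of_conj_mem fun t ht =>
      ⟨(S : Subgroup L).mul_mem ((S : Subgroup L).mul_mem hs ht.1) ((S : Subgroup L).inv_mem hs),
        hNn.conj_mem t ht.2 s⟩
  have f1 := hsub _ le_sup_left hSN (hR.sylow_sup S N)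
  have f2 := hsub _ hS2 h1ne (hR.normalizer_inf S N)
  have key : ∀ h, (∃ c ∈ Subgroup.centralizer (T : Set L), ∃ m ∈ M, h⁻¹ = c * m) →
      ∃ m ∈ M, ∀ t ∈ T, h * t * h⁻¹ = m * t * m⁻¹ := by
    rintro h ⟨c, hc, m, hm, e⟩
    refine ⟨m⁻¹, M.inv_mem hm, fun t ht => ?_⟩
    have hh : h = m⁻¹ * c⁻¹ := by rw [← mul_inv_rev, ← e, inv_inv]
    rw [hh, show m⁻¹ * c⁻¹ * t * (m⁻¹ * c⁻¹)⁻¹ = m⁻¹ * (c⁻¹ * t * c⁻¹⁻¹) * m⁻¹⁻¹ by group,
      conj_eq_of_mem_centralizer (inv_mem hc) ht]
  have hcl : Subgroup.normalClosure (T : Set L) ≤ D := by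
    refine (Subgroup.closure_le _).2 fun y hy => ?_
    obtain ⟨t, ht, hc⟩ := Group.mem_conjugatesOfSet_iff.1 hy
    obtain ⟨g, rfl⟩ := isConj_iff.1 hc
    have hg : g ∈ N ⊔ Subgroup.normalizer (((S : Subgroup L) ⊓ N : Subgroup L) : Set L) := by
      rw [sup_comm, normalizer_inf_sup_eq_top S N]; trivial
    rw [← SetLike.mem_coe, Subgroup.normal_mul] at hg
    obtain ⟨a, ha, h, hh, rfl⟩ := hg
    obtain ⟨m, hm, hm'⟩ := key h (f2 _ (inv_mem hh))
    have ha' : m⁻¹ * a * m ∈ N := by simpa using hNn.conj_mem a ha m⁻¹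
    obtain ⟨m', hm1, hm2⟩ := key (m⁻¹ * a * m)
      (f1 _ (inv_mem (Subgroup.mem_sup_right ha')))
    have e : a * h * t * (a * h)⁻¹ = m * (m' * t * m'⁻¹) * m⁻¹ := by
      rw [← hm2 t ht, show a * h * t * (a * h)⁻¹ = a * (h * t * h⁻¹) * a⁻¹ by group, hm' t ht]
      group
    rw [SetLike.mem_coe, e]
    exact (Subgroup.mem_normalizer_iff.1 (hMD hm) _).1
      ((Subgroup.mem_normalizer_iff.1 (hMD hm1) _).1 (hTD ht))
  exact ⟨_, Subgroup.normalClosure_normal, Subgroup.le_normalClosure,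
    (thompson_le_centralizer_omega _).trans (Subgroup.centralizer_le hcl)⟩

/-- The three factorisations. -/
theorem two_factorisation {L : Type u} [Group L] [Finite L] (hR : RestrictedFactors L)
    (h4 : ¬ Involves (Equiv.Perm (Fin 4)) L)
    (hchar : Subgroup.centralizer (pCore 2 L : Set L) ≤ pCore 2 L) (S : Sylow 2 L) :
    (∀ g : L, ∃ c ∈ Subgroup.centralizer
        (((S : Subgroup L) ⊓ Subgroup.centralizer ((S : Subgroup L) : Set L) : Subgroup L) : Set L),
      ∃ n ∈ Subgroup.normalizer (thompsonSubgroupOf 2 (S : Subgroup L) : Set L), g = c * n) ∧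
    (∀ g : L, ∃ c ∈ Subgroup.centralizer
        (((S : Subgroup L) ⊓ Subgroup.centralizer ((S : Subgroup L) : Set L) : Subgroup L) : Set L),
      ∃ n ∈ Subgroup.normalizer (eGen (S : Subgroup L) : Set L), g = c * n) ∧
    (∀ g : L, ∃ c ∈ Subgroup.centralizer (omegaEGen (S : Subgroup L) : Set L),
      ∃ n ∈ Subgroup.normalizer (thompsonSubgroupOf 2 (S : Subgroup L) : Set L), g = c * n) := by
  obtain ⟨h1, h2⟩ := factor_centre hR h4 hchar S (fun C _ => normalizer_inf_sup_eq_top S C)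
  exact ⟨h1, h2, factor_omegaEGen (Nat.card L) L le_rfl hR h4 hchar S⟩

end CfsgLib.SFourStep
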