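import Cfsg.Agent.Lib.SFourStep.Strict
import Cfsg.Agent.Lib.ThompsonJ.Basic

/-!
The bound `Lt32` on joins, transfer between groups inducing the same action, and elementary abelian
subgroups of largest order acting on a normalised elementary abelian subgroup.
-/

set_option autoImplicit false
set_option linter.style.haveILetI false

namespace CfsgLib.SFourStep

open Cfsg CfsgLib.SFourFree

universe u

variable {L : Type u} [Group L]

theorem lt32_of_le_centralizer {A V : Subgroup L} (h : A ≤ Subgroup.centralizer (V : Set L)) :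
    Lt32 A V :=
  Or.inl (by rw [actCard, inf_eq_left.2 h, Subgroup.relIndex_self])

theorem lt32_bot (A : Subgroup L) : Lt32 A (⊥ : Subgroup L) := by
  refine lt32_of_le_centralizer fun a _ => Subgroup.mem_centralizer_iff.2 fun y hy => ?_
  rw [SetLike.mem_coe, Subgroup.mem_bot] at hy
  simp [hy]

theorem lt32_map {M : Type*} [Group M] {f : L →* M} (hf : Function.Injective f)
    {A V : Subgroup L} : Lt32 (A.map f) (V.map f) ↔ Lt32 A V := by
  rw [Lt32, Lt32, actCard_map hf, fixIdx_map hf]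

theorem centralizer_sup_eq (U V : Subgroup L) :
    Subgroup.centralizer ((U ⊔ V : Subgroup L) : Set L) =
      Subgroup.centralizer (U : Set L) ⊓ Subgroup.centralizer (V : Set L) :=
  le_antisymm (le_inf (Subgroup.centralizer_le (SetLike.coe_subset_coe.2 le_sup_left))
    (Subgroup.centralizer_le (SetLike.coe_subset_coe.2 le_sup_right)))
    (Subgroup.le_centralizer_iff.1 (sup_le (Subgroup.le_centralizer_iff.1 inf_le_left)
      (Subgroup.le_centralizer_iff.1 inf_le_right)))

theorem pow_conj_mem {V : Subgroup L} {b c : L} (hb : b ∈ Subgroup.normalizer (V : Set L))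
    (hc : c ∈ Subgroup.centralizer (V : Set L)) {w : L} (hw : w ∈ V) :
    (b * c) * w * (b * c)⁻¹ = b * w * b⁻¹ ∧ b * w * b⁻¹ ∈ V :=
  ⟨by rw [show (b * c) * w * (b * c)⁻¹ = b * (c * w * c⁻¹) * b⁻¹ by group,
      conj_eq_of_mem_centralizer hc hw],
    (Subgroup.mem_normalizer_iff.1 hb w).1 hw⟩

/-- Elementary abelian action passes to a subgroup inducing no more. -/
theorem elemMod_of_le_sup {B R V : Subgroup L} (hB : B ≤ Subgroup.normalizer (V : Set L))
    (hRB : R ≤ B ⊔ Subgroup.centralizer (V : Set L)) (h : ElemMod B V) : ElemMod R V := by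
  set C := Subgroup.centralizer (V : Set L) with hC
  set K := Subgroup.normalizer (V : Set L) with hK
  have hCK : C ≤ K := Subgroup.centralizer_le_normalizer _
  have hBC : B ≤ Subgroup.normalizer (C : Set L) := by
    intro b hb
    refine Subgroup.mem_normalizer_iff.2 fun c => ?_
    have key : ∀ g ∈ K, ∀ c ∈ C, g * c * g⁻¹ ∈ C := fun g hg c hc =>
      mem_centralizer_of_conj_eq fun w hw => by
        have hw' : g⁻¹ * w * g ∈ V := (Subgroup.mem_normalizer_iff''.1 hg w).1 hw
        calc g * c * g⁻¹ * w * (g * c * g⁻¹)⁻¹ = g * (c * (g⁻¹ * w * g) * c⁻¹) * g⁻¹ := by group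
          _ = w := by rw [conj_eq_of_mem_centralizer hc hw']; group
    refine ⟨key b (hB hb) c, fun h' => ?_⟩
    have := key b⁻¹ (K.inv_mem (hB hb)) _ h'
    simpa [mul_assoc] using this
  have dec : ∀ r ∈ R, ∃ b ∈ B, ∀ w ∈ V, r * w * r⁻¹ = b * w * b⁻¹ ∧ b * w * b⁻¹ ∈ V := by
    intro r hr
    have h1 := hRB hr
    rw [← SetLike.mem_coe, Subgroup.coe_mul_of_left_le_normalizer_right B C hBC] at h1
    obtain ⟨b, hb, c, hc, rfl⟩ := h1
    exact ⟨b, hb, fun w hw => pow_conj_mem (hB hb) hc hw⟩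
  refine ⟨fun r hr => mem_centralizer_of_conj_eq fun w hw => ?_,
    fun r hr s hs => mem_centralizer_of_conj_eq fun w hw => ?_⟩
  · obtain ⟨b, hb, hbr⟩ := dec r hr
    calc r ^ 2 * w * (r ^ 2)⁻¹ = r * (r * w * r⁻¹) * r⁻¹ := by rw [pow_two]; group
      _ = b ^ 2 * w * (b ^ 2)⁻¹ := by
          rw [(hbr w hw).1, (hbr _ (hbr w hw).2).1, pow_two]; group
      _ = w := conj_eq_of_mem_centralizer (h.1 b hb) hw
  · obtain ⟨b, hb, hbr⟩ := dec r hr
    obtain ⟨d, hd, hds⟩ := dec s hs
    obtain ⟨b', hb', hbr'⟩ := dec r⁻¹ (R.inv_mem hr)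
    obtain ⟨d', hd', hds'⟩ := dec s⁻¹ (R.inv_mem hs)
    -- the inverses act as the inverses
    have hbi : ∀ w ∈ V, b' * w * b'⁻¹ = b⁻¹ * w * b := fun w hw => by
      have e1 : r * (r⁻¹ * w * r⁻¹⁻¹) * r⁻¹ = w := by group
      rw [(hbr' w hw).1, (hbr _ (hbr' w hw).2).1] at e1
      calc b' * w * b'⁻¹ = b⁻¹ * (b * (b' * w * b'⁻¹) * b⁻¹) * b := by group
        _ = _ := by rw [e1]
    have hdi : ∀ w ∈ V, d' * w * d'⁻¹ = d⁻¹ * w * d := fun w hw => by
      have e1 : s * (s⁻¹ * w * s⁻¹⁻¹) * s⁻¹ = w := by group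
      rw [(hds' w hw).1, (hds _ (hds' w hw).2).1] at e1
      calc d' * w * d'⁻¹ = d⁻¹ * (d * (d' * w * d'⁻¹) * d⁻¹) * d := by group
        _ = _ := by rw [e1]
    have h1 := (hds' w hw).2
    have h2 := (hbr' _ h1).2
    have h3 := (hds _ h2).2
    calc r * s * r⁻¹ * s⁻¹ * w * (r * s * r⁻¹ * s⁻¹)⁻¹
        = r * (s * (r⁻¹ * (s⁻¹ * w * s⁻¹⁻¹) * r⁻¹⁻¹) * s⁻¹) * r⁻¹ := by group
      _ = b * (d * (b' * (d' * w * d'⁻¹) * b'⁻¹) * d⁻¹) * b⁻¹ := by
          rw [(hds' w hw).1, (hbr' _ h1).1, (hds _ h2).1, (hbr _ h3).1]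
      _ = b * (d * (b⁻¹ * (d⁻¹ * w * d) * b) * d⁻¹) * b⁻¹ := by rw [hbi _ h1, hdi _ hw]
      _ = (b * d * b⁻¹ * d⁻¹) * w * (b * d * b⁻¹ * d⁻¹)⁻¹ := by group
      _ = w := conj_eq_of_mem_centralizer (h.2 b hb d hd) hw

variable [Finite L]

theorem actCard_eq_relIndex_sup {A V : Subgroup L} (hA : A ≤ Subgroup.normalizer (V : Set L)) :
    actCard A V = (Subgroup.centralizer (V : Set L)).relIndex
      (Subgroup.centralizer (V : Set L) ⊔ A) := by
  set C := Subgroup.centralizer (V : Set L) with hC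
  have key : ∀ g ∈ Subgroup.normalizer (V : Set L), ∀ c ∈ C, g * c * g⁻¹ ∈ C := fun g hg c hc =>
    mem_centralizer_of_conj_eq fun w hw => by
      have hw' : g⁻¹ * w * g ∈ V := (Subgroup.mem_normalizer_iff''.1 hg w).1 hw
      calc g * c * g⁻¹ * w * (g * c * g⁻¹)⁻¹ = g * (c * (g⁻¹ * w * g) * c⁻¹) * g⁻¹ := by group
        _ = w := by rw [conj_eq_of_mem_centralizer hc hw']; group
  have hn : A ≤ Subgroup.normalizer (C : Set L) := fun a ha =>
    Subgroup.mem_normalizer_iff.2 fun c => ⟨key a (hA ha) c, fun h' => by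
      have := key a⁻¹ (inv_mem (hA ha)) _ h'
      simpa [mul_assoc] using this⟩
  rw [relIndex_sup_eq hn, actCard, Subgroup.inf_relIndex_left]

/-- Two subgroups inducing the same action satisfy the bound simultaneously. -/
theorem lt32_of_sup_eq {B R V : Subgroup L} (hB : B ≤ Subgroup.normalizer (V : Set L))
    (hRB : R ≤ B ⊔ Subgroup.centralizer (V : Set L))
    (hBR : B ≤ R ⊔ Subgroup.centralizer (V : Set L)) (h : Lt32 R V) : Lt32 B V := by
  set C := Subgroup.centralizer (V : Set L) with hC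
  have hR : R ≤ Subgroup.normalizer (V : Set L) :=
    hRB.trans (sup_le hB (Subgroup.centralizer_le_normalizer _))
  have hsup : C ⊔ R = C ⊔ B :=
    le_antisymm (sup_le le_sup_left (hRB.trans (sup_comm B C).le))
      (sup_le le_sup_left (hBR.trans (sup_comm R C).le))
  have h1 : actCard R V = actCard B V := by
    rw [actCard_eq_relIndex_sup hR, actCard_eq_relIndex_sup hB, hsup]
  have key : ∀ {A A' : Subgroup L}, A' ≤ A ⊔ C → fixIdx A' V ≤ fixIdx A V := by
    intro A A' hle
    refine relIndex_le_of_le_left (le_inf inf_le_left ?_) V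
    refine Subgroup.le_centralizer_iff.1 (hle.trans (sup_le ?_ ?_))
    · exact Subgroup.le_centralizer_iff.1 inf_le_right
    · exact Subgroup.centralizer_le inf_le_left
  have h2 : fixIdx R V = fixIdx B V := le_antisymm (key hRB) (key hBR)
  unfold Lt32
  rw [← h1, ← h2]
  exact h

/-- The bound passes to a join: the chain argument. -/
theorem lt32_sup {B U0 V : Subgroup L} (hU : IsElementaryAbelian 2 (U0 ⊔ V)) (h0 : Lt32 B U0)
    (hV : Lt32 (B ⊓ Subgroup.centralizer (U0 : Set L)) V) : Lt32 B (U0 ⊔ V) := by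
  set B' := B ⊓ Subgroup.centralizer (U0 : Set L) with hB'
  have hact : actCard B (U0 ⊔ V) = actCard B' V * actCard B U0 := by
    unfold actCard
    rw [centralizer_sup_eq, ← inf_assoc]
    exact (Subgroup.relIndex_mul_relIndex _ _ _ inf_le_left inf_le_left).symm
  set C0 := (U0 ⊔ V) ⊓ Subgroup.centralizer (B : Set L) with hC0
  have h1 : C0.relIndex (C0 ⊔ U0) = fixIdx B U0 := by
    rw [relIndex_sup_eq (le_sup_left.trans (le_normalizer_of_elem hU inf_le_left)),
      ← Subgroup.inf_relIndex_left, ← inf_assoc, inf_eq_left.2 (le_sup_left : U0 ≤ U0 ⊔ V)]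
    rfl
  set D := (U0 ⊔ V) ⊓ Subgroup.centralizer (B' : Set L) with hD
  have hD0 : U0 ≤ D := le_inf le_sup_left (Subgroup.le_centralizer_iff.1 inf_le_right)
  have hle : C0 ⊔ U0 ≤ D :=
    sup_le (inf_le_inf_left _ (Subgroup.centralizer_le inf_le_left)) hD0
  have h2 : fixIdx B' V ≤ (C0 ⊔ U0).relIndex (U0 ⊔ V) := by
    refine le_trans (le_of_eq ?_) (relIndex_le_of_le_left hle _)
    have hdv : D ⊔ V = U0 ⊔ V :=
      le_antisymm (sup_le inf_le_left le_sup_right) (sup_le_sup_right hD0 V)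
    rw [← hdv, relIndex_sup_eq (le_sup_right.trans (le_normalizer_of_elem hU inf_le_left)),
      ← Subgroup.inf_relIndex_left, ← inf_assoc, inf_eq_left.2 (le_sup_right : V ≤ U0 ⊔ V)]
    rfl
  have h3 : fixIdx B' V * fixIdx B U0 ≤ fixIdx B (U0 ⊔ V) := by
    calc fixIdx B' V * fixIdx B U0 ≤ (C0 ⊔ U0).relIndex (U0 ⊔ V) * C0.relIndex (C0 ⊔ U0) := by
          rw [h1]; exact Nat.mul_le_mul h2 le_rfl
      _ = fixIdx B (U0 ⊔ V) := by
          rw [mul_comm, fixIdx, ← hC0]
          exact Subgroup.relIndex_mul_relIndex _ _ _ le_sup_left (sup_le inf_le_left le_sup_left)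
  have ha : 0 < actCard B' V := relIndex_pos _ _
  have hf0 : 0 < fixIdx B U0 := fixIdx_pos _ _
  have hfV : 0 < fixIdx B' V := fixIdx_pos _ _
  have hsq := Nat.pow_le_pow_left h3 2
  rw [mul_pow] at hsq
  rcases h0 with e0 | e0 <;> rcases hV with e1 | e1
  · left; rw [hact, e0, e1]
  · right
    rw [hact, e0, mul_one]
    exact lt_of_lt_of_le e1 ((Nat.le_mul_of_pos_right _ (pow_pos hf0 2)).trans hsq)
  · right
    rw [hact, e1, one_mul]
    exact lt_of_lt_of_le e0 ((Nat.le_mul_of_pos_left _ (pow_pos hfV 2)).trans hsq)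
  · right
    rw [hact, mul_pow]
    exact lt_of_lt_of_le (Nat.mul_lt_mul'' e1 e0) hsq

/-- The bound on a finite join. -/
theorem lt32_finset_sup {E : Subgroup L} (s : Finset (Subgroup L))
    (hU : IsElementaryAbelian 2 (s.sup id)) (h : ∀ V ∈ s, ∀ B ≤ E, Lt32 B V) :
    ∀ B ≤ E, Lt32 B (s.sup id) := by
  classical
  induction s using Finset.induction_on with
  | empty => intro B _; rw [Finset.sup_empty]; exact lt32_bot B
  | @insert V s hV ih =>
    intro B hB
    have hins : (insert V s).sup id = s.sup id ⊔ V := by rw [Finset.sup_insert, sup_comm]; rfl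
    rw [hins] at hU ⊢
    exact lt32_sup hU
      (ih (CfsgLib.ThompsonJ.isElementaryAbelian_mono hU le_sup_left)
        (fun W hW => h W (Finset.mem_insert_of_mem hW)) B hB)
      (h V (Finset.mem_insert_self _ _) _ (inf_le_left.trans hB))

/-- An elementary abelian subgroup of largest order is an offender on every elementary abelian
subgroup it normalises. -/
theorem fixIdx_le_actCard_of_isMaxEA {P A U : Subgroup L}
    (hA : CfsgLib.ThompsonJ.IsMaxEA 2 P A) (hU : IsElementaryAbelian 2 U) (hUP : U ≤ P) :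
    fixIdx A U ≤ actCard A U := by
  set A1 := A ⊓ Subgroup.centralizer (U : Set L) with hA1
  have hM : IsElementaryAbelian 2 (A1 ⊔ U) :=
    CfsgLib.ThompsonJ.isElementaryAbelian_sup
      (CfsgLib.ThompsonJ.isElementaryAbelian_mono hA.elem inf_le_left) hU inf_le_right
  have hle := hA.card_le _ (sup_le (inf_le_left.trans hA.le) hUP) hM
  have hnorm : A1 ≤ Subgroup.normalizer (U : Set L) :=
    inf_le_right.trans (Subgroup.centralizer_le_normalizer _)
  have hprod := CfsgLib.ThompsonJ.card_sup_mul_card_inf A1 U hnorm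
  have hinf : A1 ⊓ U = U ⊓ A := by
    rw [hA1, inf_assoc, inf_eq_right.2 (CfsgLib.ThompsonJ.isElementaryAbelian_le_centralizer hU),
      inf_comm]
  rw [hinf] at hprod
  have e1 : Nat.card A1 * A1.relIndex A = Nat.card A := by
    rw [← Subgroup.relIndex_bot_left, Subgroup.relIndex_mul_relIndex _ _ _ bot_le inf_le_left,
      Subgroup.relIndex_bot_left]
  have e2 : Nat.card ↥(U ⊓ A) * (U ⊓ A).relIndex U = Nat.card U := by
    rw [← Subgroup.relIndex_bot_left, Subgroup.relIndex_mul_relIndex _ _ _ bot_le inf_le_left,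
      Subgroup.relIndex_bot_left]
  have h1 : Nat.card A1 * Nat.card ↥(U ⊓ A) * (U ⊓ A).relIndex U ≤
      Nat.card A1 * Nat.card ↥(U ⊓ A) * A1.relIndex A := by
    calc Nat.card A1 * Nat.card ↥(U ⊓ A) * (U ⊓ A).relIndex U
        = Nat.card A1 * Nat.card U := by rw [mul_assoc, e2]
      _ = Nat.card ↥(A1 ⊔ U) * Nat.card ↥(U ⊓ A) := hprod.symm
      _ ≤ Nat.card A * Nat.card ↥(U ⊓ A) := Nat.mul_le_mul hle le_rfl
      _ = _ := by rw [← e1]; ring
  refine le_trans ?_ (Nat.le_of_mul_le_mul_left h1 (Nat.mul_pos Nat.card_pos Nat.card_pos))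
  exact relIndex_le_of_le_left (inf_le_inf_left U
    (CfsgLib.ThompsonJ.isElementaryAbelian_le_centralizer hA.elem)) U

/-- An elementary abelian subgroup of largest order centralises a subgroup it satisfies the bound
on. -/
theorem le_centralizer_of_lt32 {P A U : Subgroup L}
    (hA : CfsgLib.ThompsonJ.IsMaxEA 2 P A) (hU : IsElementaryAbelian 2 U) (hUP : U ≤ P)
    (h : Lt32 A U) : A ≤ Subgroup.centralizer (U : Set L) := by
  have hle := fixIdx_le_actCard_of_isMaxEA hA hU hUP
  rcases h with h | h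
  · exact fun a ha => ((Subgroup.relIndex_eq_one.1 h) ha).2
  · have h2 := Nat.pow_le_pow_left hle 2
    have h3 : actCard A U ^ 2 ≤ actCard A U ^ 3 :=
      Nat.pow_le_pow_right (relIndex_pos _ _) (by norm_num)
    omega

end CfsgLib.SFourStep
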