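import Cfsg.Agent.Lib.SFourStep.EGroup
import Cfsg.Agent.Lib.SFourStep.Producer

/-!
An elementary abelian subgroup satisfying the bound with exponent `3/2` for the action of `O₂` lies in
`O₂` in a constrained group with restricted composition factors.
-/

set_option autoImplicit false
set_option linter.style.haveILetI false

namespace CfsgLib.SFourStep

open Cfsg CfsgLib.SFourFree

universe u

variable {L : Type u} [Group L] [Finite L]

/-- Modulo `O₂` of a constrained group without `S₄` no involution inverts an element of order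
three. -/
theorem inv3Free_quotient_pCore (h4 : ¬ Involves (Equiv.Perm (Fin 4)) L)
    (hchar : Subgroup.centralizer (pCore 2 L : Set L) ≤ pCore 2 L) :
    Inv3Free (L ⧸ pCore 2 L) := by
  haveI : Fact (Nat.Prime 2) := ⟨Nat.prime_two⟩
  haveI : Fact (Nat.Prime 3) := ⟨Nat.prime_three⟩
  set Q := pCore 2 L with hQ
  set f := QuotientGroup.mk' Q with hf
  intro a u ha hu he
  have hone : ∀ g, f g = 1 ↔ g ∈ Q := fun g => QuotientGroup.eq_one_iff g
  obtain ⟨z, P, i, hz, hP, hzP, hfz, hfP⟩ :=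
    CfsgLib.Amalgams.exists_lift_inverts f (QuotientGroup.mk'_surjective Q) hu ha he
  obtain ⟨y, hy, hfy⟩ : u ∈ P.map f := hfP ▸ Subgroup.mem_zpowers _
  have hPQ : ∀ t ∈ P, f t = 1 → t = 1 := by
    intro t ht h1
    obtain ⟨i1, hi1⟩ := hP ⟨t, ht⟩
    obtain ⟨j1, hj1⟩ := (CfsgLib.Cores.isPGroup_pCore 2 L) ⟨t, (hone t).1 h1⟩
    exact pow_eq_one_of_coprime_pow (congrArg Subtype.val hi1) (congrArg Subtype.val hj1)
      (((Nat.coprime_primes Nat.prime_three Nat.prime_two).2 (by norm_num)).pow _ _)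
  refine h4 (CfsgLib.Amalgams.involves_perm_four (T := Q) (CfsgLib.Cores.isPGroup_pCore 2 L) hP hz
    hzP hy ?_ ?_ ?_)
  · intro h
    have h1 : f y = 1 := (hone y).2 (hchar h)
    rw [hfy] at h1
    rw [h1, orderOf_one] at hu
    norm_num at hu
  · rw [hPQ (y ^ 3) (pow_mem hy 3) (by rw [map_pow, hfy, ← hu, pow_orderOf_eq_one])]
    exact one_mem _
  · rw [hPQ (z * y * z⁻¹ * y) (P.mul_mem ((Subgroup.mem_normalizer_iff.1 hzP y).1 hy) hy) ?_]
    · exact one_mem _
    · rw [map_mul, map_mul, map_mul, map_inv, hfy, hfz]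
      calc u ^ i * a * u * (u ^ i * a)⁻¹ * u = u ^ i * (a * u * a⁻¹) * (u ^ i)⁻¹ * u := by group
        _ = u ^ i * u⁻¹ * (u ^ i)⁻¹ * u := by rw [he]
        _ = 1 := by group

/-- A subgroup satisfying the bound for the action of `O₂` lies in `O₂`. -/
theorem le_pCore_of_lt32 (hR : RestrictedFactors L) (h4 : ¬ Involves (Equiv.Perm (Fin 4)) L)
    (hchar : Subgroup.centralizer (pCore 2 L : Set L) ≤ pCore 2 L)
    {V : Subgroup L} (hV : IsElementaryAbelian 2 V)
    (hQV : pCore 2 L ≤ Subgroup.normalizer (V : Set L))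
    (hgood : ∀ B : Subgroup L, B ≤ pCore 2 L → ElemMod B V → Lt32 B V) :
    V ≤ pCore 2 L := by
  haveI : Fact (Nat.Prime 2) := ⟨Nat.prime_two⟩
  by_contra hVQ
  set Q := pCore 2 L with hQdef
  have hQp : IsPGroup 2 Q := CfsgLib.Cores.isPGroup_pCore 2 L
  have hQc : ∀ g : L, ∀ t ∈ Q, g * t * g⁻¹ ∈ Q := fun g t ht =>
    (inferInstance : Q.Normal).conj_mem t ht g
  set f := QuotientGroup.mk' Q with hf
  have hf1 : ∀ g, f g = 1 ↔ g ∈ Q := fun g => QuotientGroup.eq_one_iff g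
  have hVn : ∀ {g t : L}, g ∈ Subgroup.normalizer (V : Set L) → t ∈ V → g * t * g⁻¹ ∈ V :=
    fun hg ht => (Subgroup.mem_normalizer_iff.1 hg _).1 ht
  have hI := inv3Free_quotient_pCore h4 hchar
  have hstep : StepFree (L ⧸ Q) := stepFree_of_restricted
    (hR.of_surjective f (QuotientGroup.mk'_surjective Q)) (CfsgLib.Cores.pCore_quotient_pCore 2 L) hI
  have hVe' : IsElementaryAbelian 2 (V.map f) := CfsgLib.ThompsonJ.isElementaryAbelian_map hV f
  have hnt : V.map f ≠ ⊥ := fun h => hVQ fun a ha =>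
    (hf1 a).1 (Subgroup.mem_bot.1 (h ▸ Subgroup.mem_map_of_mem f ha))
  obtain ⟨Bb, z, xb, p, k, hBb, hidxB, hk, ⟨v, hv, rfl⟩, hp, hp2, hxo, hxB, hxinv, hord0⟩ :=
    hstep _ hVe' hnt
  obtain ⟨-, hord⟩ := step_order hI (hVe'.2 _ (Subgroup.mem_map_of_mem f hv)) hp hp2 hxo hxinv hord0
  obtain ⟨u, rfl⟩ := QuotientGroup.mk'_surjective Q xb
  have hvv : v * v = 1 := by rw [← pow_two]; exact hV.2 v hv
  have hvi : v⁻¹ = v := inv_eq_of_mul_eq_one_right hvv
  set w := u * v * u⁻¹ * v with hw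
  have hpodd : Odd p := hp.odd_of_ne_two hp2
  have hwimg : f w = f u ^ 2 := by
    have hzi : (f v)⁻¹ = f v := by rw [← map_inv, hvi]
    calc f w = f u * f v * (f u)⁻¹ * (f v)⁻¹ := by
          rw [hw, map_mul, map_mul, map_mul, map_inv, hzi]
      _ = f u * (f v * f u * (f v)⁻¹)⁻¹ := by group
      _ = f u ^ 2 := by rw [hxinv, inv_inv, pow_two]
  have hwinv : v * w * v⁻¹ = w⁻¹ := by
    rw [hw]
    simp only [mul_inv_rev, inv_inv, hvi, mul_assoc, hvv, mul_one]
  have hwp : w ^ p ∈ Q := by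
    rw [← hf1, map_pow, hwimg, ← pow_mul, mul_comm, pow_mul, ← hxo, pow_orderOf_eq_one, one_pow]
  obtain ⟨j, hj⟩ := hQp ⟨w ^ p, hwp⟩
  set x := w ^ 2 ^ j with hx
  have hxp : x ^ p = 1 := by
    rw [hx, ← pow_mul, mul_comm, pow_mul]
    exact congrArg Subtype.val hj
  have hxinv' : v * x * v⁻¹ = x⁻¹ := by rw [hx, ← conj_pow, hwinv, inv_pow]
  have hfx : f x = f u ^ (2 * 2 ^ j) := by rw [hx, map_pow, hwimg, pow_mul]
  have hxQ : x ∉ Q := by
    intro h
    have h1 : f u ^ (2 * 2 ^ j) = 1 := by rw [← hfx, hf1]; exact h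
    have h2 : f u = 1 := pow_eq_one_of_coprime_pow h1 (by rw [← hxo, pow_orderOf_eq_one])
      (Nat.Coprime.mul_left ((Nat.coprime_primes Nat.prime_two hp).2 (Ne.symm hp2))
        (((Nat.coprime_primes Nat.prime_two hp).2 (Ne.symm hp2)).pow_left j))
    rw [h2, orderOf_one] at hxo
    exact hp.ne_one hxo.symm
  obtain ⟨m, hm⟩ : Odd p := hpodd
  have hx21 : (x ^ 2) ^ (m + 1) = x := by
    rw [← pow_mul, show 2 * (m + 1) = p + 1 by omega, pow_succ, hxp, one_mul]
  set V1 := V.map (MulAut.conj x).toMonoidHom with hV1def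
  have hV1 : ∀ y, y ∈ V1 ↔ x⁻¹ * y * x ∈ V := by
    intro y
    constructor
    · rintro ⟨t, ht, rfl⟩
      simpa [mul_assoc] using ht
    · intro h
      exact ⟨_, h, show x * (x⁻¹ * y * x) * x⁻¹ = y by group⟩
  have hV1c : ∀ {s t : L}, s ∈ V1 → t ∈ V1 → s * t = t * s := fun hs ht =>
    CfsgLib.ThompsonJ.isElementaryAbelian_comm
      (CfsgLib.ThompsonJ.isElementaryAbelian_map hV _) hs ht
  have hnV1 : ∀ {g s : L}, x⁻¹ * g * x ∈ Subgroup.normalizer (V : Set L) → s ∈ V1 →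
      g * s * g⁻¹ ∈ V1 := by
    intro g s hg hs
    rw [hV1] at hs ⊢
    have := hVn hg hs
    have e : x⁻¹ * (g * s * g⁻¹) * x = x⁻¹ * g * x * (x⁻¹ * s * x) * (x⁻¹ * g * x)⁻¹ := by group
    rwa [e]
  set v1 := x * v * x⁻¹ with hv1def
  have hv1 : v1 ∈ V1 := Subgroup.mem_map_of_mem _ hv
  have hv1v : v1 * v = x ^ 2 := by
    calc v1 * v = x * v * x⁻¹ * v⁻¹ := by rw [hv1def, hvi]
      _ = x * (v * x * v⁻¹)⁻¹ := by group
      _ = x ^ 2 := by rw [hxinv', inv_inv, pow_two]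
  have hv1n : ∀ {t : L}, t ∈ Q → t * v1 * t⁻¹ * v1⁻¹ ∈ V1 ⊓ Q := fun {t} ht => by
    refine ⟨V1.mul_mem (hnV1 (hQV (by simpa using hQc x⁻¹ t ht)) hv1) (V1.inv_mem hv1), ?_⟩
    have := Q.mul_mem ht (hQc v1 t⁻¹ (Q.inv_mem ht))
    simpa [mul_assoc] using this
  set E := V ⊓ Q with hE
  set E1 := V1 ⊓ Q with hE1
  have hE1map : E.map (MulAut.conj x).toMonoidHom = E1 := by
    refine (Subgroup.map_inf _ _ _ (MulAut.conj x).injective).trans ?_
    have hQx : Q.map (MulAut.conj x).toMonoidHom = Q := Subgroup.mem_normalizer_iff_map_conj_eq.mp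
      (show x ∈ Subgroup.normalizer (Q : Set L) by rw [Subgroup.normalizer_eq_top]; trivial)
    rw [hQx]
  set I := E ⊓ E1 with hI
  have hfix : ∀ {t : L}, t ∈ V → t ∈ V1 → x * t * x⁻¹ = t := by
    intro t ht ht1
    have c1 : Commute t v := CfsgLib.ThompsonJ.isElementaryAbelian_comm hV ht hv
    have c2 : Commute t v1 := hV1c ht1 hv1
    have c3 : Commute t (x ^ 2) := hv1v ▸ c2.mul_right c1
    rw [← (hx21 ▸ c3.pow_right (m + 1) : Commute t x).eq, mul_inv_cancel_right]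
  have hIV : ∀ {t : L}, t ∈ I → x * t * x⁻¹ = t := fun ht => hfix ht.1.1 ht.2.1
  -- `E` differs from `I`
  have hEI : ¬ E ≤ I := by
    intro hle
    have hEE1 : E = E1 := Subgroup.eq_of_le_of_card_ge (hle.trans inf_le_right) (le_of_eq (by
      rw [← hE1map, Subgroup.card_map_of_injective (MulAut.conj x).injective]))
    apply hxQ
    refine hchar (Subgroup.mem_centralizer_iff.2 fun q hq => ?_)
    have hEx : ∀ {t : L}, t ∈ E → x * t * x⁻¹ = t := fun ht => hIV (hle ht)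
    have d1 : v * q * v⁻¹ * q⁻¹ ∈ E :=
      ⟨by simpa [mul_assoc] using V.mul_mem hv (hVn (hQV hq) (V.inv_mem hv)),
        Q.mul_mem (hQc v q hq) (Q.inv_mem hq)⟩
    have d2 : v1 * q * v1⁻¹ * q⁻¹ ∈ E := by
      rw [hEE1]
      have := (V1 ⊓ Q).inv_mem (hv1n hq)
      have h' : v1 * q * v1⁻¹ * q⁻¹ = (q * v1 * q⁻¹ * v1⁻¹)⁻¹ := by group
      rw [h']; exact this
    set e := v * q * v⁻¹ * q⁻¹ with he
    set e' := v1 * q * v1⁻¹ * q⁻¹ with he'
    have hev1 : v1 * e * v1⁻¹ = e := by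
      have he1 : e ∈ V1 := by
        have := d1; rw [hEE1] at this; exact this.1
      rw [← hV1c he1 hv1, mul_inv_cancel_right]
    have h2 : x ^ 2 * q * (x ^ 2)⁻¹ = (e * e') * q := by
      calc x ^ 2 * q * (x ^ 2)⁻¹ = v1 * (v * q * v⁻¹) * v1⁻¹ := by rw [← hv1v]; group
        _ = (v1 * e * v1⁻¹) * (v1 * q * v1⁻¹) := by rw [he]; group
        _ = e * (e' * q) := by rw [hev1, he']; group
        _ = (e * e') * q := (mul_assoc _ _ _).symm
    have hee : e * e' ∈ E := E.mul_mem d1 d2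
    have h3 : x ^ 2 * (e * e') * (x ^ 2)⁻¹ = e * e' := by
      calc x ^ 2 * (e * e') * (x ^ 2)⁻¹ = x * (x * (e * e') * x⁻¹) * x⁻¹ := by rw [pow_two]; group
        _ = e * e' := by rw [hEx hee, hEx hee]
    have h4' := pow_conj_eq (W := E) (fun t ht => hV.2 t ht.1) hee h3 h2 p ⟨m, hm⟩
      (by rw [← pow_mul, mul_comm, pow_mul, hxp]; simp)
    have c : Commute (x ^ 2) q := mul_inv_eq_iff_eq_mul.1 h4'
    exact (hx21 ▸ c.pow_left (m + 1) : Commute x q).symm.eq
  set n := I.relIndex E with hn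
  have hnE1 : I.relIndex E1 = n := by
    have hIx : I.map (MulAut.conj x).toMonoidHom = I := by
      ext t
      constructor
      · rintro ⟨s, hs, rfl⟩
        show x * s * x⁻¹ ∈ I
        rw [hIV hs]; exact hs
      · intro ht; exact ⟨t, ht, hIV ht⟩
    rw [← hE1map]
    conv_lhs => arg 1; rw [← hIx]
    exact Subgroup.relIndex_map_map_of_injective _ _ (MulAut.conj x).injective
  -- the bound from `E1` acting on `V`
  have hn3 : n = 1 ∨ n ^ 3 < fixIdx E1 V ^ 2 := by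
    have hEe : ElemMod E1 V := elemMod_of_isElementaryAbelian
      (CfsgLib.ThompsonJ.isElementaryAbelian_mono
        (CfsgLib.ThompsonJ.isElementaryAbelian_map hV _) inf_le_left) V
    have hk : E1 ⊓ Subgroup.centralizer (V : Set L) = I := by
      refine le_antisymm ?_ (le_inf inf_le_right ?_)
      · intro t ht
        refine ⟨?_, ht.1⟩
        have c1 : Commute t v := (Subgroup.mem_centralizer_iff.1 ht.2 v hv).symm
        have c2 : Commute t v1 := hV1c ht.1.1 hv1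
        have c3 : Commute t (x ^ 2) := hv1v ▸ c2.mul_right c1
        have c4 : Commute t x := hx21 ▸ c3.pow_right (m + 1)
        obtain ⟨s, hs, hst⟩ : t ∈ E.map (MulAut.conj x).toMonoidHom := hE1map.symm ▸ ht.1
        have hst' : x * s * x⁻¹ = t := hst
        have : s = t := by
          calc s = x⁻¹ * (x * s * x⁻¹) * x := by group
            _ = x⁻¹ * (t * x) := by rw [hst', mul_assoc]
            _ = t := by rw [c4.eq, inv_mul_cancel_left]
        exact this ▸ hs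
      · exact inf_le_left.trans (inf_le_left.trans
          (CfsgLib.ThompsonJ.isElementaryAbelian_le_centralizer hV))
    have := hgood E1 inf_le_right hEe
    rwa [Lt32, actCard, hk, hnE1] at this
  -- `V` is almost `E (V ∩ C(E1))`
  set X := V ⊓ Subgroup.centralizer (E1 : Set L) with hX
  set Bv := V ⊓ Bb.comap f with hBv
  have hBvidx : Bv.relIndex V = 2 ^ k := by
    rw [hBv, Subgroup.inf_relIndex_left, Subgroup.relIndex_comap]
    exact hidxB
  have hQE : Q ≤ Subgroup.normalizer (E : Set L) := fun g hg => by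
    rw [Subgroup.mem_normalizer_iff]
    exact fun y => and_congr (Subgroup.mem_normalizer_iff.1 (hQV hg) y)
      ⟨fun h => hQc g y h, fun h => by simpa [mul_assoc] using hQc g⁻¹ _ h⟩
  have hBvX : Bv ≤ E ⊔ X := by
    intro b hb
    have hxb : f x * f b = f b * f x := by
      have h1 : Commute (f b) (f u) := Subgroup.mem_centralizer_iff.1 hxB (f b) hb.2
      rw [hfx]
      exact (h1.pow_right _).symm.eq
    set qb := b⁻¹ * (x⁻¹ * b * x) with hqb
    have hqbQ : qb ∈ Q := by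
      rw [← hf1, hqb, map_mul, map_mul, map_mul, map_inv, map_inv, mul_assoc ((f x)⁻¹),
        ← hxb, inv_mul_cancel_left, inv_mul_cancel]
    have hbn : x⁻¹ * b * x ∈ Subgroup.normalizer (V : Set L) := by
      rw [show x⁻¹ * b * x = b * qb by rw [hqb]; group]
      exact mul_mem (Subgroup.le_normalizer hb.1) (hQV hqbQ)
    set c := v1 * b * v1⁻¹ * b⁻¹ with hc
    have hcE1 : c ∈ E1 := by
      refine ⟨?_, ?_⟩
      · have := V1.mul_mem hv1 (hnV1 hbn (V1.inv_mem hv1))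
        simpa [hc, mul_assoc] using this
      · show c ∈ Q
        rw [← hf1]
        have h1 : Commute (f b) (f v) := by
          rw [Commute, SemiconjBy, ← map_mul, ← map_mul,
            CfsgLib.ThompsonJ.isElementaryAbelian_comm hV hb.1 hv]
        have h2 : Commute (f b) (f x) := hxb.symm
        have h3 : Commute (f b) (f v1) := by
          rw [hv1def, map_mul, map_mul, map_inv]
          exact (h2.mul_right h1).mul_right h2.inv_right
        rw [hc, map_mul, map_mul, map_mul, map_inv, map_inv, ← h3.eq, mul_inv_cancel_right,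
          mul_inv_cancel]
    set D := E ⊔ E1 with hD
    have hstab : ∀ {g : L}, (∀ t ∈ E, g * t * g⁻¹ ∈ D) → (∀ t ∈ E1, g * t * g⁻¹ ∈ D) →
        ∀ t ∈ D, g * t * g⁻¹ ∈ D := by
      intro g h1 h2 t ht
      have hle : D.map (MulAut.conj g).toMonoidHom ≤ D := by
        rw [hD, Subgroup.map_sup]
        exact sup_le (Subgroup.map_le_iff_le_comap.2 h1) (Subgroup.map_le_iff_le_comap.2 h2)
      exact hle (Subgroup.mem_map_of_mem _ ht)
    have hvD : ∀ t ∈ D, v * t * v⁻¹ ∈ D := hstab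
      (fun t ht => by
        rw [← CfsgLib.ThompsonJ.isElementaryAbelian_comm hV ht.1 hv, mul_inv_cancel_right]
        exact Subgroup.mem_sup_left ht)
      (fun t ht => by
        have h0 : v * t * v⁻¹ * t⁻¹ ∈ E :=
          ⟨by simpa [mul_assoc] using V.mul_mem hv (hVn (hQV ht.2) (V.inv_mem hv)),
            Q.mul_mem (hQc v t ht.2) (Q.inv_mem ht.2)⟩
        rw [show v * t * v⁻¹ = (v * t * v⁻¹ * t⁻¹) * t by group]
        exact Subgroup.mul_mem_sup h0 ht)
    have hv1D : ∀ t ∈ D, v1 * t * v1⁻¹ ∈ D := hstab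
      (fun t ht => by
        have h0 := E1.inv_mem (hv1n ht.2)
        rw [show v1 * t * v1⁻¹ = (t * v1 * t⁻¹ * v1⁻¹)⁻¹ * t by group]
        exact Subgroup.mul_mem _ (Subgroup.mem_sup_right h0) (Subgroup.mem_sup_left ht))
      (fun t ht => by
        rw [← hV1c ht.1 hv1, mul_inv_cancel_right]
        exact Subgroup.mem_sup_right ht)
    have hx2D : ∀ t ∈ D, x ^ 2 * t * (x ^ 2)⁻¹ ∈ D := fun t ht => by
      rw [← hv1v, show v1 * v * t * (v1 * v)⁻¹ = v1 * (v * t * v⁻¹) * v1⁻¹ by group]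
      exact hv1D _ (hvD t ht)
    have hx2b : x ^ 2 * b * (x ^ 2)⁻¹ * b⁻¹ ∈ D := by
      rw [← hv1v, show v1 * v * b * (v1 * v)⁻¹ * b⁻¹ = v1 * (v * b * v⁻¹) * v1⁻¹ * b⁻¹ by group,
        CfsgLib.ThompsonJ.isElementaryAbelian_comm hV hv hb.1, mul_inv_cancel_right]
      exact Subgroup.mem_sup_right hcE1
    have hk : ∀ k : ℕ, (x ^ 2) ^ k * b * ((x ^ 2) ^ k)⁻¹ * b⁻¹ ∈ D := by
      intro k
      induction k with
      | zero => simp
      | succ k ih =>
        have := D.mul_mem (hx2D _ ih) hx2b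
        have e : (x ^ 2) ^ (k + 1) * b * ((x ^ 2) ^ (k + 1))⁻¹ * b⁻¹ =
            x ^ 2 * ((x ^ 2) ^ k * b * ((x ^ 2) ^ k)⁻¹ * b⁻¹) * (x ^ 2)⁻¹ *
              (x ^ 2 * b * (x ^ 2)⁻¹ * b⁻¹) := by
          rw [pow_succ' (x ^ 2) k]; group
        rwa [e]
    have hd := hk (m + 1)
    rw [hx21] at hd
    have hnE : E1 ≤ Subgroup.normalizer (E : Set L) := inf_le_right.trans hQE
    rw [← SetLike.mem_coe, hD, Subgroup.coe_mul_of_right_le_normalizer_left E E1 hnE] at hd
    obtain ⟨e, he, f1, hf1', hef⟩ := hd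
    have hxbV1 : x * b * x⁻¹ ∈ V1 := Subgroup.mem_map_of_mem _ hb.1
    have hf1'' : b⁻¹ * f1 * b ∈ E1 := by
      refine ⟨?_, by simpa using hQc b⁻¹ f1 hf1'.2⟩
      have := hnV1 (g := b⁻¹) (by
        have := inv_mem hbn
        rwa [show (x⁻¹ * b * x)⁻¹ = x⁻¹ * b⁻¹ * x by group] at this) hf1'.1
      simpa using this
    have hef' : e * f1 = x * b * x⁻¹ * b⁻¹ := hef
    have heb : e * b = (x * b * x⁻¹) * (b⁻¹ * f1 * b)⁻¹ := by
      calc e * b = (e * f1) * b * (b⁻¹ * f1 * b)⁻¹ := by group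
        _ = _ := by rw [hef']; group
    have hX' : e * b ∈ X := by
      refine ⟨V.mul_mem he.1 hb.1, Subgroup.mem_centralizer_iff.2 fun t ht => ?_⟩
      rw [heb]
      exact hV1c ht.1 (V1.mul_mem hxbV1 (V1.inv_mem hf1''.1))
    rw [show b = e⁻¹ * (e * b) by group]
    exact Subgroup.mul_mem_sup (E.inv_mem he) hX'
  have hIX : I ≤ X := le_inf (inf_le_left.trans inf_le_left)
    ((inf_le_right.trans inf_le_left).trans ((CfsgLib.ThompsonJ.isElementaryAbelian_le_centralizer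
      (CfsgLib.ThompsonJ.isElementaryAbelian_map hV _)).trans
        (Subgroup.centralizer_le (SetLike.coe_subset_coe.2 inf_le_left))))
  have hup : fixIdx E1 V ≤ n * 2 ^ k := by
    have h1 : X.relIndex (X ⊔ E) * (X ⊔ E).relIndex V = fixIdx E1 V :=
      Subgroup.relIndex_mul_relIndex _ _ _ le_sup_left (sup_le inf_le_left inf_le_left)
    rw [← h1]
    refine Nat.mul_le_mul ?_ ?_
    · rw [relIndex_sup_eq ((inf_le_left : E ≤ V).trans (le_normalizer_of_elem hV inf_le_left)),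
        ← Subgroup.inf_relIndex_left E X]
      exact relIndex_le_of_le_left (le_inf inf_le_left hIX) E
    · rw [← hBvidx]
      exact relIndex_le_of_le_left (hBvX.trans (sup_comm E X).le) V
  have hEp : IsPGroup 2 E := hQp.to_le inf_le_right
  obtain ⟨e, he⟩ : ∃ e, n = 2 ^ e := IsPGroup.index hEp (I.subgroupOf E)
  have hek : e < 2 * k := by
    rcases hn3 with h | h
    · exact absurd (Subgroup.relIndex_eq_one.1 h) hEI
    · have h1 : n ^ 3 < (n * 2 ^ k) ^ 2 := lt_of_lt_of_le h (Nat.pow_le_pow_left hup 2)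
      have h2 : n ^ 2 * n < n ^ 2 * (2 ^ k) ^ 2 := by
        calc n ^ 2 * n = n ^ 3 := by ring
          _ < _ := h1
          _ = _ := by ring
      have h3 := Nat.lt_of_mul_lt_mul_left h2
      rw [he, ← pow_mul, mul_comm k 2] at h3
      exact (Nat.pow_lt_pow_iff_right (by norm_num)).1 h3
  obtain ⟨e0, he0, he0I⟩ := SetLike.not_le_iff_exists.1 hEI
  set D := E ⊔ E1 with hD
  have hxD : ∀ i : ℕ, ∀ t ∈ D, x ^ i * t * (x ^ i)⁻¹ ∈ D := by
    have h1 : ∀ t ∈ D, x ^ 2 * t * (x ^ 2)⁻¹ ∈ D := by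
      have hle : D.map (MulAut.conj (x ^ 2)).toMonoidHom ≤ D := by
        rw [hD, Subgroup.map_sup]
        refine sup_le ?_ ?_
        · rintro _ ⟨t, ht, rfl⟩
          show x ^ 2 * t * (x ^ 2)⁻¹ ∈ _
          have h0 := E1.inv_mem (hv1n ht.2)
          rw [← hv1v, show v1 * v * t * (v1 * v)⁻¹ = v1 * (v * t * v⁻¹) * v1⁻¹ by group,
            ← CfsgLib.ThompsonJ.isElementaryAbelian_comm hV ht.1 hv, mul_inv_cancel_right,
            show v1 * t * v1⁻¹ = (t * v1 * t⁻¹ * v1⁻¹)⁻¹ * t by group]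
          exact Subgroup.mul_mem _ (Subgroup.mem_sup_right h0) (Subgroup.mem_sup_left ht)
        · rintro _ ⟨t, ht, rfl⟩
          show x ^ 2 * t * (x ^ 2)⁻¹ ∈ _
          have h0 : v * t * v⁻¹ * t⁻¹ ∈ E :=
            ⟨by simpa [mul_assoc] using V.mul_mem hv (hVn (hQV ht.2) (V.inv_mem hv)),
              Q.mul_mem (hQc v t ht.2) (Q.inv_mem ht.2)⟩
          rw [← hv1v, show v1 * v * t * (v1 * v)⁻¹ =
            (v1 * (v * t * v⁻¹ * t⁻¹) * v1⁻¹) * (v1 * t * v1⁻¹) by group,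
            ← hV1c ht.1 hv1, mul_inv_cancel_right]
          refine Subgroup.mul_mem _ ?_ (Subgroup.mem_sup_right ht)
          have h5 := E1.inv_mem (hv1n h0.2)
          rw [show v1 * (v * t * v⁻¹ * t⁻¹) * v1⁻¹ =
            ((v * t * v⁻¹ * t⁻¹) * v1 * (v * t * v⁻¹ * t⁻¹)⁻¹ * v1⁻¹)⁻¹ * (v * t * v⁻¹ * t⁻¹) by group]
          exact Subgroup.mul_mem _ (Subgroup.mem_sup_right h5) (Subgroup.mem_sup_left h0)
      exact fun t ht => hle (Subgroup.mem_map_of_mem _ ht)
    have h2 : ∀ k : ℕ, ∀ t ∈ D, (x ^ 2) ^ k * t * ((x ^ 2) ^ k)⁻¹ ∈ D := by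
      intro k
      induction k with
      | zero => simp
      | succ k ih =>
        intro t ht
        rw [pow_succ' (x ^ 2) k, show x ^ 2 * (x ^ 2) ^ k * t * (x ^ 2 * (x ^ 2) ^ k)⁻¹ =
          x ^ 2 * ((x ^ 2) ^ k * t * ((x ^ 2) ^ k)⁻¹) * (x ^ 2)⁻¹ by group]
        exact h1 _ (ih t ht)
    intro i t ht
    have := h2 ((m + 1) * i) t ht
    rwa [pow_mul, hx21] at this
  have hDcard : I.relIndex D ≤ 2 ^ e * 2 ^ e := by
    rw [← Subgroup.relIndex_mul_relIndex I E D inf_le_left le_sup_left,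
      hD, relIndex_sup_eq (inf_le_right.trans hQE : E1 ≤ Subgroup.normalizer (E : Set L)),
      ← Subgroup.inf_relIndex_left E1 E, inf_comm E1 E, ← hI, hnE1, ← hn, he]
  have hxDn : x ∈ Subgroup.normalizer (D : Set L) :=
    CfsgLib.CoprimeAction.mem_normalizer_of_conj_mem fun t ht => by
      have := hxD 1 t ht
      rwa [pow_one] at this
  obtain ⟨d, hd, hpd⟩ := dvd_two_pow_sub_one (hQp.to_le (sup_le inf_le_right inf_le_right : D ≤ Q))
    hxDn hp hp2 (by rw [hxp]; exact one_mem _)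
  have hID : I ≤ D ⊓ Subgroup.centralizer ({x} : Set L) := fun t ht =>
    ⟨Subgroup.mem_sup_left ht.1, Subgroup.mem_centralizer_singleton_iff.2
      (mul_inv_eq_iff_eq_mul.1 (hIV ht)).symm⟩
  have hde : d ≤ 2 * e := by
    have h1 := (relIndex_le_of_le_left hID D).trans hDcard
    rw [hd, ← pow_add] at h1
    have := (Nat.pow_le_pow_iff_right (by norm_num)).1 h1
    omega
  rcases Nat.eq_zero_or_pos d with h0 | h0
  · rw [h0, pow_zero, Subgroup.relIndex_eq_one] at hd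
    have hx0 := Subgroup.mem_centralizer_singleton_iff.1 (hd (Subgroup.mem_sup_left he0 : e0 ∈ D)).2
    have h2 : x * e0 * x⁻¹ ∈ E1 := hE1map ▸ Subgroup.mem_map_of_mem _ he0
    refine he0I ⟨he0, ?_⟩
    rwa [← hx0, mul_inv_cancel_right] at h2
  · exact hord d h0 (by omega) hpd

end CfsgLib.SFourStep
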