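import Cfsg.Agent.Lib.SFourStep.Def
import Cfsg.Agent.Lib.Cores.Fitting
import Cfsg.Agent.Lib.Cores.PCore

/-!
Steps along injective homomorphisms and along central extensions with kernel of odd order.
-/

set_option autoImplicit false
set_option linter.style.haveILetI false

namespace CfsgLib.SFourStep

open Cfsg

universe u v

variable {X : Type u} [Group X] {Y : Type v} [Group Y]

theorem Step.map {A : Subgroup X} (h : Step A) (f : X →* Y) (hf : Function.Injective f) :
    Step (A.map f) := by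
  obtain ⟨B, a, x, r, k, hB, hidx, hk, ha, hr, hr2, hx, hxB, hinv, hord⟩ := h
  refine ⟨B.map f, f a, f x, r, k, Subgroup.map_mono hB, ?_, hk, Subgroup.mem_map_of_mem f ha, hr,
    hr2, ?_, CfsgLib.SFourFree.map_mem_centralizer f hxB, ?_, hord⟩
  · rw [Subgroup.relIndex_map_map_of_injective _ _ hf, hidx]
  · rw [orderOf_injective f hf, hx]
  · rw [← map_inv, ← map_mul, ← map_mul, hinv, map_inv]

theorem StepFree.of_mulEquiv (e : X ≃* Y) (h : StepFree Y) : StepFree X := by
  intro A hA hne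
  have h1 : A.map e.toMonoidHom ≠ ⊥ := fun h' =>
    hne ((Subgroup.map_eq_bot_iff_of_injective A e.injective).1 h')
  have h2 := (h _ (CfsgLib.ThompsonJ.isElementaryAbelian_map hA _) h1).map e.symm.toMonoidHom
    e.symm.injective
  rwa [Subgroup.map_map, show e.symm.toMonoidHom.comp e.toMonoidHom = MonoidHom.id X from
    MonoidHom.ext fun x => e.symm_apply_apply x, Subgroup.map_id] at h2

theorem Inv3Free.of_injective (h : Inv3Free Y) (f : X →* Y) (hf : Function.Injective f) :
    Inv3Free X := fun a u ha hu he =>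
  h (f a) (f u) (by rw [← map_pow, ha, map_one]) (by rw [orderOf_injective f hf, hu])
    (by rw [← map_inv, ← map_mul, ← map_mul, he, map_inv])

variable [Finite X]

/-- A pair of an involution and an inverted element of prime order lifts along a surjection with
kernel of odd order. -/
theorem exists_lift_inverted (f : X →* Y) (hf : Function.Surjective f) (hodd : Odd (Nat.card f.ker))
    {a u : Y} {r : ℕ} (hr : r.Prime) (hr2 : r ≠ 2) (ha : a ^ 2 = 1) (hu : orderOf u = r)
    (hinv : a * u * a⁻¹ = u⁻¹) :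
    ∃ (a' u' : X), a' ^ 2 = 1 ∧ orderOf u' = r ∧ a' * u' * a'⁻¹ = u'⁻¹ := by
  obtain ⟨a0, ha0⟩ := hf a
  obtain ⟨w, hw⟩ := hf u
  obtain ⟨t, ht⟩ := hodd
  set a' := a0 ^ Nat.card f.ker with ha'
  have ha2 : a' ^ 2 = 1 := by
    rw [ha', ← pow_mul, mul_comm, pow_mul]
    exact congrArg Subtype.val (pow_card_eq_one' (x := (⟨a0 ^ 2, by
      rw [MonoidHom.mem_ker, map_pow, ha0, ha]⟩ : f.ker)))
  have hfa : f a' = a := by
    rw [ha', map_pow, ha0, ht, pow_succ, pow_mul, ha, one_pow, one_mul]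
  have haa : a' * a' = 1 := by rw [← pow_two]; exact ha2
  have hai : a'⁻¹ = a' := inv_eq_of_mul_eq_one_right haa
  set c := w⁻¹ * (a' * w * a'⁻¹) with hc
  have hcinv : a' * c * a'⁻¹ = c⁻¹ := by
    rw [hc, hai]
    simp only [mul_inv_rev, inv_inv, hai, mul_assoc, haa, mul_one]
  have hcop : Nat.Coprime 2 r := (Nat.coprime_primes Nat.prime_two hr).2 (Ne.symm hr2)
  have hfc : f c = (u ^ 2)⁻¹ := by
    rw [hc, map_mul, map_mul, map_mul, map_inv, map_inv, hfa, hw, hinv, pow_two, mul_inv_rev]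
  have hfco : orderOf (f c) = r := by
    rw [hfc, orderOf_inv, Nat.Coprime.orderOf_pow (by rw [hu]; exact hcop.symm), hu]
  obtain ⟨m, hm⟩ := exists_pow_orderOf f hr hfco
  exact ⟨a', c ^ m, ha2, hm, by rw [← conj_pow, hcinv, inv_pow]⟩

theorem Inv3Free.of_surjective (h : Inv3Free X) (f : X →* Y) (hf : Function.Surjective f)
    (hodd : Odd (Nat.card f.ker)) : Inv3Free Y := fun a u ha hu he => by
  obtain ⟨a', u', ha', hu', he'⟩ :=
    exists_lift_inverted f hf hodd Nat.prime_three (by norm_num) ha hu he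
  exact h a' u' ha' hu' he'

/-- A step lifts along a central extension with kernel of odd order. -/
theorem Step.lift (f : X →* Y) (hf : Function.Surjective f) (hodd : Odd (Nat.card f.ker))
    (hcen : f.ker ≤ Subgroup.center X) {A : Subgroup X} (hA : IsElementaryAbelian 2 A)
    (h : Step (A.map f)) : Step A := by
  obtain ⟨B, _, x, r, k, hB, hidx, hk, ⟨a, ha, rfl⟩, hr, hr2, hx, hxB, hinv, hord⟩ := h
  obtain ⟨w0, hw0⟩ := hf x
  have haa : a * a = 1 := by rw [← pow_two]; exact hA.2 a ha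
  have hai : a⁻¹ = a := inv_eq_of_mul_eq_one_right haa
  set c := w0⁻¹ * (a * w0 * a⁻¹) with hc
  have hcinv : a * c * a⁻¹ = c⁻¹ := by
    rw [hc, hai]
    simp only [mul_inv_rev, inv_inv, hai, mul_assoc, haa, mul_one]
  have hcop : Nat.Coprime 2 r := (Nat.coprime_primes Nat.prime_two hr).2 (Ne.symm hr2)
  have hfc : f c = (x ^ 2)⁻¹ := by
    rw [hc, map_mul, map_mul, map_mul, map_inv, map_inv, hw0, hinv, pow_two, mul_inv_rev]
  have hfco : orderOf (f c) = r := by
    rw [hfc, orderOf_inv, Nat.Coprime.orderOf_pow (by rw [hx]; exact hcop.symm), hx]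
  obtain ⟨m, hm⟩ := exists_pow_orderOf f hr hfco
  set B' := A ⊓ B.comap f with hB'
  have hcomm : ∀ b ∈ B', b * w0 = w0 * b := by
    intro b hb
    obtain ⟨z, hz⟩ : ∃ z, z = w0⁻¹ * (b * w0 * b⁻¹) := ⟨_, rfl⟩
    have hbb : b * b = 1 := by rw [← pow_two]; exact hA.2 b hb.1
    have hbi : b⁻¹ = b := inv_eq_of_mul_eq_one_right hbb
    have hzker : z ∈ f.ker := by
      rw [MonoidHom.mem_ker, hz, map_mul, map_mul, map_mul, map_inv, map_inv, hw0,
        (Subgroup.mem_centralizer_iff.1 hxB (f b) hb.2), mul_inv_cancel_right, inv_mul_cancel]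
    have hzc : ∀ g, g * z = z * g := fun g => Subgroup.mem_center_iff.1 (hcen hzker) g
    have h1 : b * w0 * b⁻¹ = w0 * z := by rw [hz, mul_inv_cancel_left]
    have h2 : z * z = 1 := by
      have : w0 * (z * z) = w0 := by
        calc w0 * (z * z) = b * w0 * b⁻¹ * (b * z * b⁻¹) := by
              rw [hzc b, mul_inv_cancel_right, h1, mul_assoc]
          _ = b * (w0 * z) * b⁻¹ := by group
          _ = b * (b * w0 * b⁻¹) * b⁻¹ := by rw [h1]
          _ = (b * b) * w0 * (b⁻¹ * b⁻¹) := by group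
          _ = w0 := by rw [hbi, hbb, one_mul, mul_one]
      simpa using this
    have h3 : z ^ Nat.card f.ker = 1 :=
      congrArg Subtype.val (pow_card_eq_one' (x := (⟨z, hzker⟩ : f.ker)))
    have hz1 : z = 1 := CfsgLib.SFourFree.pow_eq_one_of_coprime_pow (by rw [pow_two]; exact h2) h3
      (Nat.coprime_two_left.2 hodd)
    rw [hz1, mul_one] at h1
    exact mul_inv_eq_iff_eq_mul.1 h1
  refine ⟨B', a, c ^ m, r, k, inf_le_left, ?_, hk, ha, hr, hr2, hm, ?_, ?_, hord⟩
  · rw [hB', Subgroup.inf_relIndex_left, Subgroup.relIndex_comap, hidx]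
  · refine pow_mem ?_ m
    rw [Subgroup.mem_centralizer_iff]
    intro b hb
    have h1 : Commute b w0 := hcomm b hb
    have h2 : Commute b a := CfsgLib.ThompsonJ.isElementaryAbelian_comm hA hb.1 ha
    exact (h1.inv_right.mul_right ((h2.mul_right h1).mul_right h2.inv_right)).eq
  · rw [← conj_pow, hcinv, inv_pow]

end CfsgLib.SFourStep
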