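import Cfsg.Agent.Lib.SFourStep.Strict

/-!
No quadratic offender on a normal elementary abelian subgroup generated by conjugates of a subgroup it
centralises, for the strict bound with exponent `3/2` on the 2-radical.
-/

set_option autoImplicit false
set_option linter.style.haveILetI false

namespace CfsgLib.SFourStep

open Cfsg CfsgLib.SFourFree

universe u

variable {L : Type u} [Group L] [Finite L]

/-- The final computation. -/
theorem false_of_counts {s α β y I f1 aE fE : ℕ} (hy : y * β ^ 2 ≤ I) (hI : I ≤ s * (α * β))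
    (h1 : f1 * β ^ 2 ≤ I) (hs : s = 1 ∨ s ^ 3 < f1 ^ 2) (hE : s * α ^ 2 ≤ aE)
    (hEb : aE = 1 ∨ aE ^ 3 < fE ^ 2) (hfE : fE ≤ y * I) (hf1 : 0 < f1) (hy0 : 0 < y) (hs0 : 0 < s)
    (ht : 2 ≤ α * β) : False := by
  have hα : 0 < α := by
    rcases Nat.eq_zero_or_pos α with rfl | h
    · simp at ht
    · exact h
  have hβ : 0 < β := by
    rcases Nat.eq_zero_or_pos β with rfl | h
    · simp at ht
    · exact h
  rcases hEb with hEb | hEb
  · rw [hEb] at hE
    have hs1 : s = 1 := by
      have : s * 1 ≤ 1 := le_trans (Nat.mul_le_mul le_rfl (Nat.one_le_pow _ _ hα)) hE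
      omega
    have hα1 : α = 1 := by
      rw [hs1, one_mul] at hE
      have : α ≤ α ^ 2 := Nat.le_self_pow (by norm_num) α
      omega
    rw [hs1, hα1, one_mul, one_mul] at hI
    rw [hα1, one_mul] at ht
    have h2 : 1 * β ^ 2 ≤ β := le_trans (le_trans (Nat.mul_le_mul hy0 le_rfl) hy) hI
    rw [one_mul, pow_two] at h2
    have : 2 * β ≤ β * β := Nat.mul_le_mul ht le_rfl
    omega
  · have h2 : (s * α ^ 2) ^ 3 * β ^ 4 < s ^ 4 * α ^ 4 * β ^ 4 := by
      calc (s * α ^ 2) ^ 3 * β ^ 4 ≤ aE ^ 3 * β ^ 4 :=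
            Nat.mul_le_mul (Nat.pow_le_pow_left hE 3) le_rfl
        _ < fE ^ 2 * β ^ 4 := Nat.mul_lt_mul_of_pos_right hEb (by positivity)
        _ ≤ (y * I) ^ 2 * β ^ 4 := Nat.mul_le_mul (Nat.pow_le_pow_left hfE 2) le_rfl
        _ = (y * β ^ 2) ^ 2 * I ^ 2 := by ring
        _ ≤ I ^ 2 * I ^ 2 := Nat.mul_le_mul (Nat.pow_le_pow_left hy 2) le_rfl
        _ ≤ (s * (α * β)) ^ 2 * (s * (α * β)) ^ 2 :=
            Nat.mul_le_mul (Nat.pow_le_pow_left hI 2) (Nat.pow_le_pow_left hI 2)
        _ = s ^ 4 * α ^ 4 * β ^ 4 := by ring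
    have h3 : (s ^ 3 * α ^ 4 * β ^ 4) * α ^ 2 < (s ^ 3 * α ^ 4 * β ^ 4) * s := by
      calc _ = (s * α ^ 2) ^ 3 * β ^ 4 := by ring
        _ < _ := h2
        _ = _ := by ring
    have h4 : α ^ 2 < s := Nat.lt_of_mul_lt_mul_left h3
    rcases hs with hs | hs
    · have : 1 ≤ α ^ 2 := Nat.one_le_pow _ _ hα
      omega
    · have h5 : s ^ 3 * β ^ 4 < s ^ 2 * α ^ 2 * β ^ 2 := by
        calc s ^ 3 * β ^ 4 < f1 ^ 2 * β ^ 4 := Nat.mul_lt_mul_of_pos_right hs (by positivity)
          _ = (f1 * β ^ 2) ^ 2 := by ring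
          _ ≤ I ^ 2 := Nat.pow_le_pow_left h1 2
          _ ≤ (s * (α * β)) ^ 2 := Nat.pow_le_pow_left hI 2
          _ = _ := by ring
      have h6 : (s ^ 2 * β ^ 2) * (s * β ^ 2) < (s ^ 2 * β ^ 2) * α ^ 2 := by
        calc _ = s ^ 3 * β ^ 4 := by ring
          _ < _ := h5
          _ = _ := by ring
      have h7 := Nat.lt_of_mul_lt_mul_left h6
      have h8 : s * 1 ≤ s * β ^ 2 := Nat.mul_le_mul le_rfl (Nat.one_le_pow _ _ hβ)
      omega

theorem false_of_quadratic_offender (hR : RestrictedFactors L)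
    (h4 : ¬ Involves (Equiv.Perm (Fin 4)) L) {U : Subgroup L} [U.Normal]
    (hU : IsElementaryAbelian 2 U) (S : Sylow 2 L)
    (hdich : ∀ N : Subgroup L, N.Normal → (S : Subgroup L) ⊔ N = ⊤ ∨ (S : Subgroup L) ⊓ N ≤ rad2 U)
    (hfam : ∀ E : Subgroup L, E ≤ rad2 U → ElemMod E U → Lt32 E U)
    {X : Subgroup L} (hUX : U ≤ Subgroup.normalClosure (X : Set L))
    (hSX : (S : Subgroup L) ≤ Subgroup.normalizer (X : Set L))
    {A : Subgroup L} (hA : IsElementaryAbelian 2 A) (hAS : A ≤ (S : Subgroup L))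
    (hXF : X ≤ U ⊓ Subgroup.centralizer (A : Set L))
    (hquad : ∀ u ∈ U, ∀ a ∈ A, ∀ b ∈ A,
      b * (a * u * a⁻¹ * u⁻¹) * b⁻¹ = a * u * a⁻¹ * u⁻¹)
    (hAC : ¬ A ≤ Subgroup.centralizer (U : Set L)) (hoff : fixIdx A U ≤ actCard A U) : False := by
  classical
  haveI : Fact (Nat.Prime 2) := ⟨Nat.prime_two⟩
  set C := Subgroup.centralizer (U : Set L) with hC
  set R := rad2 U with hRdef
  set A1 := A ⊓ R with hA1
  set F := U ⊓ Subgroup.centralizer (A : Set L) with hF
  have hAem : ∀ V : Subgroup L, ElemMod A V := fun V => elemMod_of_isElementaryAbelian hA V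
  have hCR : C ≤ R := centralizer_le_rad2 U
  set t := (A ⊓ R).relIndex A with ht
  have hst : actCard A1 U * t = actCard A U := actCard_mul inf_le_left (inf_le_inf_left A hCR)
  have hIst : fixIdx A U ≤ actCard A1 U * t := hst ▸ hoff
  have hnR : ¬ A ≤ R := by
    intro h
    rcases hfam A h (hAem U) with h1 | h1
    · exact hAC fun a ha => ((Subgroup.relIndex_eq_one.1 h1) ha).2
    · have h2 := Nat.pow_le_pow_left hoff 2
      have h3 : actCard A U ^ 2 ≤ actCard A U ^ 3 :=
        Nat.pow_le_pow_right (relIndex_pos _ _) (by norm_num)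
      omega
  have ht2 : 2 ≤ t := by
    by_contra h
    have h1 : t = 1 := by
      have : 0 < t := relIndex_pos _ _
      omega
    exact hnR ((Subgroup.relIndex_eq_one.1 h1).trans inf_le_right)
  have hs0 : 0 < actCard A1 U := relIndex_pos _ _
  have hfam1 := hfam A1 inf_le_right ((hAem U).mono inf_le_left)
  have hf1I : fixIdx A1 U ≤ fixIdx A U := fixIdx_le_of_le inf_le_left
  have hdichA : ∀ N : Subgroup L, N.Normal → A ⊓ N ≤ R ∨ (S : Subgroup L) ⊔ N = ⊤ := fun N hN =>
    (hdich N hN).symm.imp (fun h => (inf_le_inf_right N hAS).trans h) id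
  -- `W`, minimal with `U = W ⊔ F`
  obtain ⟨W, ⟨hWn, hWU, hWF⟩, hWmin⟩ := Set.Finite.exists_minimal
    (s := {W : Subgroup L | W.Normal ∧ W ≤ U ∧ U ≤ W ⊔ F}) (Set.toFinite _)
    ⟨U, inferInstance, le_rfl, le_sup_left⟩
  haveI := hWn
  have hWne : W ≠ ⊥ := by
    intro h
    rw [h, bot_sup_eq] at hWF
    exact hAC (Subgroup.le_centralizer_iff.1 (hWF.trans inf_le_right))
  obtain ⟨W0, ⟨hW0n, hW0W, hW0ne⟩, hW0max⟩ := Set.Finite.exists_maximal
    (s := {Z : Subgroup L | Z.Normal ∧ Z ≤ W ∧ Z ≠ W}) (Set.toFinite _)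
    ⟨⊥, inferInstance, bot_le, Ne.symm hWne⟩
  haveI := hW0n
  have hW0F : ¬ U ≤ W0 ⊔ F := fun h =>
    hW0ne (le_antisymm hW0W (hWmin ⟨hW0n, hW0W.trans hWU, h⟩ hW0W))
  set q := QuotientGroup.mk' W0 with hq
  have hqs : Function.Surjective q := QuotientGroup.mk'_surjective W0
  have hq1 : ∀ g, q g = 1 ↔ g ∈ W0 := fun g => QuotientGroup.eq_one_iff g
  set W' := W.map q with hW'
  haveI hW'n : W'.Normal := Subgroup.Normal.map hWn q hqs
  set U' := U.map q with hU'
  haveI hU'n : U'.Normal := Subgroup.Normal.map inferInstance q hqs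
  have hU'e : IsElementaryAbelian 2 U' := CfsgLib.ThompsonJ.isElementaryAbelian_map hU q
  have hWe : IsElementaryAbelian 2 W := CfsgLib.ThompsonJ.isElementaryAbelian_mono hU hWU
  have hW0e : IsElementaryAbelian 2 W0 := CfsgLib.ThompsonJ.isElementaryAbelian_mono hWe hW0W
  have hW'e : IsElementaryAbelian 2 W' := CfsgLib.ThompsonJ.isElementaryAbelian_map hWe q
  have hirr : ∀ Z : Subgroup (L ⧸ W0), Z.Normal → Z ≤ W' → Z = ⊥ ∨ Z = W' := by
    intro Z hZ hZW
    haveI := hZ
    have h1 : W0 ≤ Z.comap q := fun g hg => by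
      rw [Subgroup.mem_comap, (hq1 g).2 hg]; exact one_mem Z
    have h2 : Z.comap q ≤ W := by
      refine (Subgroup.comap_mono hZW).trans ?_
      rw [hW', Subgroup.comap_map_eq_self]
      rw [QuotientGroup.ker_mk']; exact hW0W
    rcases eq_or_ne (Z.comap q) W with h | h
    · exact Or.inr (by rw [← Subgroup.map_comap_eq_self_of_surjective hqs Z, h])
    · refine Or.inl ?_
      have : Z.comap q = W0 := le_antisymm (hW0max ⟨inferInstance, h2, h⟩ h1) h1
      rw [← Subgroup.map_comap_eq_self_of_surjective hqs Z, this, hq, QuotientGroup.map_mk'_self]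
  have hR' : rad2 W' ≤ Subgroup.centralizer (W' : Set (L ⧸ W0)) :=
    rad2_le_centralizer_of_minimal hW'e hirr
  have h4' := not_involves_quotient h4 W0
  have hL : HasSteps L := hasSteps_of_restricted hR
  have hL' : HasSteps (L ⧸ W0) := hL.of_surjective hqs
  have hAT : A ≤ centMod U W := by
    intro a ha
    rw [mem_centMod_iff]
    intro u hu
    have hu' := hWF hu
    rw [← SetLike.mem_coe, Subgroup.normal_mul] at hu'
    obtain ⟨w, hw, c, hc, rfl⟩ := hu'
    have hac : a * c * a⁻¹ = c := by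
      rw [Subgroup.mem_centralizer_iff.1 hc.2 a ha, mul_inv_cancel_right]
    have : a * (w * c) * a⁻¹ * (w * c)⁻¹ = (a * w * a⁻¹) * w⁻¹ := by
      calc a * (w * c) * a⁻¹ * (w * c)⁻¹ = (a * w * a⁻¹) * (a * c * a⁻¹) * c⁻¹ * w⁻¹ := by group
        _ = _ := by rw [hac]; group
    rw [this]
    exact W.mul_mem (hWn.conj_mem w hw a) (W.inv_mem hw)
  have hTtop : (S : Subgroup L) ⊔ centMod U W = ⊤ :=
    (hdichA _ inferInstance).resolve_left fun h => hnR fun a ha => h ⟨ha, hAT ha⟩
  have hN3 : rad2 W0 ⊓ centMod U W ⊓ centMod W W0 ≤ R := by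
    refine le_rad2 fun n hn => ?_
    obtain ⟨⟨hn1, hn2⟩, hn3⟩ := hn
    obtain ⟨k, hk⟩ := exists_pow_mem_of_mem_rad2 hn1
    refine ⟨k + 1 + 1, ?_⟩
    rw [pow_succ, pow_mul]
    refine sq_mem_centralizer (N₀ := W) (fun w hw => hU.2 w (hWU hw)) ?_
      (mem_centMod_iff.1 (pow_mem hn2 _))
    rw [pow_succ, pow_mul]
    exact sq_mem_centralizer (N₀ := W0) (fun w hw => hU.2 w (hWU (hW0W hw))) hk
      (mem_centMod_iff.1 (pow_mem hn3 _))
  have hRW' : R ≤ centMod W W0 := by
    intro r hr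
    haveI : (R.map q).Normal := Subgroup.Normal.map inferInstance q hqs
    refine Subgroup.mem_comap.2 (hR' (le_rad2 (N := R.map q) ?_ (Subgroup.mem_map_of_mem q hr)))
    rintro _ ⟨r, hr, rfl⟩
    obtain ⟨j, hj⟩ := exists_pow_mem_of_mem_rad2 hr
    exact ⟨j, by rw [← map_pow]; exact map_mem_centralizer q (Subgroup.centralizer_le hWU hj)⟩
  -- `A` moves `W'` exactly modulo the radical
  have hAN2 : A ⊓ centMod W W0 ≤ R := by
    refine (hdichA _ inferInstance).resolve_right fun hN2 => hW0F ?_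
    have htop : (S : Subgroup L) ⊔ centMod U W0 = ⊤ := by
      refine sup_eq_top_of_pow_mem S fun g => ?_
      obtain ⟨i, hi⟩ := exists_pow_mem_of_sup_eq_top hTtop g
      obtain ⟨l, hl⟩ := exists_pow_mem_of_sup_eq_top hN2 (g ^ 2 ^ i)
      refine ⟨i + l + 1, Subgroup.mem_comap.2 ?_⟩
      have hT' := pow_mem hi (2 ^ l)
      rw [pow_succ, pow_add, pow_mul, pow_mul, map_pow]
      refine sq_mem_centralizer (N₀ := W') (N₁ := U') hW'e.2 (Subgroup.mem_comap.1 hl) ?_
      rintro _ ⟨v, hv, rfl⟩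
      rw [← map_inv, ← map_mul, ← map_mul, ← map_inv, ← map_mul]
      exact Subgroup.mem_map_of_mem q (mem_centMod_iff.1 hT' v hv)
    haveI : (X ⊔ W0).Normal := by
      rw [← Subgroup.normalizer_eq_top_iff, eq_top_iff, ← htop]
      refine sup_le (fun s hs => ?_) fun g hg => ?_
      · rw [Subgroup.mem_normalizer_iff_map_conj_eq, Subgroup.map_sup,
          Subgroup.mem_normalizer_iff_map_conj_eq.mp (hSX hs),
          Subgroup.mem_normalizer_iff_map_conj_eq.mp
            (show s ∈ Subgroup.normalizer (W0 : Set L) by rw [Subgroup.normalizer_eq_top]; trivial)]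
      · refine CfsgLib.CoprimeAction.mem_normalizer_of_conj_mem fun v hv => ?_
        have hvU : v ∈ U := sup_le (hXF.trans inf_le_left) (hW0W.trans hWU) hv
        rw [show g * v * g⁻¹ = (g * v * g⁻¹ * v⁻¹) * v by group]
        exact Subgroup.mul_mem _ (Subgroup.mem_sup_right (mem_centMod_iff.1 hg v hvU)) hv
    exact (hUX.trans (Subgroup.normalClosure_le_normal (le_sup_left : X ≤ X ⊔ W0))).trans
      (sup_le (hXF.trans le_sup_right) le_sup_left)
  have hA1N2 : A1 ≤ centMod W W0 := inf_le_right.trans hRW'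
  set c := fixIdx (A.map q) W' with hc
  have hcI : c ≤ fixIdx A U := (fixIdx_map_le q A W).trans (fixIdx_le_of_le_right hWU)
  have hA'em : ∀ B : Subgroup L, B ≤ A → ElemMod (B.map q) W' := fun B hB =>
    ((hAem W).mono hB).map q
  -- `L` acts as a 2-group on `W0`
  have hN1top : (S : Subgroup L) ⊔ rad2 W0 = ⊤ := by
    refine (hdichA _ inferInstance).resolve_left fun h => ?_
    have hf : t ≤ (A ⊓ rad2 W0).relIndex A := relIndex_le_of_le_left (le_inf inf_le_left h) A
    have h0 : t ^ 2 ≤ fixIdx A W0 :=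
      (Nat.pow_le_pow_left hf 2).trans (sq_relIndex_rad2_le _ L hL h4 W0 le_rfl hW0e A (hAem W0))
    have he : t ≤ actCard (A.map q) W' := by
      rw [actCard, Subgroup.inf_relIndex_left, ← Subgroup.relIndex_comap,
        ← Subgroup.inf_relIndex_left A]
      exact relIndex_le_of_le_left (le_inf inf_le_left hAN2) A
    have h' : t ^ 2 ≤ c :=
      (Nat.pow_le_pow_left he 2).trans (sq_actCard_le_fixIdx hL' h4' hW'e hR' _ (hA'em A le_rfl))
    have h4t : t ^ 2 * t ^ 2 ≤ actCard A1 U * t :=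
      ((Nat.mul_le_mul h' h0).trans ((fixIdx_map_mul_le hWe hW0W A).trans
        (fixIdx_le_of_le_right hWU))).trans hIst
    have h3 : t * t * t ≤ actCard A1 U := by
      refine Nat.le_of_mul_le_mul_right ?_ (show 0 < t by omega)
      calc t * t * t * t = t ^ 2 * t ^ 2 := by ring
        _ ≤ _ := h4t
    have h22 : 2 * (t * t) ≤ t * t * t := by rw [mul_assoc t t t]; exact Nat.mul_le_mul ht2 le_rfl
    have htt : 4 ≤ t * t := Nat.mul_le_mul ht2 ht2
    rcases hfam1 with h1 | h1
    · rw [h1] at h3; omega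
    · have h2 : actCard A1 U ^ 3 < (actCard A1 U * t) ^ 2 :=
        lt_of_lt_of_le h1 (Nat.pow_le_pow_left (hf1I.trans hIst) 2)
      have h5 : actCard A1 U ^ 2 * actCard A1 U < actCard A1 U ^ 2 * (t * t) := by
        calc _ = actCard A1 U ^ 3 := by ring
          _ < _ := h2
          _ = _ := by ring
      have := Nat.lt_of_mul_lt_mul_left h5
      omega
  have hW0fix : ∀ {x : L} {m : ℕ}, Odd m → x ^ m = 1 → x ∈ Subgroup.centralizer (W0 : Set L) :=
    fun {x m} hm hx => mem_centralizer_of_mem_rad2 (mem_of_sup_eq_top hN1top hm hx) hm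
      (by rw [hx]; exact one_mem _)
  -- the fixed points of `A1`
  set Y1 := (W ⊓ Subgroup.centralizer (A1 : Set L)).map q with hY1
  set h := F.relIndex (U ⊓ Subgroup.centralizer (A1 : Set L)) with hh
  have hY1h : fixIdx (A.map q) Y1 ≤ h := by
    refine (fixIdx_map_le q A _).trans ?_
    rw [fixIdx, Subgroup.inf_relIndex_left]
    exact (Subgroup.relIndex_le_of_le_right (inf_le_inf_right _ hWU)
      Subgroup.index_ne_zero_of_finite).trans (relIndex_le_of_le_left inf_le_right _)
  have hAV1 : A ≤ Subgroup.normalizer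
      ((W ⊓ Subgroup.centralizer (A1 : Set L) : Subgroup L) : Set L) := fun g hg => by
    refine CfsgLib.CoprimeAction.mem_normalizer_of_conj_mem fun w hw => ⟨hWn.conj_mem w hw.1 g, ?_⟩
    refine Subgroup.mem_centralizer_iff.2 fun b hb => ?_
    have c1 : Commute b g := CfsgLib.ThompsonJ.isElementaryAbelian_comm hA hb.1 hg
    have c2 : Commute b w := Subgroup.mem_centralizer_iff.1 hw.2 b hb
    exact ((c1.mul_right c2).mul_right c1.inv_right).eq
  set π := QuotientGroup.mk' (Subgroup.centralizer (W : Set L)) with hπ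
  have hπ1 : ∀ g, π g = 1 ↔ g ∈ Subgroup.centralizer (W : Set L) := fun g => QuotientGroup.eq_one_iff g
  -- the recursion along the steps
  have hrec : ∀ A' : Subgroup L, A1 ≤ A' → A' ≤ A →
      ∃ (Xs : Set L) (Y : Subgroup L) (α β : ℕ), α * β = A1.relIndex A' ∧ Y ≤ F ∧
        (∀ x ∈ Xs, (∃ m, Odd m ∧ x ^ m = 1) ∧ x ∈ Subgroup.centralizer (Y : Set L)) ∧
        Y.relIndex F * β ^ 2 ≤ fixIdx (A'.map q) W' ∧ β ^ 2 ≤ fixIdx (A'.map q) Y1 ∧
        ∀ E : Subgroup L, E ≤ R → A1 ≤ E → ElemMod E W →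
          (∀ x ∈ Xs, x ∈ Subgroup.normalizer (E : Set L)) → A ≤ Subgroup.normalizer (E : Set L) →
          α ^ 2 ≤ fixIdx (A'.map π) ((E ⊓ Subgroup.centralizer (W0 : Set L)).map π) := by
    intro A'
    induction A' using WellFoundedLT.induction with
    | _ A' ih =>
    intro hA1A' hA'A
    by_cases hC' : A'.map q ≤ Subgroup.centralizer (W' : Set (L ⧸ W0))
    · have heq : A' = A1 := le_antisymm (fun g hg => ⟨hA'A hg,
        hAN2 ⟨hA'A hg, Subgroup.mem_comap.2 (hC' (Subgroup.mem_map_of_mem q hg))⟩⟩) hA1A'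
      refine ⟨∅, F, 1, 1, by rw [heq, Subgroup.relIndex_self], le_rfl, fun x hx => absurd hx (by simp),
        ?_, ?_, fun E _ _ _ _ _ => ?_⟩
      · rw [Subgroup.relIndex_self]; exact fixIdx_pos _ _
      · exact fixIdx_pos _ _
      · exact fixIdx_pos _ _
    obtain ⟨B', _, v, p, k, hB', hCB', hidx, hk, ⟨a, ha, rfl⟩, hp, hp5, hord, hvp, hvinv, hvC, hvB⟩ :=
      exists_inverted hL' h4' hW'e hR' (hA'em A' hA'A) hC'
    have hp2 : p ≠ 2 := by omega
    set B := A' ⊓ B'.comap q with hBdef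
    have hBA' : B ≤ A' := inf_le_left
    have hA1B : A1 ≤ B := fun g hg => ⟨hA1A' hg, Subgroup.mem_comap.2
      (hCB' ⟨Subgroup.mem_map_of_mem q (hA1A' hg), Subgroup.mem_comap.1 (hA1N2 hg)⟩)⟩
    have hBidx : B.relIndex A' = 2 ^ k := by
      rw [hBdef, Subgroup.inf_relIndex_left, Subgroup.relIndex_comap, hidx]
    have hlt : B < A' := lt_of_le_of_ne hBA' fun h => by
      rw [h, Subgroup.relIndex_self] at hBidx
      exact (Nat.one_lt_two_pow (by omega : k ≠ 0)).ne hBidx
    obtain ⟨Xs, Y, α, β, hαβ, hYF, hXs, hY, hYβ, hgain⟩ := ih B hlt hA1B (hBA'.trans hA'A)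
    have haA : a ∈ A := hA'A ha
    have haa : a * a = 1 := by rw [← pow_two]; exact hA.2 a haA
    have hai : a⁻¹ = a := inv_eq_of_mul_eq_one_right haa
    -- the lift of the inverted element
    obtain ⟨u, rfl⟩ := hqs v
    set C' := Subgroup.centralizer (W' : Set (L ⧸ W0)) with hC''
    set π' := QuotientGroup.mk' C' with hπ'
    have hπ'1 : ∀ g, π' g = 1 ↔ g ∈ C' := fun g => QuotientGroup.eq_one_iff g
    set y := π' (q u) with hy
    have hyp : y ^ p = 1 := by rw [hy, ← map_pow, hπ'1]; exact hvp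
    have hy1 : y ≠ 1 := fun h => hvC ((hπ'1 _).1 h)
    have hyord : orderOf y = p := haveI := Fact.mk hp; orderOf_eq_prime hyp hy1
    have hzy : π' (q a) * y * (π' (q a))⁻¹ = y⁻¹ := by
      refine eq_inv_of_mul_eq_one_left ?_
      rw [hy, ← map_inv, ← map_mul, ← map_mul, ← map_mul, hπ'1]
      exact hvinv
    obtain ⟨w, hw⟩ : ∃ w, w = u * a * u⁻¹ * a := ⟨_, rfl⟩
    have hwimg : π' (q w) = y ^ 2 := by
      have hzi : (π' (q a))⁻¹ = π' (q a) := by rw [← map_inv, ← map_inv, hai]
      calc π' (q w) = y * π' (q a) * y⁻¹ * π' (q a) := by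
            rw [hw, map_mul, map_mul, map_mul, map_inv, map_mul, map_mul, map_mul, map_inv]
        _ = y * (π' (q a) * y * (π' (q a))⁻¹)⁻¹ := by rw [mul_inv_rev, mul_inv_rev, inv_inv, hzi]; group
        _ = y ^ 2 := by rw [hzy, inv_inv, pow_two]
    have hwinv : a * w * a⁻¹ = w⁻¹ := by
      rw [hw]
      simp only [mul_inv_rev, inv_inv, hai, mul_assoc, haa, mul_one]
    obtain ⟨e, m, hm, hem⟩ := Nat.exists_eq_pow_mul_and_not_dvd (orderOf_pos w).ne' p hp.ne_one
    obtain ⟨x, hx⟩ : ∃ x, x = w ^ m := ⟨_, rfl⟩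
    have hxpe : x ^ p ^ e = 1 := by rw [hx, ← pow_mul, mul_comm, ← hem, pow_orderOf_eq_one]
    have hxinv : a * x * a⁻¹ = x⁻¹ := by rw [hx, ← conj_pow, hwinv, inv_pow]
    have hpodd : Odd p := hp.odd_of_ne_two hp2
    have hximg : π' (q x) = y ^ (2 * m) := by rw [hx, map_pow, map_pow, hwimg, ← pow_mul]
    have hxC' : q x ∉ C' := by
      intro h
      refine hy1 (pow_eq_one_of_coprime_pow (hximg ▸ (hπ'1 _).2 h) hyp ?_)
      exact Nat.Coprime.mul_left ((Nat.coprime_primes Nat.prime_two hp).2 (Ne.symm hp2))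
        (hp.coprime_iff_not_dvd.2 hm).symm
    have hxp : q (x ^ p) ∈ C' := by
      rw [← hπ'1, map_pow, map_pow, hximg, ← pow_mul, mul_comm, pow_mul, hyp, one_pow]
    have hxodd : Odd (p ^ e) := hpodd.pow
    have hxW0 : x ∈ Subgroup.centralizer (W0 : Set L) := hW0fix hxodd hxpe
    have hxT : x ∈ centMod U W := mem_of_sup_eq_top hTtop hxodd hxpe
    have hxB : ∀ b ∈ B, q (x * b * x⁻¹ * b⁻¹) ∈ C' := by
      intro b hb
      have h1 : Commute (π' (q u)) (π' (q b)) := by
        have h0 := (hπ'1 _).2 (hvB _ hb.2)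
        rw [map_mul, map_mul, map_mul, map_inv, map_inv, mul_inv_eq_one] at h0
        exact mul_inv_eq_iff_eq_mul.1 h0
      have h2 : Commute (π' (q x)) (π' (q b)) := by rw [hximg]; exact h1.pow_left _
      rw [← hπ'1, map_mul, map_mul, map_mul, map_inv, map_inv, map_mul, map_mul, map_mul, map_inv,
        map_inv, h2.eq, mul_inv_cancel_right, mul_inv_cancel]
    have hBq : ∀ b ∈ B.map q, q x * b * (q x)⁻¹ * b⁻¹ ∈ C' := by
      rintro _ ⟨b, hb, rfl⟩
      rw [← map_inv, ← map_mul, ← map_mul, ← map_inv, ← map_mul]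
      exact hxB b hb
    have hinvq : q a * q x * (q a)⁻¹ * q x = 1 := by
      rw [← map_inv, ← map_mul, ← map_mul, ← map_mul, hxinv, inv_mul_cancel, map_one]
    have hB'A' : B.map q ≤ A'.map q := Subgroup.map_mono hBA'
    have hαβ' : (2 : ℕ) ^ k * (A1.relIndex B) = A1.relIndex A' := by
      rw [← hBidx, mul_comm]; exact Subgroup.relIndex_mul_relIndex _ _ _ hA1B hBA'
    have h4k : (4 : ℕ) ^ k = (2 ^ k) ^ 2 := by rw [← pow_mul, mul_comm, pow_mul]; norm_num
    by_cases hfix : ∀ b ∈ A1, x * b * x⁻¹ * b⁻¹ ∈ Subgroup.centralizer (W : Set L)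
    · -- `x` commutes with `A1` on `W`
      refine ⟨Xs, Y, α, β * 2 ^ k, ?_, hYF, hXs, ?_, ?_, fun E hE1 hE2 hE3 hE4 hE5 => ?_⟩
      · rw [← hαβ', ← hαβ]; ring
      · calc Y.relIndex F * (β * 2 ^ k) ^ 2 = 4 ^ k * (Y.relIndex F * β ^ 2) := by rw [h4k]; ring
          _ ≤ 4 ^ k * fixIdx (B.map q) W' := Nat.mul_le_mul le_rfl hY
          _ ≤ _ := pow_four_mul_fixIdx_le hW'e (hA'em A' hA'A) hB'A' (Subgroup.mem_map_of_mem q ha) hp
              hp2 hord (by rw [← map_pow]; exact hxp) (by rw [hinvq]; exact one_mem _) hxC' hBq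
      · have hWc : ∀ {w w' : L}, w ∈ W → w' ∈ W → w * w' = w' * w := fun hw hw' =>
          CfsgLib.ThompsonJ.isElementaryAbelian_comm hWe hw hw'
        have hxV : x ∈ Subgroup.normalizer
            ((W ⊓ Subgroup.centralizer (A1 : Set L) : Subgroup L) : Set L) := by
          refine CfsgLib.CoprimeAction.mem_normalizer_of_conj_mem fun z hz =>
            ⟨hWn.conj_mem z hz.1 x, ?_⟩
          refine Subgroup.mem_centralizer_iff.2 fun b hb => mul_inv_eq_iff_eq_mul.1 ?_
          have hbz : b * z * b⁻¹ = z := by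
            rw [Subgroup.mem_centralizer_iff.1 hz.2 b hb, mul_inv_cancel_right]
          calc b * (x * z * x⁻¹) * b⁻¹
              = (x * b * x⁻¹ * b⁻¹)⁻¹ * (x * (b * z * b⁻¹) * x⁻¹) * ((x * b * x⁻¹ * b⁻¹)⁻¹)⁻¹ := by
                group
            _ = x * z * x⁻¹ := by
              rw [hbz]; exact conj_eq_of_mem_centralizer (inv_mem (hfix b hb)) (hWn.conj_mem z hz.1 x)
        have hnt : q x ∉ Subgroup.centralizer (Y1 : Set (L ⧸ W0)) := by
          intro hcon
          refine hxC' (mem_centralizer_of_conj_eq ?_)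
          rintro _ ⟨z, hz, rfl⟩
          set c0 := x * z * x⁻¹ * z⁻¹ with hc0
          have hc0W : c0 ∈ W := W.mul_mem (hWn.conj_mem z hz x) (W.inv_mem hz)
          have hc0V : c0 ∈ Subgroup.centralizer (A1 : Set L) := by
            refine Subgroup.mem_centralizer_iff.2 fun b hb => mul_inv_eq_iff_eq_mul.1 ?_
            set d := b * z * b⁻¹ * z⁻¹ with hd
            have hdW0 : d ∈ W0 := mem_centMod_iff.1 (hA1N2 hb) z hz
            have hxd : x * d * x⁻¹ = d := conj_eq_of_mem_centralizer hxW0 hdW0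
            have hbxz : b * (x * z * x⁻¹) * b⁻¹ = d * (x * z * x⁻¹) := by
              calc b * (x * z * x⁻¹) * b⁻¹
                  = (x * b * x⁻¹ * b⁻¹)⁻¹ * (x * (b * z * b⁻¹) * x⁻¹) *
                      ((x * b * x⁻¹ * b⁻¹)⁻¹)⁻¹ := by group
                _ = x * (b * z * b⁻¹) * x⁻¹ := conj_eq_of_mem_centralizer (inv_mem (hfix b hb))
                      (hWn.conj_mem _ (hWn.conj_mem z hz b) x)
                _ = (x * d * x⁻¹) * (x * z * x⁻¹) := by rw [hd]; group
                _ = _ := by rw [hxd]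
            calc b * c0 * b⁻¹ = (b * (x * z * x⁻¹) * b⁻¹) * (b * z * b⁻¹)⁻¹ := by rw [hc0]; group
              _ = d * c0 * d⁻¹ := by rw [hbxz, hc0, hd]; group
              _ = c0 := by rw [hWc (hW0W hdW0) hc0W, mul_inv_cancel_right]
          have hxc0 := conj_eq_of_mem_centralizer hcon (Subgroup.mem_map_of_mem q
            (show c0 ∈ W ⊓ Subgroup.centralizer (A1 : Set L) from ⟨hc0W, hc0V⟩))
          exact pow_conj_eq (W := W') hW'e.2 (Subgroup.mem_map_of_mem q hc0W) hxc0
            (by rw [hc0, ← map_inv, ← map_mul, ← map_mul, ← map_mul]; congr 1; group) (p ^ e) hxodd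
            (by rw [← map_pow, hxpe]; simp)
        have hle : Y1 ≤ W' := Subgroup.map_mono inf_le_left
        have hC'le : C' ≤ Subgroup.centralizer (Y1 : Set (L ⧸ W0)) := Subgroup.centralizer_le hle
        calc (β * 2 ^ k) ^ 2 = 4 ^ k * β ^ 2 := by rw [h4k]; ring
          _ ≤ 4 ^ k * fixIdx (B.map q) Y1 := Nat.mul_le_mul le_rfl hYβ
          _ ≤ _ := pow_four_mul_fixIdx_le' (CfsgLib.ThompsonJ.isElementaryAbelian_mono hW'e hle)
              ((Subgroup.map_mono (hA'A.trans hAV1)).trans (Subgroup.le_normalizer_map q))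
              ((hA'em A' hA'A).of_le hle) hB'A' (Subgroup.mem_map_of_mem q ha)
              (Subgroup.le_normalizer_map q (Subgroup.mem_map_of_mem q hxV)) hp hp2 hord
              (by rw [← map_pow]; exact hC'le hxp) (by rw [hinvq]; exact one_mem _) hnt
              (fun b hb => hC'le (hBq b hb))
      · exact (hgain E hE1 hE2 hE3 hE4 hE5).trans (fixIdx_le_of_le (Subgroup.map_mono hBA'))
    · -- `x` moves `A1` on `W`
      push Not at hfix
      obtain ⟨b1, hb1, hb1C⟩ := hfix
      refine ⟨insert x Xs, Y ⊓ Subgroup.centralizer ({x} : Set L), α * 2 ^ k, β, ?_,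
        inf_le_left.trans hYF, ?_, ?_, hYβ.trans (fixIdx_le_of_le hB'A'),
        fun E hE1 hE2 hE3 hE4 hE5 => ?_⟩
      · rw [← hαβ', ← hαβ]; ring
      · rintro z (rfl | hz)
        · exact ⟨⟨_, hxodd, hxpe⟩, Subgroup.mem_centralizer_iff.2 fun d hd =>
            Subgroup.mem_centralizer_singleton_iff.1 hd.2⟩
        · exact ⟨(hXs z hz).1, Subgroup.centralizer_le inf_le_left (hXs z hz).2⟩
      · -- the cost
        obtain ⟨m', hm'⟩ := hxodd
        have hFq : F.map q ≤ Subgroup.centralizer (A'.map q : Set (L ⧸ W0)) := by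
          rintro _ ⟨d, hd, rfl⟩
          exact map_mem_centralizer q (Subgroup.centralizer_le hA'A hd.2)
        have hcost := relIndex_centralizer_mul_le (U := U') (W := W') hU'e (Subgroup.map_mono hWU)
          hB'A' (F := F.map q) (Subgroup.map_mono inf_le_left) hFq
          ((Subgroup.map_mono hWF).trans (Subgroup.map_sup _ _ _).le)
          (Subgroup.mem_map_of_mem q ha) (by rw [← map_mul, haa, map_one]) (m := m')
          (x := q x) (by rw [← map_pow, ← hm', hxpe, map_one])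
          (by rw [← map_inv, ← map_mul, ← map_mul, hxinv, map_inv])
          (by
            rintro _ ⟨d, hd, rfl⟩
            rw [← map_inv, ← map_mul, ← map_mul, ← map_inv, ← map_mul]
            exact Subgroup.mem_map_of_mem q (mem_centMod_iff.1 hxT d hd))
          hBq
          (by
            rintro _ ⟨d, hd, rfl⟩ _ ⟨b, hb, rfl⟩
            simp only [← map_inv, ← map_mul]
            rw [hquad d (hWU hd) a haA b (hA'A (hBA' hb))])
        have h1 : F ⊓ (Subgroup.centralizer ({q x} : Set (L ⧸ W0))).comap q ≤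
            Subgroup.centralizer ({x} : Set L) := by
          rintro d ⟨hd, hdx⟩
          refine Subgroup.mem_centralizer_singleton_iff.2 ?_
          have hd0 : x * d * x⁻¹ * d⁻¹ ∈ W0 := by
            rw [← hq1, map_mul, map_mul, map_mul, map_inv, map_inv,
              ← Subgroup.mem_centralizer_singleton_iff.1 (Subgroup.mem_comap.1 hdx),
              mul_inv_cancel_right, mul_inv_cancel]
          exact (mul_inv_eq_iff_eq_mul.1 (pow_conj_eq (W := U) hU.2 (hWU (hW0W hd0))
            (conj_eq_of_mem_centralizer hxW0 hd0) (by group) (p ^ e) ⟨m', hm'⟩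
            (by rw [hxpe]; group))).symm
        have h2 : (Subgroup.centralizer ({x} : Set L)).relIndex F ≤
            (F.map q ⊓ Subgroup.centralizer ({q x} : Set (L ⧸ W0))).relIndex (F.map q) := by
          refine (relIndex_le_of_le_left h1 F).trans ?_
          rw [Subgroup.inf_relIndex_left, Subgroup.inf_relIndex_left, Subgroup.relIndex_comap]
        calc (Y ⊓ Subgroup.centralizer ({x} : Set L)).relIndex F * β ^ 2
            ≤ (Y.relIndex F * (Subgroup.centralizer ({x} : Set L)).relIndex F) * β ^ 2 :=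
              Nat.mul_le_mul Subgroup.relIndex_inf_le le_rfl
          _ = (Subgroup.centralizer ({x} : Set L)).relIndex F * (Y.relIndex F * β ^ 2) := by ring
          _ ≤ (F.map q ⊓ Subgroup.centralizer ({q x} : Set (L ⧸ W0))).relIndex (F.map q) *
                fixIdx (B.map q) W' := Nat.mul_le_mul h2 hY
          _ ≤ _ := hcost
      · -- the gain on `E`
        have hgB := hgain E hE1 hE2 hE3 (fun z hz => hE4 z (Set.mem_insert_of_mem x hz)) hE5
        set CW0 := Subgroup.centralizer (W0 : Set L) with hCW0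
        set Ew := (E ⊓ CW0).map π with hEw
        have hEn : ∀ g : L, g ∈ Subgroup.normalizer (E : Set L) →
            g ∈ Subgroup.normalizer ((E ⊓ CW0 : Subgroup L) : Set L) := fun g hg => by
          refine CfsgLib.CoprimeAction.mem_normalizer_of_conj_mem fun d hd =>
            ⟨(Subgroup.mem_normalizer_iff.1 hg d).1 hd.1, (inferInstance : CW0.Normal).conj_mem d hd.2 g⟩
        have hxE : x ∈ Subgroup.normalizer (E : Set L) := hE4 x (Set.mem_insert x Xs)
        -- elements of `CW0 ⊓ centMod W W0` commute with `E ⊓ CW0` on `W`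
        have hcommW : ∀ n ∈ CW0, n ∈ centMod W W0 → π n ∈ Subgroup.centralizer (Ew : Set _) := by
          intro n hn hn2
          refine mem_centralizer_of_conj_eq ?_
          rintro _ ⟨d, hd, rfl⟩
          rw [← mul_inv_eq_one, ← map_inv, ← map_mul, ← map_mul, ← map_inv, ← map_mul, hπ1]
          exact (elemMod_of_le_stab (E := stab W0 W) hWe hW0W le_rfl).2 n ⟨hn, mem_centMod_iff.1 hn2⟩
            d ⟨hd.2, mem_centMod_iff.1 (hRW' (hE1 hd.1))⟩
        have hEwe : IsElementaryAbelian 2 (E.map π) := by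
          refine CfsgLib.ThompsonJ.isElementaryAbelian_iff.2 ⟨?_, ?_⟩
          · rintro _ ⟨b, hb, rfl⟩
            rw [Subgroup.mem_centralizer_iff]
            rintro _ ⟨d, hd, rfl⟩
            rw [← mul_inv_eq_one, ← map_mul, ← map_mul, ← map_inv, ← map_mul, hπ1, mul_inv_rev,
              ← mul_assoc]
            exact hE3.2 d hd b hb
          · rintro _ ⟨b, hb, rfl⟩
            rw [← map_pow, hπ1]
            exact hE3.1 b hb
        have hnt : π x ∉ Subgroup.centralizer (Ew : Set _) := by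
          intro hcon
          apply hb1C
          set c0 := x * b1 * x⁻¹ * b1⁻¹ with hc0
          have hc0E : c0 ∈ E := E.mul_mem ((Subgroup.mem_normalizer_iff.1 hxE b1).1 (hE2 hb1))
            (E.inv_mem (hE2 hb1))
          have hc0W0 : c0 ∈ CW0 := by
            rw [hc0, show x * b1 * x⁻¹ * b1⁻¹ = x * (b1 * x⁻¹ * b1⁻¹) by group]
            exact mul_mem hxW0 ((inferInstance : CW0.Normal).conj_mem _ (inv_mem hxW0) b1)
          have h0 := conj_eq_of_mem_centralizer hcon (Subgroup.mem_map_of_mem π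
            (show c0 ∈ E ⊓ CW0 from ⟨hc0E, hc0W0⟩))
          have h1 := pow_conj_eq (W := E.map π) hEwe.2 (Subgroup.mem_map_of_mem π hc0E) h0
            (w := π b1) (by rw [hc0, ← map_inv, ← map_mul, ← map_mul, ← map_mul]; congr 1; group)
            (p ^ e) hxodd (by rw [← map_pow, hxpe]; simp)
          rw [← hπ1, hc0, map_mul, map_mul, map_mul, map_inv, map_inv, h1, mul_inv_cancel]
        have hAEw : A'.map π ≤ Subgroup.normalizer (Ew : Set _) := by
          rintro _ ⟨g, hg, rfl⟩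
          exact Subgroup.le_normalizer_map π (Subgroup.mem_map_of_mem π (hEn g (hE5 (hA'A hg))))
        calc (α * 2 ^ k) ^ 2 = 4 ^ k * α ^ 2 := by rw [h4k]; ring
          _ ≤ 4 ^ k * fixIdx (B.map π) Ew := Nat.mul_le_mul le_rfl hgB
          _ ≤ _ := pow_four_mul_fixIdx_le'
              (CfsgLib.ThompsonJ.isElementaryAbelian_mono hEwe (Subgroup.map_mono inf_le_left)) hAEw
              (elemMod_of_isElementaryAbelian
                (CfsgLib.ThompsonJ.isElementaryAbelian_map
                  (CfsgLib.ThompsonJ.isElementaryAbelian_mono hA hA'A) π) _)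
              (Subgroup.map_mono hBA') (Subgroup.mem_map_of_mem π ha)
              (Subgroup.le_normalizer_map π (Subgroup.mem_map_of_mem π (hEn x hxE))) hp hp2 hord
              (by
                rw [← map_pow]
                exact hcommW _ (pow_mem hxW0 p) hxp)
              (by
                rw [← map_inv, ← map_mul, ← map_mul, ← map_mul, hxinv, inv_mul_cancel, map_one]
                exact one_mem _)
              hnt (by
                rintro _ ⟨b, hb, rfl⟩
                rw [← map_inv, ← map_mul, ← map_mul, ← map_inv, ← map_mul]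
                refine hcommW _ ?_ (hxB b hb)
                rw [show x * b * x⁻¹ * b⁻¹ = x * (b * x⁻¹ * b⁻¹) by group]
                exact mul_mem hxW0 ((inferInstance : CW0.Normal).conj_mem _ (inv_mem hxW0) b))
  obtain ⟨Xs, Y, α, β, hαβ, hYF, hXs, hY, hYβ, hgain⟩ := hrec A inf_le_left le_rfl
  -- `E`, generated by the conjugates of `A1`
  set G1 := Subgroup.closure ((A : Set L) ∪ Xs) with hG1
  have hG1D : G1 ≤ Subgroup.centralizer ((W0 ⊓ F : Subgroup L) : Set L) := by
    refine (Subgroup.closure_le _).2 ?_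
    rintro g (hg | hg)
    · exact Subgroup.mem_centralizer_iff.2 fun d hd =>
        (Subgroup.mem_centralizer_iff.1 hd.2.2 g hg).symm
    · obtain ⟨m, hm, hxm⟩ := (hXs g hg).1
      exact Subgroup.centralizer_le inf_le_left (hW0fix hm hxm)
  have hG1Y : G1 ≤ Subgroup.centralizer (Y : Set L) := by
    refine (Subgroup.closure_le _).2 ?_
    rintro g (hg | hg)
    · exact Subgroup.mem_centralizer_iff.2 fun d hd =>
        (Subgroup.mem_centralizer_iff.1 (hYF hd).2 g hg).symm
    · exact (hXs g hg).2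
  -- `[U, A₁] ≤ W₀ ⊓ F`
  have hδ : ∀ b ∈ A1, b ∈ stab (W0 ⊓ F) U := by
    intro b hb
    refine ⟨mem_centralizer_of_conj_eq fun d hd => ?_, fun v hv => ?_⟩
    · rw [Subgroup.mem_centralizer_iff.1 hd.2.2 b hb.1, mul_inv_cancel_right]
    have hv' := hWF hv
    rw [← SetLike.mem_coe, Subgroup.normal_mul] at hv'
    obtain ⟨w1, hw1, d, hd, rfl⟩ := hv'
    have hbd : b * d * b⁻¹ = d := by
      rw [Subgroup.mem_centralizer_iff.1 hd.2 b hb.1, mul_inv_cancel_right]
    have heq : b * (w1 * d) * b⁻¹ * (w1 * d)⁻¹ = b * w1 * b⁻¹ * w1⁻¹ := by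
      calc b * (w1 * d) * b⁻¹ * (w1 * d)⁻¹ = (b * w1 * b⁻¹) * (b * d * b⁻¹) * d⁻¹ * w1⁻¹ := by group
        _ = _ := by rw [hbd]; group
    refine ⟨heq ▸ mem_centMod_iff.1 (hA1N2 hb) w1 hw1, ?_, ?_⟩
    · exact U.mul_mem ((inferInstance : U.Normal).conj_mem _ hv b) (U.inv_mem hv)
    · exact Subgroup.mem_centralizer_iff.2 fun b' hb' =>
        mul_inv_eq_iff_eq_mul.1 (hquad _ hv b hb.1 b' hb')
  set E := Subgroup.closure {n | ∃ g ∈ G1, ∃ b ∈ A1, n = g * b * g⁻¹} with hE
  have hER : E ≤ R := by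
    refine (Subgroup.closure_le _).2 ?_
    rintro _ ⟨g', -, b, hb, rfl⟩
    exact (inferInstance : R.Normal).conj_mem b hb.2 g'
  have hES : E ≤ stab (W0 ⊓ F) U := by
    refine (Subgroup.closure_le _).2 ?_
    rintro _ ⟨g', hg', b, hb, rfl⟩
    have hgc := hG1D hg'
    obtain ⟨hb1, hb2⟩ := hδ b hb
    refine ⟨mul_mem (mul_mem hgc hb1) (inv_mem hgc), fun v hv => ?_⟩
    have hd := hb2 (g'⁻¹ * v * g') (by simpa using (inferInstance : U.Normal).conj_mem v hv g'⁻¹)
    have := conj_eq_of_mem_centralizer hgc hd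
    have heq : g' * b * g'⁻¹ * v * (g' * b * g'⁻¹)⁻¹ * v⁻¹ =
        g' * (b * (g'⁻¹ * v * g') * b⁻¹ * (g'⁻¹ * v * g')⁻¹) * g'⁻¹ := by group
    rw [heq, this]
    exact hd
  have hEem : ElemMod E U := elemMod_of_le_stab hU (inf_le_right.trans inf_le_left) hES
  have hA1E : A1 ≤ E := fun b hb => Subgroup.subset_closure ⟨1, one_mem _, b, hb, by group⟩
  have hG1E : G1 ≤ Subgroup.normalizer (E : Set L) := fun g hg => by
    refine CfsgLib.CoprimeAction.mem_normalizer_of_conj_mem fun n hn => ?_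
    have hle : E.map (MulAut.conj g).toMonoidHom ≤ E := by
      rw [hE, MonoidHom.map_closure]
      refine Subgroup.closure_mono ?_
      rintro _ ⟨_, ⟨g', hg', b, hb, rfl⟩, rfl⟩
      exact ⟨g * g', mul_mem hg hg', b, hb,
        show g * (g' * b * g'⁻¹) * g⁻¹ = g * g' * b * (g * g')⁻¹ by group⟩
    exact hle (Subgroup.mem_map_of_mem _ hn)
  have hgE := hgain E hER hA1E (hEem.of_le hWU)
    (fun z hz => hG1E (Subgroup.subset_closure (Set.mem_union_right _ hz)))
    (fun g hg => hG1E (Subgroup.subset_closure (Set.mem_union_left _ hg)))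
  -- lower bound on the order of the image of `E`
  set φ := QuotientGroup.mk' C with hφ
  set Eb := E.map φ with hEb'
  set hom := QuotientGroup.map C (Subgroup.centralizer (W : Set L)) (MonoidHom.id L)
    (fun g hg => Subgroup.centralizer_le hWU hg) with hhom
  have hcomp : hom.comp φ = π := MonoidHom.ext fun g => rfl
  have hfixE : α ^ 2 ≤ fixIdx (A.map φ) Eb := by
    refine hgE.trans (le_trans ?_ (fixIdx_le_of_le_right
      (Subgroup.map_mono (inf_le_left : E ⊓ Subgroup.centralizer (W0 : Set L) ≤ E))))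
    rw [← hcomp, ← Subgroup.map_map, ← Subgroup.map_map]
    exact fixIdx_map_le hom _ _
  have hA1K : A1.map φ ≤ Eb ⊓ Subgroup.centralizer (A.map φ : Set (L ⧸ C)) := by
    refine le_inf (Subgroup.map_mono hA1E) ?_
    rintro _ ⟨b, hb, rfl⟩
    exact map_mem_centralizer φ (CfsgLib.ThompsonJ.isElementaryAbelian_le_centralizer hA hb.1)
  have hcard : actCard A1 U * α ^ 2 ≤ actCard E U := by
    rw [actCard_eq_card_map, actCard_eq_card_map]
    calc Nat.card (A1.map φ) * α ^ 2
        ≤ Nat.card ↥(Eb ⊓ Subgroup.centralizer (A.map φ : Set (L ⧸ C))) * fixIdx (A.map φ) Eb :=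
          Nat.mul_le_mul (Nat.le_of_dvd Nat.card_pos (Subgroup.card_dvd_of_le hA1K)) hfixE
      _ = Nat.card Eb := by
          rw [fixIdx, ← Subgroup.relIndex_bot_left, Subgroup.relIndex_mul_relIndex _ _ _ bot_le
            inf_le_left, Subgroup.relIndex_bot_left]
  have hfE : fixIdx E U ≤ Y.relIndex F * fixIdx A U := by
    refine (relIndex_le_of_le_left (le_inf (hYF.trans inf_le_left) ?_) U).trans ?_
    · refine Subgroup.le_centralizer_iff.1 ((Subgroup.closure_le _).2 ?_)
      rintro _ ⟨g', hg', b, hb, rfl⟩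
      refine mul_mem (mul_mem (hG1Y hg') ?_) (inv_mem (hG1Y hg'))
      exact hG1Y (Subgroup.subset_closure (Set.mem_union_left _ hb.1))
    · rw [fixIdx, Subgroup.relIndex_mul_relIndex _ _ _ hYF inf_le_left]
  have hh1 : fixIdx A1 U * β ^ 2 ≤ fixIdx A U := by
    calc fixIdx A1 U * β ^ 2 ≤ fixIdx A1 U * h := Nat.mul_le_mul le_rfl (hYβ.trans hY1h)
      _ = fixIdx A U := by
          rw [mul_comm, hh, fixIdx]
          exact Subgroup.relIndex_mul_relIndex _ _ _
            (inf_le_inf_left U (Subgroup.centralizer_le inf_le_left)) inf_le_left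
  have htα : α * β = t := by rw [hαβ, ht]
  exact false_of_counts (hY.trans hcI) (by rw [htα]; exact hIst) hh1 hfam1 hcard
    (hfam E hER hEem) hfE (fixIdx_pos _ _) (relIndex_pos _ _) hs0 (by rw [htα]; exact ht2)

end CfsgLib.SFourStep
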