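import Cfsg.Agent.Lib.SFourStep.EGroup

/-!
The largest subgroup of `Ω₁(Z(J(S)))` invariant under `N(J(S))` and satisfying the bound with exponent
`3/2` on the normal subgroups of `N(J(S))` inducing 2-groups on it.
-/

set_option autoImplicit false
set_option linter.style.haveILetI false

namespace CfsgLib.SFourStep

open Cfsg CfsgLib.SFourFree

universe u

variable {L : Type u} [Group L]

/-- A good submodule of `Ω₁(Z(J(S)))`. -/
def RadGood (S X : Subgroup L) : Prop :=
  X ≤ omegaOne 2 (centerThompsonOf 2 S) ∧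
    Subgroup.normalizer (thompsonSubgroupOf 2 S : Set L) ≤ Subgroup.normalizer (X : Set L) ∧
    ∀ N : Subgroup L, N ≤ Subgroup.normalizer (thompsonSubgroupOf 2 S : Set L) →
      Subgroup.normalizer (thompsonSubgroupOf 2 S : Set L) ≤ Subgroup.normalizer (N : Set L) →
      (∀ n ∈ N, ∃ k : ℕ, n ^ 2 ^ k ∈ Subgroup.centralizer (X : Set L)) →
        ∀ B : Subgroup L, B ≤ N → B ≤ S → ElemMod B X → Lt32 B X

theorem le_normalizer_thompson (S : Subgroup L) :
    S ≤ Subgroup.normalizer (thompsonSubgroupOf 2 S : Set L) :=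
  Subgroup.le_normalizer.trans (CfsgLib.ThompsonJ.normalizer_le_normalizer_thompsonSubgroupOf 2 S)

theorem omegaOne_centerThompsonOf_le_self (S : Subgroup L) :
    omegaOne 2 (centerThompsonOf 2 S) ≤ S :=
  (CfsgLib.ThompsonJ.omegaOne_le 2 _).trans
    (inf_le_left.trans (CfsgLib.ThompsonJ.thompsonSubgroupOf_le 2 S))

theorem thompson_le_centralizer_omega (S : Subgroup L) :
    thompsonSubgroupOf 2 S ≤ Subgroup.centralizer (omegaOne 2 (centerThompsonOf 2 S) : Set L) :=
  Subgroup.le_centralizer_iff.1 ((CfsgLib.ThompsonJ.omegaOne_le 2 _).trans inf_le_right)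

theorem normalizer_le_normalizer_omega (S : Subgroup L) :
    Subgroup.normalizer (thompsonSubgroupOf 2 S : Set L) ≤
      Subgroup.normalizer (omegaOne 2 (centerThompsonOf 2 S) : Set L) := by
  intro g hg
  have hinj : Function.Injective (MulAut.conj g).toMonoidHom := (MulAut.conj g).injective
  rw [Subgroup.mem_normalizer_iff_map_conj_eq] at hg ⊢
  show (omegaOne 2 (centerThompsonOf 2 S)).map (MulAut.conj g).toMonoidHom = _
  rw [CfsgLib.ThompsonJ.centerThompsonOf_def, CfsgLib.ThompsonJ.map_omegaOne hinj,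
    CfsgLib.ThompsonJ.map_inf_centralizer hinj]
  exact congrArg (fun K : Subgroup L => omegaOne 2 (K ⊓ Subgroup.centralizer (K : Set L))) hg

theorem radGood_bot (S : Subgroup L) : RadGood S ⊥ :=
  ⟨bot_le, by
    intro g _
    rw [Subgroup.mem_normalizer_iff]
    intro x
    simp [Subgroup.mem_bot],
    fun _ _ _ _ B _ _ _ => lt32_bot B⟩

variable [Finite L]

theorem exists_max_radGood (S : Subgroup L) :
    ∃ X, RadGood S X ∧ ∀ Y, RadGood S Y → X ≤ Y → Y ≤ X := by
  obtain ⟨X, hX, hmax⟩ := Set.Finite.exists_maximal (s := {X : Subgroup L | RadGood S X})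
    (Set.toFinite _) ⟨⊥, radGood_bot S⟩
  exact ⟨X, hX, fun Y hY hle => hmax hY hle⟩

/-- A subgroup inducing a 2-group on a module lies in a Sylow 2-subgroup times the centraliser. -/
theorem le_sylow_sup_of_pow_mem (S : Sylow 2 L) {M N Y : Subgroup L}
    (hSM : (S : Subgroup L) ≤ M) (hYM : Y ≤ M) (hMY : M ≤ Subgroup.normalizer (Y : Set L))
    (hNM : N ≤ M) (hMN : M ≤ Subgroup.normalizer (N : Set L))
    (h : ∀ n ∈ N, ∃ k : ℕ, n ^ 2 ^ k ∈ Subgroup.centralizer (Y : Set L)) :
    N ≤ (S : Subgroup L) ⊔ (M ⊓ Subgroup.centralizer (Y : Set L)) := by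
  haveI : (Y.subgroupOf M).Normal := Subgroup.normal_subgroupOf_of_le_normalizer hMY
  haveI : (N.subgroupOf M).Normal := Subgroup.normal_subgroupOf_of_le_normalizer hMN
  have h1 : N.subgroupOf M ≤ rad2 (Y.subgroupOf M) := le_rad2 fun n hn => by
    obtain ⟨k, hk⟩ := h _ hn
    exact ⟨k, Subgroup.mem_centralizer_iff.2 fun w hw =>
      Subtype.ext (Subgroup.mem_centralizer_iff.1 hk (w : L) hw)⟩
  have h2 := Subgroup.map_mono (f := M.subtype)
    (h1.trans (rad2_le_sylow_sup (S.subtype hSM) (Y.subgroupOf M)))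
  rw [Subgroup.map_subgroupOf_eq_of_le hNM, Subgroup.map_sup,
    show (S.subtype hSM : Subgroup M).map M.subtype = S from Subgroup.map_subgroupOf_eq_of_le hSM] at h2
  refine h2.trans (sup_le_sup_left ?_ _)
  rintro _ ⟨g, hg, rfl⟩
  exact ⟨g.2, Subgroup.mem_centralizer_iff.2 fun w hw =>
    congrArg Subtype.val (Subgroup.mem_centralizer_iff.1 hg ⟨w, hYM hw⟩ hw)⟩

/-- Replacing a group of operators by a subgroup of `P` inducing the same action. -/
theorem lt32_transfer {B P V C : Subgroup L} (hB : B ≤ Subgroup.normalizer (V : Set L))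
    (hC : C ≤ Subgroup.centralizer (V : Set L)) (hPC : P ≤ Subgroup.normalizer (C : Set L))
    (hBP : B ≤ P ⊔ C) (he : ElemMod B V)
    (h : ∀ R : Subgroup L, R ≤ P ⊓ (B ⊔ C) → ElemMod R V → Lt32 R V) : Lt32 B V := by
  set R := P ⊓ (B ⊔ C) with hR
  have hRB : R ≤ B ⊔ Subgroup.centralizer (V : Set L) := inf_le_right.trans (sup_le_sup_left hC B)
  have hBR : B ≤ R ⊔ Subgroup.centralizer (V : Set L) := by
    refine le_trans ?_ (sup_le_sup_left hC R)
    intro b hb
    have hb' := hBP hb
    rw [← SetLike.mem_coe, Subgroup.coe_mul_of_left_le_normalizer_right P C hPC] at hb'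
    obtain ⟨p, hp, c, hc, rfl⟩ := hb'
    refine Subgroup.mul_mem_sup ⟨hp, ?_⟩ hc
    have := (B ⊔ C).mul_mem (Subgroup.mem_sup_left hb) (Subgroup.mem_sup_right (C.inv_mem hc))
    simpa using this
  exact lt32_of_sup_eq hB hRB hBR (h R le_rfl (elemMod_of_le_sup hB hRB he))

theorem elemMod_map_iff {M : Type*} [Group M] {f : L →* M} (hf : Function.Injective f)
    {A U : Subgroup L} : ElemMod (A.map f) (U.map f) ↔ ElemMod A U := by
  refine ⟨fun h => ⟨fun a ha => ?_, fun a ha b hb => ?_⟩, fun h => h.map f⟩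
  · refine Subgroup.mem_centralizer_iff.2 fun w hw => hf ?_
    rw [map_mul, map_mul, map_pow]
    exact Subgroup.mem_centralizer_iff.1 (h.1 _ (Subgroup.mem_map_of_mem f ha)) _
      (Subgroup.mem_map_of_mem f hw)
  · refine Subgroup.mem_centralizer_iff.2 fun w hw => hf ?_
    simp only [map_mul, map_inv]
    exact Subgroup.mem_centralizer_iff.1
      (h.2 _ (Subgroup.mem_map_of_mem f ha) _ (Subgroup.mem_map_of_mem f hb)) _
      (Subgroup.mem_map_of_mem f hw)

/-- The maximal good submodule absorbs the good modules of its centraliser in `S`. -/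
theorem le_of_radGood_max (S : Sylow 2 L) {X : Subgroup L} (hX : RadGood (S : Subgroup L) X)
    (hmax : ∀ Y, RadGood (S : Subgroup L) Y → X ≤ Y → Y ≤ X) {V : Subgroup L}
    (hVD : V ≤ omegaOne 2 (centerThompsonOf 2 (S : Subgroup L)))
    (hPV : (S : Subgroup L) ⊓ Subgroup.centralizer (X : Set L) ≤ Subgroup.normalizer (V : Set L))
    (h : ∀ R : Subgroup L, R ≤ (S : Subgroup L) ⊓ Subgroup.centralizer (X : Set L) →
      ElemMod R V → Lt32 R V) : V ≤ X := by
  classical
  set S' : Subgroup L := (S : Subgroup L) with hS'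
  set M := Subgroup.normalizer (thompsonSubgroupOf 2 S' : Set L) with hM
  set D := omegaOne 2 (centerThompsonOf 2 S') with hD
  have hSM : S' ≤ M := le_normalizer_thompson S'
  have hMD : M ≤ Subgroup.normalizer (D : Set L) := normalizer_le_normalizer_omega S'
  haveI : Fintype M := Fintype.ofFinite M
  set s : Finset (Subgroup L) :=
    Finset.univ.image fun m : M => V.map (MulAut.conj (m : L)).toMonoidHom with hs
  set Y0 := s.sup id with hY0
  set Y := X ⊔ Y0 with hY
  have hmem : ∀ m : M, V.map (MulAut.conj (m : L)).toMonoidHom ≤ Y0 := fun m =>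
    Finset.le_sup (f := id) (Finset.mem_image.2 ⟨m, Finset.mem_univ m, rfl⟩)
  have hY0D : Y0 ≤ D := Finset.sup_le fun W hW => by
    obtain ⟨m, -, rfl⟩ := Finset.mem_image.1 hW
    exact (Subgroup.map_mono hVD).trans (Subgroup.mem_normalizer_iff_map_conj_eq.mp (hMD m.2)).le
  have hYD : Y ≤ D := sup_le hX.1 hY0D
  have hMY : M ≤ Subgroup.normalizer (Y : Set L) := fun m hm => by
    refine CfsgLib.CoprimeAction.mem_normalizer_of_conj_mem fun t ht => ?_
    have hle : Y.map (MulAut.conj m).toMonoidHom ≤ Y := by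
      rw [hY, Subgroup.map_sup]
      refine sup_le_sup (Subgroup.mem_normalizer_iff_map_conj_eq.mp (hX.2.1 hm)).le ?_
      rw [Subgroup.map_le_iff_le_comap]
      refine Finset.sup_le fun W hW => ?_
      obtain ⟨m', -, rfl⟩ := Finset.mem_image.1 hW
      rw [id, ← Subgroup.map_le_iff_le_comap, Subgroup.map_map]
      have : (MulAut.conj m).toMonoidHom.comp (MulAut.conj (m' : L)).toMonoidHom =
          (MulAut.conj (((⟨m, hm⟩ : M) * m' : M) : L)).toMonoidHom := by
        ext y; simp [mul_assoc]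
      rw [this]
      exact hmem _
    exact hle (Subgroup.mem_map_of_mem _ ht)
  have hYe : IsElementaryAbelian 2 Y :=
    CfsgLib.ThompsonJ.isElementaryAbelian_mono
      (CfsgLib.ThompsonJ.isElementaryAbelian_omegaOne_centerThompsonOf 2 S') hYD
  have hYM : Y ≤ M := hYD.trans ((omegaOne_centerThompsonOf_le_self S').trans hSM)
  set C := M ⊓ Subgroup.centralizer (Y : Set L) with hC
  have hMC : M ≤ Subgroup.normalizer (C : Set L) := fun m hm =>
    CfsgLib.CoprimeAction.mem_normalizer_of_conj_mem fun c hc =>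
      ⟨M.mul_mem (M.mul_mem hm hc.1) (M.inv_mem hm), mem_centralizer_of_conj_eq fun w hw => by
        have hw' : m⁻¹ * w * m ∈ Y := (Subgroup.mem_normalizer_iff''.1 (hMY hm) w).1 hw
        calc m * c * m⁻¹ * w * (m * c * m⁻¹)⁻¹ = m * (c * (m⁻¹ * w * m) * c⁻¹) * m⁻¹ := by group
          _ = w := by rw [conj_eq_of_mem_centralizer hc.2 hw']; group⟩
  have hVY : V ≤ Y := by
    have h1 := hmem 1
    intro t ht
    exact Subgroup.mem_sup_right (h1 ⟨t, ht, by simp⟩)
  have hgood : RadGood S' Y := by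
    refine ⟨hYD, hMY, fun N hNM hMN hN B hBN hBS hBe => ?_⟩
    have hX0 : Lt32 B X := hX.2.2 N hNM hMN
      (fun n hn => (hN n hn).imp fun _ hk => Subgroup.centralizer_le
        (SetLike.coe_subset_coe.2 le_sup_left) hk) B hBN hBS (hBe.of_le le_sup_left)
    refine lt32_sup hYe hX0 ?_
    refine lt32_finset_sup s (CfsgLib.ThompsonJ.isElementaryAbelian_mono hYe le_sup_right) ?_ _ le_rfl
    intro W hW B1 hB1
    obtain ⟨m, -, rfl⟩ := Finset.mem_image.1 hW
    set cm := (MulAut.conj (m : L)).toMonoidHom with hcm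
    have hinj : Function.Injective cm := (MulAut.conj (m : L)).injective
    set B2 := B1.comap cm with hB2
    have eB : B2.map cm = B1 :=
      Subgroup.map_comap_eq_self_of_surjective (MulAut.conj (m : L)).surjective B1
    have hB1N : ∀ y, y ∈ B1 → y ∈ N ∧ y ∈ Subgroup.centralizer (X : Set L) := fun y hy =>
      ⟨hBN (hB1 hy).1, (hB1 hy).2⟩
    have hB2N : ∀ y, y ∈ B2 → y ∈ N ∧ y ∈ Subgroup.centralizer (X : Set L) := by
      intro y hy
      have hy1 : (m : L) * y * (m : L)⁻¹ ∈ B1 := hy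
      refine ⟨(Subgroup.mem_normalizer_iff.1 (hMN m.2) y).2 (hB1N _ hy1).1,
        mem_centralizer_of_conj_eq fun w hw => ?_⟩
      have hw' : (m : L) * w * (m : L)⁻¹ ∈ X := (Subgroup.mem_normalizer_iff.1 (hX.2.1 m.2) w).1 hw
      refine (MulAut.conj (m : L)).injective ?_
      show (m : L) * (y * w * y⁻¹) * (m : L)⁻¹ = (m : L) * w * (m : L)⁻¹
      calc (m : L) * (y * w * y⁻¹) * (m : L)⁻¹
          = ((m : L) * y * (m : L)⁻¹) * ((m : L) * w * (m : L)⁻¹) * ((m : L) * y * (m : L)⁻¹)⁻¹ := by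
            group
        _ = _ := conj_eq_of_mem_centralizer (hB1N _ hy1).2 hw'
    rw [← eB, lt32_map hinj]
    have he2 : ElemMod B2 V := by
      rw [← elemMod_map_iff hinj, eB]
      exact (hBe.mono (hB1.trans inf_le_left)).of_le ((hmem m).trans le_sup_right)
    have hB2P : B2 ≤ (S' ⊓ Subgroup.centralizer (X : Set L)) ⊔ C := by
      intro y hy
      have hy' := le_sylow_sup_of_pow_mem S hSM hYM hMY hNM hMN hN (hB2N y hy).1
      rw [← SetLike.mem_coe, Subgroup.coe_mul_of_left_le_normalizer_right S' C (hSM.trans hMC)] at hy'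
      obtain ⟨t, ht, c, hc, rfl⟩ := hy'
      refine Subgroup.mul_mem_sup ⟨ht, ?_⟩ hc
      have := (Subgroup.centralizer (X : Set L)).mul_mem (hB2N _ hy).2
        (inv_mem (Subgroup.centralizer_le (SetLike.coe_subset_coe.2 le_sup_left) hc.2))
      simpa using this
    have hCV : C ≤ Subgroup.centralizer (V : Set L) := inf_le_right.trans (Subgroup.centralizer_le hVY)
    refine lt32_transfer (hB2P.trans (sup_le hPV (hCV.trans (Subgroup.centralizer_le_normalizer _))))
      hCV (inf_le_left.trans (hSM.trans hMC)) hB2P he2 fun R hR hRe => h R (hR.trans inf_le_left) hRe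
  exact hVY.trans (hmax Y hgood le_sup_left)

/-- `S ∩ C(X)` is an E-group. -/
theorem isEGroup_inf_centralizer (S : Sylow 2 L) {X : Subgroup L} (hX : RadGood (S : Subgroup L) X)
    (hmax : ∀ Y, RadGood (S : Subgroup L) Y → X ≤ Y → Y ≤ X) :
    IsEGroup ↥((S : Subgroup L) ⊓ Subgroup.centralizer (X : Set L)) := by
  refine isEGroup_of_forall fun V hVP hPV hV h => ?_
  have hJP : thompsonSubgroupOf 2 (S : Subgroup L) ≤
      (S : Subgroup L) ⊓ Subgroup.centralizer (X : Set L) :=
    le_inf (CfsgLib.ThompsonJ.thompsonSubgroupOf_le 2 _)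
      ((thompson_le_centralizer_omega _).trans (Subgroup.centralizer_le hX.1))
  have hJV : V ≤ Subgroup.centralizer (thompsonSubgroupOf 2 (S : Subgroup L) : Set L) :=
    Subgroup.le_centralizer_iff.1 (CfsgLib.ThompsonJ.thompsonSubgroupOf_le_iff.2 fun A hA =>
      le_centralizer_of_lt32 hA hV (hVP.trans inf_le_left)
        (h A ((CfsgLib.ThompsonJ.le_thompsonSubgroupOf hA).trans hJP)
          (elemMod_of_isElementaryAbelian hA.elem V)))
  have hVD : V ≤ omegaOne 2 (centerThompsonOf 2 (S : Subgroup L)) :=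
    (CfsgLib.ThompsonJ.le_omegaOne hV (le_inf (hVP.trans inf_le_left) hJV)).trans
      (CfsgLib.ThompsonJ.omegaOne_inf_centralizer_le_thompsonSubgroupOf _)
  exact inf_le_right.trans (Subgroup.centralizer_le (le_of_radGood_max S hX hmax hVD hPV h))

/-- The maximal good submodule contains `Ω₁(Z(Ĵ(S)))`. -/
theorem omegaEGen_le_of_max (S : Sylow 2 L) {X : Subgroup L} (hX : RadGood (S : Subgroup L) X)
    (hmax : ∀ Y, RadGood (S : Subgroup L) Y → X ≤ Y → Y ≤ X) :
    omegaEGen (S : Subgroup L) ≤ X := by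
  have hP : (S : Subgroup L) ⊓ Subgroup.centralizer (X : Set L) ≤ eGen (S : Subgroup L) :=
    le_sSup ⟨inf_le_left, isEGroup_inf_centralizer S hX hmax,
      le_inf (CfsgLib.ThompsonJ.thompsonSubgroupOf_le 2 _)
        ((thompson_le_centralizer_omega _).trans (Subgroup.centralizer_le hX.1))⟩
  have hPc : (S : Subgroup L) ⊓ Subgroup.centralizer (X : Set L) ≤
      Subgroup.centralizer (omegaEGen (S : Subgroup L) : Set L) :=
    hP.trans (Subgroup.le_centralizer_iff.1 ((CfsgLib.ThompsonJ.omegaOne_le 2 _).trans inf_le_right))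
  exact le_of_radGood_max S hX hmax (omegaEGen_le_omegaOne_centerThompsonOf _)
    (hPc.trans (Subgroup.centralizer_le_normalizer _)) fun R hR _ =>
      lt32_of_le_centralizer (hR.trans hPc)

end CfsgLib.SFourStep
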