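import Cfsg.Agent.Lib.SFourStep.InPCore
import Cfsg.Agent.Lib.SFourStep.Radical
import Cfsg.Agent.Lib.SFourStep.Offender

/-!
In the irreducible case the Thompson subgroup centralises a normal subgroup containing `Ω₁(Z(Ĵ(S)))`.
-/

set_option autoImplicit false
set_option linter.style.haveILetI false

namespace CfsgLib.SFourStep

open Cfsg CfsgLib.SFourFree

universe u

variable {L : Type u} [Group L] [Finite L]

/-- Replacement: if the Thompson subgroup does not centralise a normal elementary abelian subgroup,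
some elementary abelian subgroup of largest order is a quadratic offender on it. -/
theorem exists_quadratic_offender {U : Subgroup L} [U.Normal] (hU : IsElementaryAbelian 2 U)
    {P : Subgroup L} (hUP : U ≤ P)
    (h : ¬ thompsonSubgroupOf 2 P ≤ Subgroup.centralizer (U : Set L)) :
    ∃ As, CfsgLib.ThompsonJ.IsMaxEA 2 P As ∧ ¬ As ≤ Subgroup.centralizer (U : Set L) ∧
      (∀ w ∈ U, ∀ a ∈ As, ∀ b ∈ As, b * (a * w * a⁻¹ * w⁻¹) * b⁻¹ = a * w * a⁻¹ * w⁻¹) := by
  haveI : Fact (Nat.Prime 2) := ⟨Nat.prime_two⟩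
  rw [CfsgLib.ThompsonJ.thompsonSubgroupOf_le_iff] at h
  push Not at h
  obtain ⟨A, hA, hAC⟩ := h
  have hU' : IsElementaryAbelian 2 (U.subgroupOf P) :=
    CfsgLib.ThompsonJ.isElementaryAbelian_subgroupOf hU
  have hA' : A.subgroupOf P ∈ maxElementaryAbelianSubgroups 2 P := by
    rw [CfsgLib.ThompsonJ.mem_max_subgroup_iff, Subgroup.map_subgroupOf_eq_of_le hA.le]
    exact hA
  obtain ⟨hmax, hquad, hnt⟩ := Cfsg.Agent.S0607.result (U.subgroupOf P) hU' (A.subgroupOf P) hA'
  set A2 : Subgroup ↥P := ⁅U.subgroupOf P, A.subgroupOf P⁆ ⊔ (A.subgroupOf P ⊓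
    Subgroup.centralizer ((⁅U.subgroupOf P, A.subgroupOf P⁆ : Subgroup ↥P) : Set ↥P)) with hA2
  set As := A2.map P.subtype with hAs
  have hmap1 : ∀ X : Subgroup ↥P, (⁅U.subgroupOf P, X⁆ : Subgroup ↥P).map P.subtype =
      ⁅U, X.map P.subtype⁆ := fun X => by
    rw [Subgroup.map_commutator, Subgroup.map_subgroupOf_eq_of_le hUP]
  have hquad' : ⁅⁅U, As⁆, As⁆ = ⊥ := by
    rw [hAs, ← hmap1, ← Subgroup.map_commutator, hquad, Subgroup.map_bot]
  refine ⟨As, CfsgLib.ThompsonJ.mem_max_subgroup_iff.1 hmax, ?_, fun w hw a ha b hb => ?_⟩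
  · intro h
    refine hnt (fun h0 => hAC (Subgroup.commutator_eq_bot_iff_le_centralizer.1 ?_)) ?_
    · have := congrArg (Subgroup.map P.subtype) h0
      rwa [hmap1, Subgroup.map_subgroupOf_eq_of_le hA.le, Subgroup.map_bot,
        Subgroup.commutator_comm] at this
    · have h0 : ⁅U, As⁆ = ⊥ := by
        rw [Subgroup.commutator_comm]; exact Subgroup.commutator_eq_bot_iff_le_centralizer.2 h
      rw [hAs, ← hmap1] at h0
      exact (Subgroup.map_eq_bot_iff_of_injective _ P.subtype_injective).1 h0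
  · have h1 : a * w * a⁻¹ * w⁻¹ ∈ ⁅U, As⁆ := by
      rw [Subgroup.commutator_comm]
      exact Subgroup.commutator_mem_commutator ha hw
    have h2 := Subgroup.commutator_eq_bot_iff_le_centralizer.1 hquad' h1
    rw [Subgroup.mem_centralizer_iff.1 h2 b hb, mul_inv_cancel_right]

/-- In the irreducible case a normal subgroup containing `Ω₁(Z(Ĵ(S)))` is centralised by the Thompson
subgroup. -/
theorem exists_normal_of_dichotomy (hR : RestrictedFactors L)
    (h4 : ¬ Involves (Equiv.Perm (Fin 4)) L)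
    (hchar : Subgroup.centralizer (pCore 2 L : Set L) ≤ pCore 2 L) (S : Sylow 2 L)
    (hdich : ∀ N : Subgroup L, N.Normal →
      (S : Subgroup L) ⊔ N = ⊤ ∨ (S : Subgroup L) ⊓ N ≤ pCore 2 L) :
    ∃ U : Subgroup L, U.Normal ∧ omegaEGen (S : Subgroup L) ≤ U ∧
      thompsonSubgroupOf 2 (S : Subgroup L) ≤ Subgroup.centralizer (U : Set L) := by
  classical
  haveI : Fact (Nat.Prime 2) := ⟨Nat.prime_two⟩
  set S' : Subgroup L := (S : Subgroup L) with hS'
  set M := Subgroup.normalizer (thompsonSubgroupOf 2 S' : Set L) with hM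
  set Q := pCore 2 L with hQ
  obtain ⟨X, hX, hmax⟩ := exists_max_radGood S'
  have hSM : S' ≤ M := le_normalizer_thompson S'
  have hQS : Q ≤ S' := CfsgLib.Cores.pCore_le_sylow S
  have hXe : IsElementaryAbelian 2 X :=
    CfsgLib.ThompsonJ.isElementaryAbelian_mono
      (CfsgLib.ThompsonJ.isElementaryAbelian_omegaOne_centerThompsonOf 2 S') hX.1
  have hQ2 : ∀ n ∈ Q, ∃ k : ℕ, n ^ 2 ^ k = 1 := fun n hn =>
    ((CfsgLib.Cores.isPGroup_pCore 2 L) ⟨n, hn⟩).imp fun _ hk => congrArg Subtype.val hk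
  have hgoodQ : ∀ B : Subgroup L, B ≤ Q → ElemMod B X → Lt32 B X := fun B hB hBe =>
    hX.2.2 Q (hQS.trans hSM) (fun m _ => by rw [Subgroup.normalizer_eq_top Q]; trivial)
      (fun n hn => (hQ2 n hn).imp fun _ hk => by rw [hk]; exact one_mem _) B hB (hB.trans hQS) hBe
  have hXQ : X ≤ Q := le_pCore_of_lt32 hR h4 hchar hXe ((hQS.trans hSM).trans hX.2.1) hgoodQ
  refine ⟨Subgroup.normalClosure (X : Set L), Subgroup.normalClosure_normal,
    (omegaEGen_le_of_max S hX hmax).trans Subgroup.le_normalClosure, ?_⟩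
  set U := Subgroup.normalClosure (X : Set L) with hUdef
  have hUQ : U ≤ Q := Subgroup.normalClosure_le_normal hXQ
  haveI : Fintype L := Fintype.ofFinite L
  set s : Finset (Subgroup L) :=
    Finset.univ.image fun g : L => X.map (MulAut.conj g).toMonoidHom with hs
  have hUs : U = s.sup id := by
    refine le_antisymm ((Subgroup.closure_le _).2 fun y hy => ?_) (Finset.sup_le fun W hW => ?_)
    · obtain ⟨t, ht, hc⟩ := Group.mem_conjugatesOfSet_iff.1 hy
      obtain ⟨g, hg⟩ := isConj_iff.1 hc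
      exact Finset.le_sup (f := id) (b := X.map (MulAut.conj g).toMonoidHom)
        (Finset.mem_image.2 ⟨g, Finset.mem_univ g, rfl⟩) ⟨t, ht, hg⟩
    · obtain ⟨g, -, rfl⟩ := Finset.mem_image.1 hW
      rintro _ ⟨t, ht, rfl⟩
      exact Subgroup.normalClosure_normal.conj_mem t (Subgroup.subset_normalClosure ht) g
  -- transport of the bound to conjugates
  have hconj : ∀ (g : L) (B : Subgroup L), B ≤ Q → ElemMod B (X.map (MulAut.conj g).toMonoidHom) →
      Lt32 B (X.map (MulAut.conj g).toMonoidHom) := by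
    intro g B hB hBe
    have hinj : Function.Injective (MulAut.conj g).toMonoidHom := (MulAut.conj g).injective
    have eB : (B.comap (MulAut.conj g).toMonoidHom).map (MulAut.conj g).toMonoidHom = B :=
      Subgroup.map_comap_eq_self_of_surjective (MulAut.conj g).surjective B
    rw [← eB, elemMod_map_iff hinj] at hBe
    rw [← eB, lt32_map hinj]
    refine hgoodQ _ (fun y hy => ?_) hBe
    have := (inferInstance : Q.Normal).conj_mem _ (hB hy) g⁻¹
    simpa [mul_assoc] using this
  have hQc : ∀ g : L, X.map (MulAut.conj g).toMonoidHom ≤ Q := fun g => by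
    rintro _ ⟨t, ht, rfl⟩
    exact (inferInstance : Q.Normal).conj_mem t (hXQ ht) g
  have hpair : ∀ W ∈ s, ∀ W' ∈ s, W ≤ Subgroup.centralizer (W' : Set L) := by
    intro W hW W' hW'
    obtain ⟨g, -, rfl⟩ := Finset.mem_image.1 hW
    obtain ⟨g', -, rfl⟩ := Finset.mem_image.1 hW'
    set X1 := X.map (MulAut.conj g).toMonoidHom
    set X2 := X.map (MulAut.conj g').toMonoidHom
    have h1e : IsElementaryAbelian 2 X1 := CfsgLib.ThompsonJ.isElementaryAbelian_map hXe _
    have h2e : IsElementaryAbelian 2 X2 := CfsgLib.ThompsonJ.isElementaryAbelian_map hXe _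
    have b1 : actCard X1 X2 = 1 ∨ actCard X1 X2 ^ 3 < actCard X2 X1 ^ 2 :=
      hconj g' X1 (hQc g) (elemMod_of_isElementaryAbelian h1e X2)
    have b2 : actCard X2 X1 = 1 ∨ actCard X2 X1 ^ 3 < actCard X1 X2 ^ 2 :=
      hconj g X2 (hQc g') (elemMod_of_isElementaryAbelian h2e X1)
    have h1 : actCard X1 X2 = 1 := by
      by_contra hne
      have ha := b1.resolve_left hne
      have hpos : 0 < actCard X1 X2 := relIndex_pos _ _
      rcases b2 with hb | hb
      · rw [hb, one_pow] at ha
        have : 1 ≤ actCard X1 X2 ^ 3 := Nat.one_le_pow _ _ hpos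
        omega
      · have h9 : (actCard X1 X2 ^ 3) ^ 3 < (actCard X1 X2 ^ 2) ^ 2 :=
          calc (actCard X1 X2 ^ 3) ^ 3 < (actCard X2 X1 ^ 2) ^ 3 :=
                Nat.pow_lt_pow_left ha (by norm_num)
            _ = (actCard X2 X1 ^ 3) ^ 2 := by ring
            _ ≤ (actCard X1 X2 ^ 2) ^ 2 := Nat.pow_le_pow_left hb.le 2
        rw [← pow_mul, ← pow_mul] at h9
        have := Nat.pow_le_pow_right hpos (show 2 * 2 ≤ 3 * 3 by norm_num)
        omega
    exact fun t ht => ((Subgroup.relIndex_eq_one.1 h1) ht).2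
  have hUe : IsElementaryAbelian 2 U := by
    rw [hUs, Finset.sup_id_eq_sSup, sSup_eq_iSup']
    exact CfsgLib.ThompsonJ.isElementaryAbelian_iSup
      (fun W => by
        obtain ⟨g, -, hg⟩ := Finset.mem_image.1 (Finset.mem_coe.1 W.2)
        exact hg ▸ CfsgLib.ThompsonJ.isElementaryAbelian_map hXe _)
      (fun W W' => hpair W W.2 W' W'.2)
  haveI hUn : U.Normal := Subgroup.normalClosure_normal
  have hXU : X ≤ U := Subgroup.le_normalClosure
  have hCX : Subgroup.centralizer (U : Set L) ≤ Subgroup.normalizer (X : Set L) :=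
    (Subgroup.centralizer_le hXU).trans (Subgroup.centralizer_le_normalizer _)
  have hQR : Q ≤ rad2 U := le_rad2 fun n hn => (hQ2 n hn).imp fun _ hk => by rw [hk]; exact one_mem _
  have hfam : ∀ E : Subgroup L, E ≤ rad2 U → ElemMod E U → Lt32 E U := by
    intro E hE hEe
    have hh : ∀ W ∈ s, ∀ B ≤ E, Lt32 B W := by
      intro W hW B hB
      have hWU : W ≤ U := hUs ▸ Finset.le_sup (f := id) hW
      have hBW : ElemMod B W := (hEe.mono hB).of_le hWU
      obtain ⟨g, -, rfl⟩ := Finset.mem_image.1 hW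
      have hinj : Function.Injective (MulAut.conj g).toMonoidHom := (MulAut.conj g).injective
      have eB : (B.comap (MulAut.conj g).toMonoidHom).map (MulAut.conj g).toMonoidHom = B :=
        Subgroup.map_comap_eq_self_of_surjective (MulAut.conj g).surjective B
      rw [← eB, elemMod_map_iff hinj] at hBW
      rw [← eB, lt32_map hinj]
      set B' := B.comap (MulAut.conj g).toMonoidHom with hB'
      have hB'R : B' ≤ rad2 U := fun y hy => by
        have h1 := (rad2_normal U).conj_mem _ (hE (hB (hy : g * y * g⁻¹ ∈ B))) g⁻¹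
        simpa [mul_assoc] using h1
      have hdec : B' ≤ (S' ⊓ rad2 U) ⊔ Subgroup.centralizer (U : Set L) := by
        intro y hy
        have hy' := rad2_le_sylow_sup S U (hB'R hy)
        rw [← SetLike.mem_coe, Subgroup.mul_normal] at hy'
        obtain ⟨t, ht, c, hc, rfl⟩ := hy'
        refine Subgroup.mul_mem_sup ⟨ht, ?_⟩ hc
        have := (rad2 U).mul_mem (hB'R hy) (inv_mem (centralizer_le_rad2 U hc))
        simpa using this
      refine lt32_transfer (hdec.trans (sup_le ((inf_le_left.trans hSM).trans hX.2.1) hCX))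
        (Subgroup.centralizer_le hXU) (by rw [Subgroup.normalizer_eq_top]; exact le_top) hdec hBW
        fun R hR hRe => ?_
      refine hX.2.2 (rad2 U ⊓ M) inf_le_right (fun m hm => ?_) (fun n hn => ?_) R
        (le_inf ((hR.trans inf_le_left).trans inf_le_right)
          (((hR.trans inf_le_left).trans inf_le_left).trans hSM))
        ((hR.trans inf_le_left).trans inf_le_left) hRe
      · refine CfsgLib.CoprimeAction.mem_normalizer_of_conj_mem fun t ht => ?_
        exact ⟨(rad2_normal U).conj_mem t ht.1 m,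
          M.mul_mem (M.mul_mem hm ht.2) (M.inv_mem hm)⟩
      · exact (exists_pow_mem_of_mem_rad2 hn.1).imp fun _ hk => Subgroup.centralizer_le hXU hk
    have hUe' : IsElementaryAbelian 2 (s.sup id) := hUs ▸ hUe
    have := lt32_finset_sup s hUe' hh E le_rfl
    rwa [← hUs] at this
  by_contra hJ
  obtain ⟨As, hAs, hAC, hquad⟩ := exists_quadratic_offender hUe (hUQ.trans hQS) hJ
  refine false_of_quadratic_offender hR h4 hUe S
    (fun N hN => (hdich N hN).imp_right fun h => h.trans hQR) hfam (X := X) le_rfl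
    (hSM.trans hX.2.1) hAs.elem hAs.le (le_inf hXU ?_) hquad hAC
    (fixIdx_le_actCard_of_isMaxEA hAs hUe (hUQ.trans hQS))
  exact Subgroup.le_centralizer_iff.1 (((CfsgLib.ThompsonJ.le_thompsonSubgroupOf hAs).trans
    (thompson_le_centralizer_omega S')).trans (Subgroup.centralizer_le hX.1))

end CfsgLib.SFourStep
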